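import Cfsg.Agent.Class.Sp4O.Base
import Cfsg.Agent.Mit.Pair

/-!
Symplectic frames, and subgroups of `Sp₄(F)` without transvections: two collinear points cannot
both carry quadratic unipotent elements if one of them carries many.
-/

set_option autoImplicit false

namespace Cfsg.Lib.Class.Sp4O

open Matrix Module Cfsg.Geo Cfsg.Lib.Class.Asch Cfsg.Lib.Mit
open scoped MatrixGroups

variable {F : Type*} [Field F]

abbrev M2 (F : Type*) := Matrix (Fin 2) (Fin 2) F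

local notation "ω" => sympForm 2 F

/-- The standard basis vectors. -/
abbrev ev (i : I) : I → F := Pi.single i 1

theorem form_add_left (u v w : I → F) : ω (u + v) w = ω u w + ω v w := by
  simp [sympForm]

theorem form_add_right (u v w : I → F) : ω u (v + w) = ω u v + ω u w := by
  simp [sympForm, mulVec_add]

theorem form_sub_left (u v w : I → F) : ω (u - v) w = ω u w - ω v w := by
  simp [sympForm]

theorem form_sub_right (u v w : I → F) : ω u (v - w) = ω u v - ω u w := by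
  simp [sympForm, mulVec_sub]

theorem form_smul_left (c : F) (u w : I → F) : ω (c • u) w = c * ω u w := by
  simp [sympForm]

theorem form_smul_right (c : F) (u w : I → F) : ω u (c • w) = c * ω u w := by
  simp [sympForm, mulVec_smul]

theorem form_neg_left (u w : I → F) : ω (-u) w = -ω u w := by
  simp [sympForm]

theorem form_neg_right (u w : I → F) : ω u (-w) = -ω u w := by
  simp [sympForm, mulVec_neg]

theorem form_comm0 {u v : I → F} (h : ω u v = 0) : ω v u = 0 := by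
  rw [sympForm_skew, h, neg_zero]

theorem sp_rel {k : G4 F} (hk : k ∈ spGL 2 F) (i j : I) :
    k.1 (.inr 0) i * k.1 (.inl 0) j - k.1 (.inl 0) i * k.1 (.inr 0) j +
      (k.1 (.inr 1) i * k.1 (.inl 1) j - k.1 (.inl 1) i * k.1 (.inr 1) j) = J (Fin 2) F i j := by
  have := (mem_spGL 2 k).1 hk (ev i) (ev j)
  rw [sympForm_eq] at this
  simp only [mulVec_single_one, col_apply, Fin.sum_univ_two] at this
  rw [this]
  simp [sympForm]

/-- A symplectic basis is the image of the standard basis under an element of `Sp₄`. -/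
theorem exists_frame {x₁ x₂ y₁ y₂ : I → F} (h1 : ω x₁ x₂ = 0) (h2 : ω y₁ y₂ = 0)
    (h3 : ω x₁ y₁ = -1) (h4 : ω x₂ y₂ = -1) (h5 : ω x₁ y₂ = 0) (h6 : ω x₂ y₁ = 0) :
    ∃ g ∈ spGL 2 F, g.1 *ᵥ ev (.inl 0) = x₁ ∧ g.1 *ᵥ ev (.inl 1) = x₂ ∧
      g.1 *ᵥ ev (.inr 0) = y₁ ∧ g.1 *ᵥ ev (.inr 1) = y₂ := by
  let c : I → I → F := Sum.elim ![x₁, x₂] ![y₁, y₂]
  let M : M4 F := of fun i j => c j i
  have h : Mᵀ * J (Fin 2) F * M = J (Fin 2) F := by
    ext i j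
    have : (Mᵀ * J (Fin 2) F * M) i j = ω (c i) (c j) := by
      rw [Matrix.mul_assoc]; rfl
    rw [this]
    rcases i with i | i <;> rcases j with j | j <;> fin_cases i <;> fin_cases j <;>
      simp [c, J, sympForm_self, h1, h2, h3, h4, h5, h6, sympForm_skew 2 x₂ x₁,
        sympForm_skew 2 y₂ y₁, sympForm_skew 2 y₁ x₁, sympForm_skew 2 y₂ x₂, sympForm_skew 2 y₂ x₁,
        sympForm_skew 2 y₁ x₂]
  have h' : adj M * M = 1 := by
    rw [adj, Matrix.neg_mul, Matrix.mul_assoc (J _ _), Matrix.mul_assoc (J _ _), h, J_squared,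
      neg_neg]
  refine ⟨⟨M, adj M, mul_eq_one_comm.1 h', h'⟩, (mem_sp_iff _).2 h', ?_, ?_, ?_, ?_⟩ <;>
    · ext i; simp [M, c]

theorem exists_frame3 {x w₁ w₂ : I → F} (hx : x ≠ 0) (h1 : ω x w₁ = 0) (h2 : ω x w₂ = 0)
    (h3 : ω w₁ w₂ ≠ 0) : ∃ g ∈ spGL 2 F, ∃ κ : F, κ ≠ 0 ∧ g.1 *ᵥ ev (.inl 0) = x ∧
      g.1 *ᵥ ev (.inl 1) = w₁ ∧ g.1 *ᵥ ev (.inr 1) = κ • w₂ := by
  obtain ⟨y, hy⟩ : ∃ y, ω x y ≠ 0 := by
    by_contra! h
    exact hx (eq_zero_of_sympForm 2 x h)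
  obtain ⟨g, hg, e1, e2, -, e4⟩ := exists_frame (x₁ := x) (x₂ := w₁)
    (y₁ := (-(ω x y)⁻¹) • (y - (ω y w₂ / ω w₁ w₂) • w₁ + (ω y w₁ / ω w₁ w₂) • w₂))
    (y₂ := (-(ω w₁ w₂)⁻¹) • w₂) h1
    (by simp only [form_add_left, form_sub_left, form_smul_left, form_smul_right, sympForm_self]
        simp [h3])
    (by simp only [form_add_right, form_sub_right, form_smul_right]; simp [h1, h2, hy])
    (by rw [form_smul_right]; simp [h3]) (by rw [form_smul_right]; simp [h2])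
    (by simp only [form_add_right, form_sub_right, form_smul_right, sympForm_self]
        simp [h3, sympForm_skew 2 w₁ y])
  exact ⟨g, hg, _, by simpa using h3, e1, e2, e4⟩

theorem eq_sum_ev (c : I → F) : c = c (.inl 0) • ev (.inl 0) + c (.inl 1) • ev (.inl 1) +
    c (.inr 0) • ev (.inr 0) + c (.inr 1) • ev (.inr 1) := by
  ext i
  rcases i with i | i <;> fin_cases i <;> simp

theorem mulVec_inv_cancel (g : G4 F) (z : I → F) : g.1 *ᵥ ((g⁻¹).1 *ᵥ z) = z := by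
  rw [mulVec_mulVec, g.mul_inv, one_mulVec]

theorem inv_mulVec_cancel (g : G4 F) (z : I → F) : (g⁻¹).1 *ᵥ (g.1 *ᵥ z) = z := by
  rw [mulVec_mulVec, g.inv_mul, one_mulVec]

theorem inv_mulVec_of_eq {g : G4 F} {z z' : I → F} (h : g.1 *ᵥ z = z') : (g⁻¹).1 *ᵥ z' = z := by
  rw [← h, inv_mulVec_cancel]

/-- A Lagrangian plane is its own perpendicular. -/
theorem exists_of_perp {x w₁ w₂ z : I → F} (hx : x ≠ 0) (h1 : ω x w₁ = 0) (h2 : ω x w₂ = 0)
    (h3 : ω w₁ w₂ ≠ 0) (z1 : ω x z = 0) (z2 : ω w₁ z = 0) : ∃ s t : F, z = s • w₁ + t • x := by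
  obtain ⟨g, hg, κ, -, e1, e2, -⟩ := exists_frame3 hx h1 h2 h3
  have hz := mulVec_inv_cancel g z
  generalize (g⁻¹).1 *ᵥ z = c at hz
  subst hz e1 e2
  rw [(mem_spGL 2 g).1 hg] at z1 z2
  have c1 : c (.inr 0) = 0 := by simpa [sympForm_eq] using z1
  have c2 : c (.inr 1) = 0 := by simpa [sympForm_eq] using z2
  refine ⟨c (.inl 1), c (.inl 0), ?_⟩
  conv_lhs => rw [eq_sum_ev c, c1, c2]
  simp only [zero_smul, add_zero, mulVec_add, mulVec_smul, add_comm]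

theorem exists_step {x w₁ w₂ : I → F} (hx : x ≠ 0) (h1 : ω x w₁ = 0) (h2 : ω x w₂ = 0)
    (h3 : ω w₁ w₂ ≠ 0) {k : G4 F} (hk : k ∈ spGL 2 F) (k1 : k.1 *ᵥ x = x) (k2 : k.1 *ᵥ w₁ = w₁) :
    ∃ s t : F, k.1 *ᵥ w₂ = w₂ + s • w₁ + t • x := by
  obtain ⟨s, t, h⟩ := exists_of_perp (z := k.1 *ᵥ w₂ - w₂) hx h1 h2 h3
    (by rw [form_sub_right]; conv_lhs => rw [← k1, (mem_spGL 2 k).1 hk, k1, sub_self])
    (by rw [form_sub_right]; conv_lhs => rw [← k2, (mem_spGL 2 k).1 hk, k2, sub_self])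
  exact ⟨s, t, by rw [add_assoc, ← h]; abel⟩

/-- The group `P` seen from the frame `g`. -/
def cj (P : Subgroup (G4 F)) (g : G4 F) : Subgroup (G4 F) := P.comap (MulAut.conj g).toMonoidHom

theorem mem_cj {P : Subgroup (G4 F)} {g k : G4 F} : k ∈ cj P g ↔ g * k * g⁻¹ ∈ P := Iff.rfl

theorem mem_cj' {P : Subgroup (G4 F)} {k : G4 F} (hk : k ∈ P) (g : G4 F) :
    g⁻¹ * k * g ∈ cj P g := by simpa [mem_cj, mul_assoc] using hk

theorem cj_eq {P : Subgroup (G4 F)} {g : G4 F} (hg : g ∈ P) : cj P g = P := by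
  ext k
  rw [mem_cj, mul_mem_cancel_right (inv_mem hg), mul_mem_cancel_left hg]

theorem frame_mulVec {g k : G4 F} {z z' : I → F} (h : k.1 *ᵥ (g.1 *ᵥ z) = g.1 *ᵥ z') :
    (g⁻¹ * k * g).1 *ᵥ z = z' := by
  rw [Units.val_mul, Units.val_mul, ← mulVec_mulVec, ← mulVec_mulVec, h, inv_mulVec_cancel]

theorem frame_eq_one {g k : G4 F} : g⁻¹ * k * g = 1 ↔ k = 1 := by
  simp [mul_assoc, inv_mul_eq_one]

/-- A subgroup of `Sp₄` without transvections. -/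
structure Ctx (P : Subgroup (G4 F)) : Prop where
  le : P ≤ spGL 2 F
  tv : ∀ t ∈ P, ∀ v w : I → F, t.1 = 1 + vecMulVec v w → t = 1

variable {P : Subgroup (G4 F)}

theorem Ctx.frame (h : Ctx P) {g : G4 F} (hg : g ∈ spGL 2 F) : Ctx (cj P g) where
  le k hk := by
    have := h.le hk
    rwa [MulEquiv.coe_toMonoidHom, MulAut.conj_apply, mul_mem_cancel_right (inv_mem hg),
      mul_mem_cancel_left hg] at this
  tv t ht v w e := by
    have := h.tv _ ht (g.1 *ᵥ v) (w ᵥ* (g⁻¹).1) (by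
      simp [e, Matrix.mul_add, Matrix.add_mul, mul_vecMulVec, vecMulVec_mul])
    simpa using this

/-- Many elements fixing the plane spanned by `x` and `w`. -/
def Big (P : Subgroup (G4 F)) (x w : I → F) : Prop :=
  ∃ v ∈ P, ∃ v' ∈ P, v ≠ 1 ∧ v.1 *ᵥ x = x ∧ v.1 *ᵥ w = w ∧ v'.1 *ᵥ x = x ∧ v'.1 *ᵥ w = w ∧
    ((3 : F) ≠ 0 ∨ v' ≠ 1 ∧ v' ≠ v ∧ v' ≠ v⁻¹)

theorem Big.frame {g : G4 F} {x w : I → F} (h : Big P (g.1 *ᵥ x) (g.1 *ᵥ w)) :
    Big (cj P g) x w := by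
  obtain ⟨v, hv, v', hv', h1, h2, h3, h4, h5, h6⟩ := h
  refine ⟨_, mem_cj' hv g, _, mem_cj' hv' g, by simpa [mul_assoc, inv_mul_eq_one] using h1,
    frame_mulVec h2, frame_mulVec h3, frame_mulVec h4, frame_mulVec h5, h6.imp_right fun h =>
      ⟨by simpa [mul_assoc, inv_mul_eq_one] using h.1, by simpa using h.2.1, ?_⟩⟩
  simpa [mul_assoc] using h.2.2

theorem Big.conj {g : G4 F} (hg : g ∈ P) {x w : I → F} (h : Big P x w) :
    Big P (g.1 *ᵥ x) (g.1 *ᵥ w) := by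
  rw [← cj_eq (inv_mem hg)]
  exact Big.frame (by rwa [inv_mulVec_cancel, inv_mulVec_cancel])

theorem Big.span {x w : I → F} (h : Big P x w) (a b c d : F) :
    Big P (a • x + b • w) (c • x + d • w) := by
  obtain ⟨v, hv, v', hv', h1, h2, h3, h4, h5, h6⟩ := h
  exact ⟨v, hv, v', hv', h1, by simp [mulVec_add, mulVec_smul, *],
    by simp [mulVec_add, mulVec_smul, *], by simp [mulVec_add, mulVec_smul, *],
    by simp [mulVec_add, mulVec_smul, *], h6⟩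

/-- The Heisenberg group of the point `ev (inl 0)`. -/
def Hm (t b d : F) : M4 F := fromBlocks !![1, b; 0, 1] !![d, t; t, 0] 0 !![1, 0; -b, 1]

theorem col_eq {M : M4 F} {j : I} {z : I → F} (h : M *ᵥ ev j = z) (i : I) : M i j = z i := by
  rw [← h]; simp

theorem eq_Hm {k : G4 F} (hk : k ∈ spGL 2 F) {t b : F} (h1 : k.1 *ᵥ ev (.inl 0) = ev (.inl 0))
    (h2 : k.1 *ᵥ ev (.inl 1) = ev (.inl 1) + b • ev (.inl 0))
    (h3 : k.1 *ᵥ ev (.inr 1) = ev (.inr 1) + t • ev (.inl 0)) : ∃ d, k.1 = Hm t b d := by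
  have r1 := sp_rel hk (.inl 0) (.inr 0)
  have r2 := sp_rel hk (.inl 1) (.inr 0)
  have r3 := sp_rel hk (.inr 1) (.inr 0)
  simp [col_eq h1, col_eq h2, col_eq h3, J] at r1 r2 r3
  refine ⟨k.1 (.inl 0) (.inr 0), ?_⟩
  ext i j
  rcases i with i | i <;> rcases j with j | j <;> fin_cases i <;> fin_cases j <;>
    simp [Hm, col_eq h1, col_eq h2, col_eq h3] <;> grind

theorem Hm_tv (d : F) : Hm 0 0 d = 1 + vecMulVec (ev (.inl 0)) (d • ev (.inr 0)) := by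
  ext i j
  rcases i with i | i <;> rcases j with j | j <;> fin_cases i <;> fin_cases j <;>
    simp [Hm, vecMulVec_apply]

theorem Hm_comm (t b c d : F) :
    Hm t 0 c * Hm 0 b d = Hm 0 0 (-(2 * t * b)) * (Hm 0 b d * Hm t 0 c) := by
  ext i j
  rcases i with i | i <;> rcases j with j | j <;> fin_cases i <;> fin_cases j <;>
    simp [Hm, mul_apply, Fintype.sum_sum_type, Fin.sum_univ_two]
  ring

theorem Ctx.qq (h2 : (2 : F) ≠ 0) (h : Ctx P) {x w₁ w₂ : I → F} (hx : x ≠ 0) (h1 : ω x w₁ = 0)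
    (h2' : ω x w₂ = 0) (h3 : ω w₁ w₂ ≠ 0) {u v : G4 F} (hu : u ∈ P) (hv : v ∈ P) {t b : F}
    (u1 : u.1 *ᵥ x = x) (u2 : u.1 *ᵥ w₁ = w₁) (u3 : u.1 *ᵥ w₂ = w₂ + t • x)
    (v1 : v.1 *ᵥ x = x) (v2 : v.1 *ᵥ w₁ = w₁ + b • x) (v3 : v.1 *ᵥ w₂ = w₂) : u = 1 ∨ v = 1 := by
  obtain ⟨g, hg, κ, hκ, e1, e2, e3⟩ := exists_frame3 hx h1 h2' h3
  have C := h.frame hg
  have hu' := mem_cj' hu g
  have hv' := mem_cj' hv g
  obtain ⟨c, hc⟩ := eq_Hm (C.le hu') (t := κ * t) (b := 0) (frame_mulVec (by rw [e1, u1]))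
    (frame_mulVec (by rw [zero_smul, add_zero, e2, u2])) (frame_mulVec (by
      rw [mulVec_add, mulVec_smul, e1, e3, mulVec_smul, u3, smul_add, smul_smul]))
  obtain ⟨d, hd⟩ := eq_Hm (C.le hv') (t := 0) (b := b) (frame_mulVec (by rw [e1, v1]))
    (frame_mulVec (by rw [mulVec_add, mulVec_smul, e1, e2, v2])) (frame_mulVec (by
      rw [zero_smul, add_zero, e3, mulVec_smul, v3]))
  have k0 : ∀ k ∈ cj P g, ∀ d, k.1 = Hm 0 0 d → k = 1 := fun k hk d e =>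
    C.tv k hk _ _ (e.trans (Hm_tv d))
  have e1 : (g⁻¹ * u * g * (g⁻¹ * v * g) * (g⁻¹ * v * g * (g⁻¹ * u * g))⁻¹).1 =
      Hm 0 0 (-(2 * (κ * t) * b)) := by
    rw [Units.val_mul, Units.mul_inv_eq_iff_eq_mul, Units.val_mul _ (g⁻¹ * v * g),
      Units.val_mul _ (g⁻¹ * u * g), hc, hd, Hm_comm]
  have e2 := k0 _ (mul_mem (mul_mem hu' hv') (inv_mem (mul_mem hv' hu'))) _ e1
  rw [e2] at e1
  have e3 : t = 0 ∨ b = 0 := by
    simpa [Hm, h2, hκ] using congrFun (congrFun e1 (.inl 0)) (.inr 0)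
  refine e3.imp (fun e => frame_eq_one.1 (k0 _ hu' c ?_)) fun e => frame_eq_one.1 (k0 _ hv' d ?_)
  · rw [hc, e, mul_zero]
  · rw [hd, e]

/-- The stabiliser of the decomposition into the two standard hyperbolic planes. -/
def embM : SL(2, F) × SL(2, F) →* M4 F where
  toFun a := fromBlocks !![a.1 0 0, 0; 0, a.2 0 0] !![a.1 0 1, 0; 0, a.2 0 1]
    !![a.1 1 0, 0; 0, a.2 1 0] !![a.1 1 1, 0; 0, a.2 1 1]
  map_one' := by
    ext i j
    rcases i with i | i <;> rcases j with j | j <;> fin_cases i <;> fin_cases j <;> simp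
  map_mul' a b := by
    ext i j
    rcases i with i | i <;> rcases j with j | j <;> fin_cases i <;> fin_cases j <;>
      simp [mul_apply, Fintype.sum_sum_type, Fin.sum_univ_two]

/-- `SL₂ × SL₂` in `Sp₄`. -/
def emb : SL(2, F) × SL(2, F) →* G4 F := embM.toHomUnits

theorem coe_emb (a b : SL(2, F)) : (emb (a, b)).1 =
    fromBlocks !![a 0 0, 0; 0, b 0 0] !![a 0 1, 0; 0, b 0 1] !![a 1 0, 0; 0, b 1 0]
      !![a 1 1, 0; 0, b 1 1] := rfl

theorem eq_emb {k : G4 F} (hk : k ∈ spGL 2 F) {s r : F}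
    (h1 : k.1 *ᵥ ev (.inl 0) = ev (.inl 0))
    (h2 : k.1 *ᵥ ev (.inl 1) = ev (.inl 1) + r • ev (.inr 1))
    (h3 : k.1 *ᵥ ev (.inr 1) = ev (.inr 1) + s • ev (.inl 1)) :
    ∃ c, ∀ b : SL(2, F), b.1 = !![1, s; r, 1] → k = emb (slU c, b) := by
  have r1 := sp_rel hk (.inl 0) (.inr 0)
  have r2 := sp_rel hk (.inl 1) (.inr 0)
  have r3 := sp_rel hk (.inr 1) (.inr 0)
  have r4 := sp_rel hk (.inr 1) (.inl 1)
  simp [col_eq h1, col_eq h2, col_eq h3, J] at r1 r2 r3 r4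
  refine ⟨k.1 (.inl 0) (.inr 0), fun b hb => Units.ext ?_⟩
  have hb' : ∀ i j, b i j = !![1, s; r, 1] i j := fun i j => by rw [← hb]
  ext i j
  rcases i with i | i <;> rcases j with j | j <;> fin_cases i <;> fin_cases j <;>
    simp [coe_emb, col_eq h1, col_eq h2, col_eq h3, hb'] <;> grind

theorem Ctx.emb_right (h : Ctx P) {σ : F} (hσ : emb (1, slU σ) ∈ P) : σ = 0 := by
  have := h.tv _ hσ (ev (.inl 1)) (σ • ev (.inr 1)) (by
    ext i j
    rcases i with i | i <;> rcases j with j | j <;> fin_cases i <;> fin_cases j <;>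
      simp [coe_emb, vecMulVec_apply])
  simpa [coe_emb] using congrArg (fun k : G4 F => k.1 (.inl 1) (.inr 1)) this

theorem exists_kernel [Finite F] (h2 : (2 : F) ≠ 0) {D : Subgroup (SL(2, F) × SL(2, F))}
    {c d s r : F} (hs : s ≠ 0) (hr : r ≠ 0) (h1 : (slU c, slU s) ∈ D) (h3 : (slU d, slV r) ∈ D)
    (h : (3 : F) ≠ 0 ∨ (s * r) ^ 4 ≠ 1) : ∃ σ, σ ≠ 0 ∧ (1, slU σ) ∈ D := by
  let Γ : Subgroup SL(2, F) :=
    { carrier := {γ | ∃ e, (slU e, γ) ∈ D}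
      one_mem' := ⟨0, by rw [slU_zero, Prod.mk_one_one]; exact D.one_mem⟩
      mul_mem' := by
        rintro a b ⟨e, he⟩ ⟨e', he'⟩
        exact ⟨e + e', by rw [slU_add, ← Prod.mk_mul_mk]; exact D.mul_mem he he'⟩
      inv_mem' := by
        rintro a ⟨e, he⟩
        exact ⟨-e, by rw [slU_neg, ← Prod.inv_mk]; exact D.inv_mem he⟩ }
  obtain ⟨F₀, -, -, h4, h5⟩ := pair Γ hs hr ⟨c, h1⟩ ⟨d, h3⟩ ⟨2, h2, by norm_num [← sub_ne_zero],
    c + c, by rw [two_mul, slU_add, slU_add, ← Prod.mk_mul_mk]; exact D.mul_mem h1 h1⟩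
  obtain ⟨μ, hμ, h0, hμ1⟩ : ∃ μ ∈ F₀, μ ≠ 0 ∧ μ ^ 2 - 1 ≠ 0 := by
    by_cases h6 : (3 : F) = 0
    · have h7 := h.resolve_left (not_not.2 h6)
      refine ⟨s * r, h4.resolve_right fun e => h7 ?_, mul_ne_zero hs hr, fun e => h7 ?_⟩
      · linear_combination ((s * r) ^ 2 - 1) * e.2.1
      · linear_combination ((s * r) ^ 2 + 1) * e
    · exact ⟨2, natCast_mem F₀ 2, h2, by norm_num [h6]⟩
  obtain ⟨e, he⟩ := h5 μ hμ h0
  refine ⟨(μ ^ 2 - 1) * s, mul_ne_zero hμ1 hs, ?_⟩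
  convert D.mul_mem (D.mul_mem (D.mul_mem he h1) (D.inv_mem he)) (D.inv_mem h1) using 1
  simp only [Prod.inv_mk, Prod.mk_mul_mk]
  rw [conj_slU (sl2 μ 0 0 μ⁻¹ _) rfl, ← slU_neg, ← slU_neg, ← slU_neg, ← slU_add, ← slU_add,
    ← slU_add, ← slU_add, ← slU_zero]
  congr 2
  · ring
  · simp; ring

theorem Ctx.core [Finite F] (h2 : (2 : F) ≠ 0) (h : Ctx P) {x w₁ w₂ : I → F} (hx : x ≠ 0)
    (h1 : ω x w₁ = 0) (h2' : ω x w₂ = 0) (h3 : ω w₁ w₂ ≠ 0) {u v : G4 F} (hu : u ∈ P) (hv : v ∈ P)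
    (u0 : u ≠ 1) (v0 : v ≠ 1) {s t r b : F}
    (u1 : u.1 *ᵥ x = x) (u2 : u.1 *ᵥ w₁ = w₁) (u3 : u.1 *ᵥ w₂ = w₂ + s • w₁ + t • x)
    (v1 : v.1 *ᵥ x = x) (v2 : v.1 *ᵥ w₁ = w₁ + r • w₂ + b • x) (v3 : v.1 *ᵥ w₂ = w₂) :
    (3 : F) = 0 ∧ (s * r) ^ 4 = 1 := by
  have key : ∀ {w₁ w₂ : I → F}, ω x w₁ = 0 → ω x w₂ = 0 → ω w₁ w₂ ≠ 0 → ∀ {u v : G4 F},
      u ∈ P → v ∈ P → u ≠ 1 → v ≠ 1 → ∀ {t r b : F}, u.1 *ᵥ x = x → u.1 *ᵥ w₁ = w₁ →
      u.1 *ᵥ w₂ = w₂ + t • x → v.1 *ᵥ x = x → v.1 *ᵥ w₁ = w₁ + r • w₂ + b • x →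
      v.1 *ᵥ w₂ = w₂ → False := by
    intro w₁ w₂ h1 h2' h3 u v hu hv u0 v0 t r b u1 u2 u3 v1 v2 v3
    by_cases hr : r = 0
    · rw [hr, zero_smul, add_zero] at v2
      exact (h.qq h2 hx h1 h2' h3 hu hv u1 u2 u3 v1 v2 v3).elim u0 v0
    have i1 := inv_mulVec_of_eq v1
    have i3 := inv_mulVec_of_eq v3
    have i2 : (v⁻¹).1 *ᵥ w₁ = w₁ - r • w₂ - b • x := inv_mulVec_of_eq (by
      simp only [mulVec_sub, mulVec_smul, v1, v2, v3]; abel)
    refine (h.qq h2 hx h1 (w₂ := v.1 *ᵥ w₁) (t := r * t) (b := -(r * t)) ?_ ?_ hu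
      (mul_mem (mul_mem hv hu) (inv_mem hv)) u1 u2 ?_ ?_ ?_ ?_).elim u0 (by simpa using u0)
    · simp [v2, form_add_right, form_smul_right, h1, h2', sympForm_self]
    · simp [v2, form_add_right, form_smul_right, form_comm0 h1, h3, sympForm_self, hr]
    · simp only [v2, mulVec_add, mulVec_smul, u1, u2, u3]; module
    · simp only [Units.val_mul, ← mulVec_mulVec, i1, u1, v1]
    · simp only [Units.val_mul, ← mulVec_mulVec, i2, mulVec_sub, mulVec_add, mulVec_smul, u1, u2,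
        u3, v1, v2, v3]
      module
    · simp only [Units.val_mul, ← mulVec_mulVec, inv_mulVec_cancel, u2]
  by_cases hs : s = 0
  · rw [hs, zero_smul, add_zero] at u3
    exact (key h1 h2' h3 hu hv u0 v0 u1 u2 u3 v1 v2 v3).elim
  by_cases hr : r = 0
  · rw [hr, zero_smul, add_zero] at v2
    exact (key h2' h1 (fun e => h3 (form_comm0 e)) hv hu v0 u0 v1 v3 v2 u1 u3 u2).elim
  obtain ⟨g, hg, κ, hκ, e1, e2, e3⟩ := exists_frame3 (w₁ := s • w₁ + t • x)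
    (w₂ := r • w₂ + b • x) hx (by simp [form_add_right, form_smul_right, h1, sympForm_self])
    (by simp [form_add_right, form_smul_right, h2', sympForm_self])
    (by simp [form_add_right, form_smul_right, form_add_left, form_smul_left, h2', form_comm0 h1,
      sympForm_self, hs, hr, h3])
  have C := h.frame hg
  have hu' := mem_cj' hu g
  have hv' := mem_cj' hv g
  obtain ⟨c, hc⟩ := eq_emb (C.le hu') (s := κ * r) (r := 0) (frame_mulVec (by rw [e1, u1]))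
    (frame_mulVec (by simp only [zero_smul, add_zero, e2, mulVec_add, mulVec_smul, u1, u2]))
    (frame_mulVec (by simp only [e2, e3, mulVec_add, mulVec_smul, u1, u3]; module))
  obtain ⟨d, hd⟩ := eq_emb (C.le hv') (s := 0) (r := s / κ) (frame_mulVec (by rw [e1, v1]))
    (frame_mulVec (by
      simp only [e2, e3, mulVec_add, mulVec_smul, v1, v2, smul_smul, div_mul_cancel₀ _ hκ]
      module))
    (frame_mulVec (by simp only [zero_smul, add_zero, e3, mulVec_add, mulVec_smul, v1, v3]))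
  by_contra hc'
  obtain ⟨σ, h0, hσ⟩ := exists_kernel h2 (D := (cj P g).comap emb) (mul_ne_zero hκ hr)
    (div_ne_zero hs hκ) (show emb _ ∈ _ from hc (slU _) rfl ▸ hu')
    (show emb _ ∈ _ from hd (slV _) rfl ▸ hv') (by
      rw [show κ * r * (s / κ) = s * r by field_simp]; tauto)
  exact h0 (C.emb_right hσ)

/-- Two distinct collinear points, one of them big. -/
theorem Ctx.s1 [Finite F] (h2 : (2 : F) ≠ 0) (h : Ctx P) {x w₁ w₂ : I → F} (hx : x ≠ 0)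
    (h1 : ω x w₁ = 0) (h2' : ω x w₂ = 0) (h3 : ω w₁ w₂ ≠ 0) {u : G4 F} (hu : u ∈ P) (u0 : u ≠ 1)
    (u1 : u.1 *ᵥ x = x) (u2 : u.1 *ᵥ w₁ = w₁) (hb : Big P x w₂) : False := by
  obtain ⟨v, hv, v', hv', v0, v1, v3, v1', v3', h6⟩ := hb
  have h3' : ω w₂ w₁ ≠ 0 := fun e => h3 (form_comm0 e)
  obtain ⟨s, t, u3⟩ := exists_step hx h1 h2' h3 (h.le hu) u1 u2
  obtain ⟨r, b, v2⟩ := exists_step hx h2' h1 h3' (h.le hv) v1 v3
  obtain ⟨r', b', v2'⟩ := exists_step hx h2' h1 h3' (h.le hv') v1' v3'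
  obtain ⟨h3z, a1⟩ := h.core h2 hx h1 h2' h3 hu hv u0 v0 u1 u2 u3 v1 v2 v3
  obtain ⟨n1, n2, n3⟩ := h6.resolve_left (not_not.2 h3z)
  obtain ⟨-, a2⟩ := h.core h2 hx h1 h2' h3 hu hv' u0 n1 u1 u2 u3 v1' v2' v3'
  obtain ⟨-, a3⟩ := h.core h2 hx h1 h2' h3 hu (mul_mem hv hv') u0
    (fun e => n3 (eq_inv_of_mul_eq_one_right e)) (r := r + r') (b := b + b') u1 u2 u3
    (by simp only [Units.val_mul, ← mulVec_mulVec, v1, v1'])
    (by simp only [Units.val_mul, ← mulVec_mulVec, mulVec_add, mulVec_smul, v1, v2, v3, v2']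
        module)
    (by simp only [Units.val_mul, ← mulVec_mulVec, v3, v3'])
  have i2 : (v⁻¹).1 *ᵥ w₁ = w₁ - r • w₂ - b • x := inv_mulVec_of_eq (by
    simp only [mulVec_sub, mulVec_smul, v1, v2, v3]; abel)
  obtain ⟨-, a4⟩ := h.core h2 hx h1 h2' h3 hu (mul_mem hv' (inv_mem hv)) u0
    (fun e => n2 (mul_inv_eq_one.1 e)) (r := r' - r) (b := b' - b) u1 u2 u3
    (by simp only [Units.val_mul, ← mulVec_mulVec, inv_mulVec_of_eq v1, v1'])
    (by simp only [Units.val_mul, ← mulVec_mulVec, i2, mulVec_sub, mulVec_smul, v1', v2', v3']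
        module)
    (by simp only [Units.val_mul, ← mulVec_mulVec, inv_mulVec_of_eq v3, v3'])
  refine h2 ?_
  linear_combination a3 + a4 - 2 * a1 - 2 * a2 + (-4 * s ^ 4 * r ^ 2 * r' ^ 2) * h3z

end Cfsg.Lib.Class.Sp4O
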