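import Cfsg.Agent.Class.Sp4O.Opp

/-!
A quasisimple absolutely irreducible subgroup of `Sp₄(F)` without transvections has no big point.
-/

set_option autoImplicit false

namespace Cfsg.Lib.Class.Sp4O

open Matrix Module Cfsg.Geo Cfsg.Lib.Class.Asch Cfsg.Lib.Mit Polynomial
open scoped MatrixGroups

variable {F : Type*} [Field F]

local notation "ω" => sympForm 2 F

theorem mem_of_two_smul [Finite F] (h2 : (2 : F) ≠ 0) {S : AddSubgroup (M2 F)} {s : M2 F}
    (h : s + s ∈ S) : s ∈ S := by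
  obtain ⟨p, hp⟩ := CharP.exists F
  obtain ⟨i, hi⟩ := (CharP.char_is_prime F p).odd_of_ne_two (by
    rintro rfl; exact h2 (CharP.cast_eq_zero F 2))
  have e : ((2 * i + 1 : ℕ) : F) = 0 := hi ▸ CharP.cast_eq_zero F p
  have : s = (i + 1) • (s + s) := by
    rw [← Nat.cast_smul_eq_nsmul F]
    push_cast at e ⊢
    linear_combination (norm := module) -e • s
  exact this ▸ S.nsmul_mem h _

/-- A finite Jordan division algebra of symmetric matrices is commutative. -/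
theorem jordan_comm [Finite F] (h2 : (2 : F) ≠ 0) {S : AddSubgroup (M2 F)} (h1 : 1 ∈ S)
    (hd : ∀ a ∈ S, a ≠ 0 → a.det ≠ 0) (hm : ∀ a ∈ S, ∀ b ∈ S, a * b * a ∈ S) {a₀ : M2 F}
    (h0 : a₀.det ≠ 0) (hs : ∀ a ∈ S, (a * a₀)ᵀ = a * a₀) {a b : M2 F} (ha : a ∈ S) (hb : b ∈ S) :
    a * b = b * a := by
  by_contra hk
  have tri : ∀ a ∈ S, ∀ b ∈ S, ∀ c ∈ S, a * b * c + c * b * a ∈ S := fun a ha b hb c hc => by
    convert sub_mem (sub_mem (hm _ (add_mem ha hc) b hb) (hm a ha b hb)) (hm c hc b hb) using 1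
    noncomm_ring
  obtain ⟨k, hk'⟩ : ∃ k, k = a * b - b * a := ⟨_, rfl⟩
  have der : ∀ c ∈ S, k * c - c * k ∈ S := fun c hc => by
    convert sub_mem (tri a ha b hb c hc) (tri b hb a ha c hc) using 1
    rw [hk']; noncomm_ring
  have a0s : a₀ᵀ = a₀ := by simpa using hs 1 h1
  have sk : ∀ a ∈ S, ∀ b ∈ S, (a * b * a₀)ᵀ = b * a * a₀ := fun a ha b hb => by
    rw [Matrix.mul_assoc, transpose_mul, hs b hb, Matrix.mul_assoc, Matrix.mul_assoc, ← hs a ha,
      transpose_mul, a0s]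
  have kd : k.det ≠ 0 := fun e => by
    have e1 : (k * a₀)ᵀ = -(k * a₀) := by
      rw [hk', Matrix.sub_mul, transpose_sub, sk a ha b hb, sk b hb a ha, neg_sub]
    have e2 : (k * a₀).det = 0 := by rw [det_mul, e, zero_mul]
    have e3 : k * a₀ = 0 := by
      generalize k * a₀ = n at e1 e2
      have := congrFun (congrFun e1 0) 0; have := congrFun (congrFun e1 0) 1
      have := congrFun (congrFun e1 1) 1
      rw [det_fin_two] at e2
      ext i j
      fin_cases i <;> fin_cases j <;> simp at * <;> grind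
    exact hk (sub_eq_zero.1 (hk' ▸ (Ne.isUnit h0 |> (isUnit_iff_isUnit_det _).2).mul_left_eq_zero.1 e3))
  have sq : ∀ x : M2 F, x.trace = 0 → x * x = (-x.det) • 1 := fun x hx => by
    rw [mul_self_fin_two, hx, zero_smul, add_zero]
  have tr : ∀ x y : M2 F, (x * y - y * x).trace = 0 := fun x y => by
    rw [trace_sub, trace_mul_comm, sub_self]
  have k2 := sq k (hk' ▸ tr a b)
  obtain ⟨x, hx⟩ : ∃ x, x = k * a - a * k := ⟨_, rfl⟩
  have xS : x ∈ S := hx ▸ der a ha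
  have kx : x * k = -(k * x) := by
    rw [hx, Matrix.sub_mul, Matrix.mul_sub, Matrix.mul_assoc a, ← Matrix.mul_assoc k k, k2,
      ← Matrix.mul_assoc k]
    simp
  have x0 : x ≠ 0 := fun e => by
    have e2 : (k * a).trace = 0 := by
      rw [hk', Matrix.sub_mul, trace_sub, Matrix.mul_assoc, trace_mul_comm, sub_self]
    have e3 : k * a = a * k := sub_eq_zero.1 (hx ▸ e)
    have e4 := tr a b
    rw [← hk'] at e4
    refine hk ?_
    have e5 : a = (a.trace / 2) • 1 := by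
      refine (Ne.isUnit kd |> (isUnit_iff_isUnit_det _).2).mul_left_cancel ?_
      have f := fun i j => congrFun (congrFun e3 i) j
      have f1 := f 0 0; have f2 := f 0 1; have f3 := f 1 0
      simp only [trace_fin_two, mul_apply, Fin.sum_univ_two] at e2 e4 f1 f2 f3
      ext i j
      fin_cases i <;> fin_cases j <;> simp [mul_apply, trace_fin_two] <;> field_simp <;> grind
    rw [e5]; simp
  have yS : k * x - x * k ∈ S := der x xS
  have y0 : k * x - x * k ≠ 0 := fun e => x0 (by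
    rw [kx, sub_neg_eq_add, ← two_smul F, smul_eq_zero] at e
    exact (Ne.isUnit kd |> (isUnit_iff_isUnit_det _).2).mul_right_eq_zero.1 (e.resolve_left h2))
  have xy : x * (k * x - x * k) + (k * x - x * k) * x = 0 := by
    rw [kx, sub_neg_eq_add, Matrix.mul_add, Matrix.add_mul, ← Matrix.mul_assoc, kx]; simp
  have ty := tr k x
  have tx : x.trace = 0 := hx ▸ tr k a
  generalize k * x - x * k = y at yS y0 xy ty
  let Z : Subring F :=
    { carrier := {c | ∀ s ∈ S, c • s ∈ S}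
      mul_mem' := fun hc hd s hs => by rw [mul_smul]; exact hc _ (hd s hs)
      one_mem' := fun s hs => by rwa [one_smul]
      add_mem' := fun hc hd s hs => by rw [add_smul]; exact add_mem (hc s hs) (hd s hs)
      zero_mem' := fun s _ => by rw [zero_smul]; exact zero_mem S
      neg_mem' := fun hc s hs => by rw [neg_smul]; exact neg_mem (hc s hs) }
  have mZ : ∀ x ∈ S, x.trace = 0 → -x.det ∈ Z := fun x hx ht s hs => mem_of_two_smul h2 (by
    have := tri _ (hm x hx 1 h1) s hs 1 h1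
    simpa only [Matrix.mul_one, sq x ht, Matrix.smul_mul, Matrix.mul_smul, Matrix.one_mul]
      using this)
  have := Fintype.ofFinite Z
  obtain ⟨c, d, hcd⟩ := FiniteField.exists_root_sum_quadratic (R := Z)
    (f := C ⟨_, mZ x xS tx⟩ * X ^ 2) (g := C ⟨_, mZ y yS ty⟩ * X ^ 2 - C 1)
    (degree_C_mul_X_pow _ (by simpa [Subtype.ext_iff] using hd x xS x0))
    (by rw [degree_sub_C (by rw [degree_C_mul_X_pow _ (by
          simpa [Subtype.ext_iff] using hd y yS y0)]; norm_num), degree_C_mul_X_pow _ (by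
          simpa [Subtype.ext_iff] using hd y yS y0)]; rfl) (by
      have := Fintype.ofFinite F
      have h3 : Odd (Nat.card F) := by
        rw [Nat.card_eq_fintype_card, ← Nat.not_even_iff_odd, Nat.even_iff,
          ← FiniteField.even_card_iff_char_two]
        exact fun h => h2 (by rw [← Nat.cast_ofNat, ← h]; exact ringChar.Nat.cast_ringChar)
      rw [← Nat.odd_iff, ← Nat.card_eq_fintype_card]
      exact h3.of_dvd_nat (AddSubgroup.card_addSubgroup_dvd_card Z.toAddSubgroup))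
  have hcd' : -x.det * c.1 ^ 2 + (-y.det * d.1 ^ 2 - 1) = 0 := by
    simpa using congrArg Subtype.val hcd
  have wS : c.1 • x + d.1 • y ∈ S := add_mem (c.2 x xS) (d.2 y yS)
  have w2 : (1 - (c.1 • x + d.1 • y)) * (1 + (c.1 • x + d.1 • y)) = 0 := by
    simp only [Matrix.mul_add, Matrix.add_mul, Matrix.sub_mul, Matrix.mul_smul, Matrix.smul_mul,
      Matrix.one_mul, Matrix.mul_one, sq x tx, sq y ty]
    linear_combination (norm := module) -(c.1 * d.1) • xy - hcd' • (1 : M2 F)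
  have w3 := congrArg det w2
  rw [det_mul, det_zero, mul_eq_zero] at w3
  rcases w3 with e | e
  · have := congrArg trace (not_not.1 fun n => hd _ (sub_mem h1 wS) n e)
    simp [tx, ty, h2] at this
  · have := congrArg trace (not_not.1 fun n => hd _ (add_mem h1 wS) n e)
    simp [tx, ty, h2] at this

variable {P : Subgroup (G4 F)}

theorem Big.elim_right {g : G4 F} (h : Big P (g.1 *ᵥ ev (.inr 0)) (g.1 *ᵥ ev (.inr 1)))
    (z z' : Fin 2 → F) : Big P (g.1 *ᵥ Sum.elim 0 z) (g.1 *ᵥ Sum.elim 0 z') := by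
  convert h.span (z 0) (z 1) (z' 0) (z' 1) using 1 <;>
    · rw [← mulVec_smul, ← mulVec_smul, ← mulVec_add]
      congr 1
      ext i; rcases i with i | i <;> fin_cases i <;> simp

theorem ev_inl (i : Fin 2) : (ev (.inl i) : I → F) = Sum.elim (Pi.single i 1) 0 := by
  ext j; rcases j with j | j <;> simp [Pi.single_apply]

theorem ev_inr (i : Fin 2) : (ev (.inr i) : I → F) = Sum.elim (0 : Fin 2 → F) (Pi.single i 1) := by
  ext j; rcases j with j | j <;> simp [Pi.single_apply]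

theorem form_elim (a b c d : Fin 2 → F) :
    ω (Sum.elim a b) (Sum.elim c d) = b ⬝ᵥ c - a ⬝ᵥ d := by
  simp [sympForm_eq, dotProduct]

/-- The point `y`, that is the plane of the vectors `(y z, z)`, is big. -/
def Pt (P : Subgroup (G4 F)) (y : M2 F) : Prop :=
  yᵀ = y ∧ Big P ((Ue y).1 *ᵥ ev (.inr 0)) ((Ue y).1 *ᵥ ev (.inr 1))

theorem Pt.add {y a : M2 F} (h : Pt P y) (hP : P ≤ spGL 2 F) (ha : Ue a ∈ P) : Pt P (a + y) :=
  ⟨by rw [transpose_add, h.1, Ue_mem_sp.1 (hP ha)], by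
    rw [Ue_add, Units.val_mul, ← mulVec_mulVec, ← mulVec_mulVec]; exact h.2.conj ha⟩

theorem exists_ker {c : M2 F} (h0 : c ≠ 0) (hd : c.det = 0) :
    ∃ z z' : Fin 2 → F, ∃ j, z ≠ 0 ∧ c *ᵥ z = 0 ∧ (c *ᵥ z') j ≠ 0 := by
  obtain ⟨z, z0, hz⟩ := exists_mulVec_eq_zero_iff.2 hd
  obtain ⟨i, j, h⟩ : ∃ i j, c i j ≠ 0 := by
    by_contra! h; exact h0 (Matrix.ext h)
  exact ⟨z, Pi.single j 1, i, z0, hz, by simpa using h⟩

variable [Finite F]

theorem Pt.det_ne (h2 : (2 : F) ≠ 0) (C : Ctx P) (hV : BigV P) {y : M2 F} (h : Pt P y)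
    (h0 : y ≠ 0) : y.det ≠ 0 := fun hd => by
  obtain ⟨z, z', j, z0, hz, hz'⟩ := exists_ker h0 hd
  have hb := h.2.elim_right z z'
  simp only [coe_Ue, fromBlocks_mulVec, Sum.elim_comp_inl, Sum.elim_comp_inr, mulVec_zero, hz,
    one_mulVec, zero_add] at hb
  obtain ⟨v, hv, -, -, v0, v1, v2, -⟩ := hV.elim z (Pi.single j 1)
  refine C.s1 h2 (fun e => z0 (funext fun i => congrFun e (.inr i))) ?_ ?_ ?_ hv v0 v1 v2 hb
  · rw [form_elim]; simp
  · rw [form_elim, dotProduct_mulVec, ← mulVec_transpose, h.1, hz]; simp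
  · rwa [form_elim, zero_dotProduct, sub_zero, single_one_dotProduct]

theorem Pt.conj (h2 : (2 : F) ≠ 0) (C : Ctx P) (hU : BigU P) (hV : BigV P) {y a a' : M2 F}
    (h : Pt P y) (ha : Ue a ∈ P) (e : a * a' = 1) : Ue (y * a' * y) ∈ P := by
  by_cases y0 : y = 0
  · simp [y0, Ue_zero]
  have ne : ∀ {a a' : M2 F}, a * a' = 1 → a ≠ 0 := by rintro _ _ e rfl; simp at e
  have ey := mul_nonsing_inv _ (Ne.isUnit (h.det_ne h2 C hV y0))
  have ey' := mul_eq_one_comm.1 ey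
  have ys : y⁻¹ᵀ = y⁻¹ := by rw [transpose_nonsing_inv, h.1]
  generalize y⁻¹ = y' at ey ey' ys
  obtain ⟨c, hc, h3⟩ := (C.frame (Ue_mem_sp.2 h.1)).opp h2
    (Big.frame (by rwa [Ue_ev, Ue_ev])) h.2.frame (ne e)
    (by rwa [mem_cj, ← Ue_neg, ← Ue_add, ← Ue_add, add_comm y, add_neg_cancel_right])
  obtain rfl : c = a' := left_inv_eq_right_inv (mul_eq_one_comm.1 hc) e
  have e1 : Ve y' * Ue (-(y * c * y)) * (Ve y')⁻¹ = Ue y * Ve c * (Ue y)⁻¹ := by
    rw [← Ve_neg, ← Ue_neg]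
    exact Units.ext (by
      simp [coe_Ue, coe_Ve, fromBlocks_multiply, Matrix.mul_assoc, ey, ← Matrix.mul_assoc y' y,
        ey', Matrix.add_mul, add_comm])
  have k : ∀ i, (Ve y').1 *ᵥ ev (.inl i) = (Ue y).1 *ᵥ Sum.elim 0 (y' *ᵥ Pi.single i 1) :=
    fun i => by
      rw [ev_inl]
      simp only [coe_Ue, coe_Ve, fromBlocks_mulVec, Sum.elim_comp_inl, Sum.elim_comp_inr,
        mulVec_zero, one_mulVec, zero_add, add_zero, mulVec_mulVec, ey, Matrix.one_mul]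
  have c0 : -(y * c * y) * -(y' * a * y') = 1 := by
    simp [Matrix.mul_assoc, ← Matrix.mul_assoc y y', ey, ← Matrix.mul_assoc c a,
      mul_eq_one_comm.1 e]
  obtain ⟨d, hd, h4⟩ := (C.frame (Ve_mem_sp.2 ys)).opp h2
    (Big.frame (by rw [k, k]; exact h.2.elim_right _ _)) (Big.frame (by rwa [Ve_ev, Ve_ev]))
    (ne c0) (by rwa [mem_cj, e1])
  rw [mem_cj, ← Ve_neg, ← Ve_add, ← Ve_add, add_comm y', add_neg_cancel_right] at h4
  obtain ⟨c', hc', h5⟩ := C.opp' h2 hU hV (ne (mul_eq_one_comm.1 hd)) h4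
  rw [← left_inv_eq_right_inv hd hc', Ue_neg] at h5
  exact (inv_mem_iff.1 h5)

/-- A nonscalar matrix centralises all conjugates of a nonscalar element. -/
def Bad (P : Subgroup (G4 F)) : Prop :=
  ∃ M : M4 F, (∀ c : F, M ≠ c • 1) ∧ ∃ u ∈ P, u ∉ scalars I F ∧
    ∀ k ∈ P, Commute M (k * u * k⁻¹).1

omit [Finite F] in
theorem Bad.of_cj {g : G4 F} (h : Bad (cj P g)) : Bad P := by
  obtain ⟨M, hM, u, hu, u0, h⟩ := h
  refine ⟨g.1 * M * (g⁻¹).1, fun c e => hM c (conj_inj g (by simp only [e]; simp)), _, hu,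
    fun e => u0 (by simpa using (inferInstance : (scalars I F).Normal).mem_comm_iff.1 e),
    fun k hk => ?_⟩
  have := congrArg (fun X => g.1 * X * (g⁻¹).1) (h _ (mem_cj' hk g)).eq
  simpa [Commute, SemiconjBy, Matrix.mul_assoc] using this

omit [Finite F] in
theorem not_bad (h : QS P) : ¬ Bad P := by
  rintro ⟨M, hM, u, hu, u0, hc⟩
  let N : Subgroup (G4 F) :=
    { carrier := {x | x ∈ P ∧ ∀ k ∈ P, Commute M (k * x * k⁻¹).1}
      one_mem' := ⟨one_mem _, fun k _ => by simp⟩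
      mul_mem' := fun {a b} ha hb => ⟨mul_mem ha.1 hb.1, fun k hk => by
        rw [← conj_mul]; exact (ha.2 k hk).mul_right (hb.2 k hk)⟩
      inv_mem' := fun {a} ha => ⟨inv_mem ha.1, fun k hk => by
        rw [← conj_inv]; exact (ha.2 k hk).units_inv_right⟩ }
  have := h.eq_of_normal (N := N) (fun _ hx => hx.1) (fun g hg x hx =>
    ⟨mul_mem (mul_mem hg hx.1) (inv_mem hg), fun k hk => by
      simpa [mul_assoc] using hx.2 _ (mul_mem hk hg)⟩) fun e => u0 (e ⟨hu, hc⟩)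
  obtain ⟨c, e⟩ := scalar_of_comm h.env_top fun g hg => by
    simpa using ((this.ge hg).2 1 (one_mem _)).eq
  exact hM c e

omit [Finite F] in
theorem Ue_ne_smul {a : M2 F} (ha : a ≠ 0) (c : F) : (Ue a).1 ≠ c • 1 := fun e => ha (by
  rw [coe_Ue, ← fromBlocks_one, fromBlocks_smul, fromBlocks_inj, smul_zero] at e
  exact e.2.1)

omit [Finite F] in
theorem Ue_not_mem {a : M2 F} (ha : a ≠ 0) : Ue a ∉ scalars I F := fun h => by
  obtain ⟨c, hc⟩ := (mem_scalars_iff _).1 h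
  exact Ue_ne_smul ha _ hc

/-- The conjugates of the first standard point. -/
theorem Ctx.conj_cases (h2 : (2 : F) ≠ 0) (C : Ctx P) (hU : BigU P) {k : G4 F} (hk : k ∈ P) :
    (∀ a, Ue a ∈ P → ∃ a', k * Ue a * k⁻¹ = Ue a') ∨ ∃ y, Pt P y ∧
      ∀ a, Ue a ∈ P → ∃ b, k * Ue a * k⁻¹ = Ue y * Ve b * (Ue y)⁻¹ := by
  have hs := (mem_sp_iff k).1 (C.le hk)
  have hi := adj_eq_inv (C.le hk)
  have hB := fun z z' => (hU.elim z z').conj hk
  have hf : ∀ a z, (k * Ue a * k⁻¹).1 *ᵥ (k.1 *ᵥ Sum.elim z 0) = k.1 *ᵥ Sum.elim z 0 :=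
    fun a z => by
      simp only [Units.val_mul, ← mulVec_mulVec, inv_mulVec_cancel]
      simp [coe_Ue, fromBlocks_mulVec]
  have hi' := mulVec_inv_cancel k
  rw [← fromBlocks_toBlocks k.1] at hs hi hB hf hi'
  generalize k.1.toBlocks₁₁ = A at *
  generalize k.1.toBlocks₁₂ = B at *
  generalize k.1.toBlocks₂₁ = c at *
  generalize k.1.toBlocks₂₂ = D at *
  rw [adj_fromBlocks] at hs hi
  rw [fromBlocks_multiply, ← fromBlocks_one, fromBlocks_inj] at hs
  have sy : cᵀ * A = Aᵀ * c := by rw [← neg_add_eq_zero, ← Matrix.neg_mul]; exact hs.2.2.1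
  have hm : ∀ a, Ue a ∈ P → k * Ue a * k⁻¹ ∈ P := fun a ha => mul_mem (mul_mem hk ha) (inv_mem hk)
  by_cases c0 : c = 0
  · refine Or.inl fun a ha => eq_Ue (C.le (hm a ha)) ?_ ?_ <;>
    · rw [← hi' (ev _), ← hi, ev_inl, c0, fromBlocks_mulVec Dᵀ]
      simp only [transpose_zero, neg_zero, zero_mulVec, Sum.elim_comp_inr, mulVec_zero, add_zero]
      exact c0 ▸ hf a _
  simp only [fromBlocks_mulVec, Sum.elim_comp_inl, Sum.elim_comp_inr, mulVec_zero, add_zero]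
    at hB hf
  have cd : c.det ≠ 0 := fun hd => by
    obtain ⟨z, z', j, z0, hz, hz'⟩ := exists_ker c0 hd
    have hb := hB z z'
    rw [hz] at hb
    obtain ⟨v, hv, -, -, v0, v1, v2, -⟩ := hU.elim (A *ᵥ z) (Pi.single j 1)
    refine C.s1 h2 (fun e => z0 ?_) ?_ ?_ ?_ hv v0 v1 v2 hb
    · have : A *ᵥ z = 0 := funext fun i => congrFun e (.inl i)
      rw [← one_mulVec z, ← hs.1, add_mulVec, ← mulVec_mulVec, ← mulVec_mulVec, this, hz]
      simp
    · rw [form_elim]; simp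
    · rw [form_elim, dotProduct_mulVec (A *ᵥ z), ← mulVec_transpose, mulVec_mulVec, sy,
        ← mulVec_mulVec, hz]
      simp
    · rwa [form_elim, zero_dotProduct, zero_sub, single_one_dotProduct, neg_ne_zero]
  have e := mul_nonsing_inv _ (Ne.isUnit cd)
  have e' := mul_eq_one_comm.1 e
  generalize c⁻¹ = c' at e e'
  have ky : ∀ i, (Ue (A * c')).1 *ᵥ ev (.inr i) =
      Sum.elim (A *ᵥ (c' *ᵥ Pi.single i 1)) (c *ᵥ (c' *ᵥ Pi.single i 1)) := fun i => by
    rw [ev_inr]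
    simp only [coe_Ue, fromBlocks_mulVec, Sum.elim_comp_inl, Sum.elim_comp_inr,
      mulVec_zero, one_mulVec, zero_add, mulVec_mulVec, e]
  have ys : (A * c')ᵀ = A * c' := by
    rw [transpose_mul, ← Matrix.mul_one (c'ᵀ * Aᵀ), ← e, Matrix.mul_assoc, ← Matrix.mul_assoc Aᵀ,
      ← sy, ← Matrix.mul_assoc, ← Matrix.mul_assoc, ← transpose_mul, e, transpose_one,
      Matrix.one_mul]
  refine Or.inr ⟨A * c', ⟨ys, by rw [ky, ky]; exact hB _ _⟩, fun a ha => ?_⟩
  obtain ⟨b, hb⟩ := eq_Ve ((C.frame (Ue_mem_sp.2 ys)).le (mem_cj' (hm a ha) _))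
    (frame_mulVec (by rw [ky, hf])) (frame_mulVec (by rw [ky, hf]))
  exact ⟨b, by rw [← hb]; group⟩

theorem Ctx.bad_of_opp (h2 : (2 : F) ≠ 0) (C : Ctx P) (hU : BigU P) (hV : BigV P) : Bad P := by
  obtain ⟨u, hu, -, -, u0, u1, u2, -⟩ := id hU
  obtain ⟨a₀, rfl⟩ := eq_Ue (C.le hu) u1 u2
  have a0 : a₀ ≠ 0 := by rintro rfl; exact u0 Ue_zero
  have ad := C.det_Ue hu a0
  have e := mul_nonsing_inv _ (Ne.isUnit ad)
  have e' := mul_eq_one_comm.1 e
  generalize a₀⁻¹ = a' at e e'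
  let S : AddSubgroup (M2 F) :=
    { carrier := {s | Ue (s * a₀) ∈ P}
      add_mem' := fun ha hb => by
        rw [Set.mem_ofPred_eq, Matrix.add_mul, Ue_add]; exact mul_mem ha hb
      zero_mem' := by simp [Ue_zero]
      neg_mem' := fun ha => by rw [Set.mem_ofPred_eq, Matrix.neg_mul, Ue_neg]; exact inv_mem ha }
  have mS : ∀ a, a * a' ∈ S ↔ Ue a ∈ P := fun a => by
    rw [← Matrix.mul_one a, ← e', ← Matrix.mul_assoc, Matrix.mul_assoc _ a₀, e, Matrix.mul_one]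
    rfl
  have p0 : Pt P 0 := ⟨transpose_zero, by rwa [Ue_zero, Units.val_one, one_mulVec, one_mulVec]⟩
  have pS : ∀ s ∈ S, Pt P (s * a₀) := fun s hs => by simpa using p0.add C.le hs
  have h1 : 1 ∈ S := e ▸ (mS a₀).2 hu
  have hd : ∀ s ∈ S, s ≠ 0 → s.det ≠ 0 := fun s hs s0 => left_ne_zero_of_mul (det_mul s a₀ ▸
    C.det_Ue hs fun e0 => s0 (by rw [← Matrix.mul_one s, ← e, ← Matrix.mul_assoc, e0]; simp))
  have key : ∀ y, Pt P y → ∀ t ∈ S, y * a' * t * (y * a') ∈ S := fun y hy t ht => by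
    by_cases t0 : t = 0
    · simp [t0]
    have f := mul_nonsing_inv _ (Ne.isUnit (hd t ht t0))
    have f' := mul_eq_one_comm.1 f
    generalize t⁻¹ = t' at f f'
    have i1 := (pS 1 h1).conj h2 C hU hV (a' := a' * t') ht (by
      rw [Matrix.mul_assoc, ← Matrix.mul_assoc a₀, e, Matrix.one_mul, f])
    have i2 := hy.conj h2 C hU hV (a' := a' * t) i1 (by
      simp [Matrix.mul_assoc, ← Matrix.mul_assoc a₀ a', e, f'])
    simpa only [Matrix.mul_assoc] using (mS _).2 i2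
  have hm : ∀ s ∈ S, ∀ t ∈ S, s * t * s ∈ S := fun s hs t ht => by
    simpa [Matrix.mul_assoc, e] using key _ (pS s hs) t ht
  have hs : ∀ s ∈ S, (s * a₀)ᵀ = s * a₀ := fun s hs => (pS s hs).1
  have all : ∀ y, Pt P y → Ue y ∈ P := fun y hy => (mS y).1 (mem_of_two_smul h2 (by
    have i1 := key y hy 1 h1
    have i2 := key _ (hy.add C.le hu) 1 h1
    convert sub_mem (sub_mem i2 i1) h1 using 1
    rw [Matrix.add_mul, e]; noncomm_ring))
  obtain ⟨m, m1, m2, m3⟩ : ∃ m : M2 F, (∀ c : F, m ≠ c • 1) ∧ (m * a₀)ᵀ = m * a₀ ∧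
      ∀ s ∈ S, m * s = s * m := by
    by_cases hsc : ∀ s ∈ S, ∃ c : F, s = c • 1
    · refine ⟨!![1, 0; 0, 0] * a', fun c hc => ?_, ?_, fun s hs => ?_⟩
      · have h3 := congrArg (· * a₀) hc
        simp only [Matrix.mul_assoc, e', Matrix.mul_one, Matrix.smul_mul, Matrix.one_mul] at h3
        have h4 := congrArg det h3
        have h5 : c = 0 := by simpa [ad] using h4.symm
        simpa [h5] using congrFun (congrFun h3 0) 0
      · rw [Matrix.mul_assoc, e', Matrix.mul_one]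
        ext i j; fin_cases i <;> fin_cases j <;> rfl
      · obtain ⟨c, rfl⟩ := hsc s hs
        simp
    · push Not at hsc
      obtain ⟨s, h3, h4⟩ := hsc
      exact ⟨s, h4, hs s h3, fun t ht => jordan_comm h2 h1 hd hm ad hs h3 ht⟩
  have mU : ∀ a, Ue a ∈ P → m * a = a * mᵀ := fun a ha => by
    have := m3 _ ((mS a).2 ha)
    rw [← Matrix.mul_one a, ← e', ← Matrix.mul_assoc, ← Matrix.mul_assoc, Matrix.mul_assoc m, this,
      Matrix.mul_assoc, ← m2, transpose_mul, Ue_mem_sp.1 (C.le hu), ← Matrix.mul_assoc,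
      ← Matrix.mul_assoc]
  have cU : ∀ a, Ue a ∈ P → Commute (fromBlocks m 0 0 mᵀ) (Ue a).1 := fun a ha => by
    simp [Commute, SemiconjBy, coe_Ue, fromBlocks_multiply, mU a ha]
  have cV : ∀ b, Ve b ∈ P → Commute (fromBlocks m 0 0 mᵀ) (Ve b).1 := fun b hb => by
    have : mᵀ * b = b * m := by
      by_cases b0 : b = 0
      · simp [b0]
      obtain ⟨c, h3, h4⟩ := C.opp' h2 hU hV b0 hb
      rw [← Matrix.one_mul (mᵀ * b), ← h3, Matrix.mul_assoc, ← Matrix.mul_assoc c, ← mU c h4,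
        Matrix.mul_assoc, mul_eq_one_comm.1 h3, Matrix.mul_one]
    simp [Commute, SemiconjBy, coe_Ve, fromBlocks_multiply, this]
  refine ⟨fromBlocks m 0 0 mᵀ, fun c hc => m1 c ?_, _, hu, Ue_not_mem a0, fun k hk => ?_⟩
  · rw [← fromBlocks_one, fromBlocks_smul, fromBlocks_inj] at hc
    exact hc.1
  have hm := mul_mem (mul_mem hk hu) (inv_mem hk)
  rcases C.conj_cases h2 hU hk with h | ⟨y, hy, h⟩
  · obtain ⟨a, ha⟩ := h _ hu
    rw [ha] at hm ⊢
    exact cU a hm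
  · obtain ⟨b, hb⟩ := h _ hu
    have hy' := all y hy
    rw [hb] at hm ⊢
    rw [mul_mem_cancel_right (inv_mem hy'), mul_mem_cancel_left hy'] at hm
    exact ((cU y hy').mul_right (cV b hm)).mul_right (cU y hy').units_inv_right

theorem Ctx.bad (h2 : (2 : F) ≠ 0) (C : Ctx P) (hU : BigU P) : Bad P := by
  by_cases h : ∀ k ∈ P, ∀ a, Ue a ∈ P → ∃ a', k * Ue a * k⁻¹ = Ue a'
  · obtain ⟨u, hu, -, -, u0, u1, u2, -⟩ := id hU
    obtain ⟨a₀, rfl⟩ := eq_Ue (C.le hu) u1 u2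
    have a0 : a₀ ≠ 0 := by rintro rfl; exact u0 Ue_zero
    refine ⟨_, Ue_ne_smul a0, _, hu, Ue_not_mem a0, fun k hk => ?_⟩
    obtain ⟨a, ha⟩ := h k hk _ hu
    rw [ha, Commute, SemiconjBy, ← Units.val_mul, ← Units.val_mul, ← Ue_add, ← Ue_add, add_comm]
  · push Not at h
    obtain ⟨k, hk, h⟩ := h
    obtain ⟨y, hy, -⟩ := (C.conj_cases h2 hU hk).resolve_left (by simpa using h)
    exact ((C.frame (Ue_mem_sp.2 hy.1)).bad_of_opp h2 (Big.frame (by rwa [Ue_ev, Ue_ev]))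
      hy.2.frame).of_cj

theorem Ctx.noQuad (h2 : (2 : F) ≠ 0) (C : Ctx P) (h : QS P) : NoQuad P := by
  intro u hu u' hu' u0 h1 h3 h4
  by_contra hc
  have ad : ∀ k ∈ P, (k.1 - 1) * (k.1 - 1) = 0 → adj (k.1 - 1) = -(k.1 - 1) := fun k hk e => by
    rw [adj_sub, adj_one, adj_eq_inv (C.le hk), ← Matrix.one_mul (k⁻¹).1, sub_eq_iff_eq_add,
      Units.mul_inv_eq_iff_eq_mul]
    linear_combination (norm := noncomm_ring) e
  have h5 : (u'.1 - 1) * (u.1 - 1) = 0 := by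
    simpa [adj_mul, ad u hu h1, ad u' hu' h3, adj_zero, -neg_sub] using congrArg adj h4
  have fx : ∀ k : G4 F, (k.1 - 1) * (u.1 - 1) = 0 → ∀ v,
      k.1 *ᵥ ((u.1 - 1) *ᵥ v) = (u.1 - 1) *ᵥ v := fun k e v => by
    have := congrArg (· *ᵥ v) e
    simp only [← mulVec_mulVec, zero_mulVec] at this
    rwa [sub_mulVec, one_mulVec, sub_eq_zero] at this
  obtain ⟨v, hv⟩ : ∃ v, (u.1 - 1) *ᵥ v ≠ 0 := by
    by_contra! e
    exact u0 (Units.ext (sub_eq_zero.1 (Matrix.ext_of_mulVec_single fun i => by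
      rw [Units.val_one, e, zero_mulVec])))
  obtain ⟨v', w, h6, h7⟩ : ∃ v' w, ω ((u.1 - 1) *ᵥ v) w = 0 ∧ ω ((u.1 - 1) *ᵥ v') w ≠ 0 := by
    by_contra! e
    obtain ⟨y, hy⟩ : ∃ y, ω ((u.1 - 1) *ᵥ v) y ≠ 0 := by
      by_contra! e'
      exact hv (eq_zero_of_sympForm 2 _ e')
    refine u0 (C.tv u hu ((u.1 - 1) *ᵥ v)
      (fun j => ω ((u.1 - 1) *ᵥ ev j) y / ω ((u.1 - 1) *ᵥ v) y) ?_)
    rw [← sub_eq_iff_eq_add']
    refine Matrix.ext_of_mulVec_single fun j => sub_eq_zero.1 (eq_zero_of_sympForm 2 _ fun z => ?_)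
    have := e (ev j) (z - (ω ((u.1 - 1) *ᵥ v) z / ω ((u.1 - 1) *ᵥ v) y) • y) (by
      rw [form_sub_right, form_smul_right, div_mul_cancel₀ _ hy, sub_self])
    rw [form_sub_right, form_smul_right] at this
    rw [vecMulVec_mulVec, form_sub_left, op_smul_eq_smul, form_smul_left, dotProduct_single_one]
    linear_combination this
  obtain ⟨g, hg, -, -, e1, e2, -⟩ := exists_frame3 hv (w₁ := (u.1 - 1) *ᵥ v') (by
    rw [form_adj, mulVec_mulVec, ad u hu h1, Matrix.neg_mul, h1]; simp [sympForm]) h6 h7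
  refine not_bad h ((C.frame hg).bad h2 (Big.frame ?_)).of_cj
  rw [e1, e2]
  exact ⟨u, hu, u', hu', u0, fx u h1 _, fx u h1 _, fx u' h5 _, fx u' h5 _, by tauto⟩

end Cfsg.Lib.Class.Sp4O
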