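import Cfsg.Agent.Class.Sp4O.T1
import Cfsg.Agent.Class.Sp4O.T2

/-!
The image in `O₅` of a proper quasisimple subgroup of `Sp₄(F)`.
-/

set_option autoImplicit false

namespace Cfsg.Lib.Class.Sp4O

open Matrix Module QuadraticMap Cfsg.Geo Cfsg.Lib.Class.Asch Cfsg.Lib.Class.Orth Cfsg.Lib.Mit

variable {F : Type*} [Field F] {P : Subgroup (G4 F)}

local notation "ω" => sympForm 2 F

theorem rank_one_or (N : M4 F) : (∃ v w, N = vecMulVec v w) ∨
    ∃ v v' w, N *ᵥ v ≠ 0 ∧ ω (N *ᵥ v) w = 0 ∧ ω (N *ᵥ v') w ≠ 0 := by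
  by_cases h0 : ∀ v, N *ᵥ v = 0
  · exact Or.inl ⟨0, 0, Matrix.ext_of_mulVec_single fun i => by rw [h0, vecMulVec_zero, zero_mulVec]⟩
  push Not at h0
  obtain ⟨v, hv⟩ := h0
  refine or_iff_not_imp_right.2 fun e => ?_
  push Not at e
  obtain ⟨y, hy⟩ : ∃ y, ω (N *ᵥ v) y ≠ 0 := by
    by_contra! e'
    exact hv (eq_zero_of_sympForm 2 _ e')
  refine ⟨N *ᵥ v, fun j => ω (N *ᵥ ev j) y / ω (N *ᵥ v) y,
    Matrix.ext_of_mulVec_single fun j => sub_eq_zero.1 (eq_zero_of_sympForm 2 _ fun z => ?_)⟩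
  have := e v (ev j) (z - (ω (N *ᵥ v) z / ω (N *ᵥ v) y) • y) hv (by
    rw [form_sub_right, form_smul_right, div_mul_cancel₀ _ hy, sub_self])
  rw [form_sub_right, form_smul_right] at this
  rw [vecMulVec_mulVec, form_sub_left, op_smul_eq_smul, form_smul_left, dotProduct_single_one]
  linear_combination this

/-- Long root elements are transvections. -/
theorem exists_vecMulVec_eq (h2 : (2 : F) ≠ 0) {e w : W F} (he : Qw F e = 0) (hw : Qw F w = 0)
    (h : polar (Qw F) e w = 0) : ∃ v v', e.1 * w.1 = vecMulVec v v' := by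
  refine (rank_one_or _).elim id fun ⟨v, v', z, h0, h1, h3⟩ => (h0 ?_).elim
  obtain ⟨k0, k1⟩ := mul_mul_eq_zero h2 he h
  have a : e.1 * (e.1 * w.1) = 0 := by rw [← Matrix.mul_assoc, mul_self_W h2, he]; simp
  have b : w.1 * (e.1 * w.1) = 0 := by
    rw [← Matrix.mul_assoc, k1, Matrix.neg_mul, Matrix.mul_assoc, mul_self_W h2, hw]; simp
  have c : ∀ x y, ω ((e.1 * w.1) *ᵥ x) (w.1 *ᵥ y) = 0 := fun x y => by
    rw [form_adj', w.2.1, mulVec_mulVec, b]; simp [sympForm]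
  obtain ⟨s, t, k⟩ := exists_of_perp (z := w.1 *ᵥ v) h0 (by
    rw [form_adj, mulVec_mulVec, adj_mul, e.2.1, w.2.1, Matrix.mul_assoc, a]; simp [sympForm])
    h1 h3 (c _ _) (c _ _)
  rw [← mulVec_mulVec, k, mulVec_add, mulVec_smul, mulVec_smul, mulVec_mulVec, mulVec_mulVec, a]
  simp

/-- The action of `P` on `W`. -/
noncomputable def St.phi (h : St P) : P →* O (Qw F) := rho.comp (Subgroup.inclusion h.le)

theorem St.ker_phi (h : St P) : h.phi.ker = (scalars I F).subgroupOf P := by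
  ext g
  refine (rho_eq_one_iff _).trans ⟨?_, eq_of_mem_scalars (h.le g.2)⟩
  rintro (e | e) <;> rw [Subgroup.mem_subgroupOf, show g.1 = _ from e]
  exacts [one_mem _, neg_one_mem_scalars]

/-- The image of `P` is `P` modulo scalars. -/
noncomputable def St.barEquiv (h : St P) : Bar P ≃* h.phi.range :=
  (QuotientGroup.quotientMulEquivOfEq h.ker_phi.symm).trans
    (QuotientGroup.quotientKerEquivRange _)

theorem St.sq_mem (h : St P) {g : spGL 2 F} (hg : rho g ∈ h.phi.range) : g.1 * g.1 ∈ P := by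
  obtain ⟨k, hk⟩ := hg
  have : rho (g * (Subgroup.inclusion h.le k)⁻¹) = 1 := by
    rw [map_mul, map_inv, ← hk]; exact mul_inv_cancel _
  rcases (rho_eq_one_iff _).1 this with e | e
  · rw [show g.1 = k.1 from mul_inv_eq_one.1 e]; exact mul_mem k.2 k.2
  · rw [show g.1 = -k.1 by simpa using mul_inv_eq_iff_eq_mul.1 e, neg_mul_neg]
    exact mul_mem k.2 k.2

theorem St.isSquare (h2 : (2 : F) ≠ 0) (h : St P) (v : W F) (hv : Qw F v ≠ 0) :
    ∀ t ∈ h.phi.range, (∀ x, t.1 x = -(refl (Qw F) v).1 x) → IsSquare (Qw F v) := by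
  rintro _ ⟨g, rfl⟩ ht
  obtain ⟨c, hc⟩ := scalar_of_comm_W (M := v.1 * g.1.1) fun X hX => by
    have e1 : g.1.1 * X * (g.1⁻¹).1 = -((refl (Qw F) v).1 ⟨X, hX⟩).1 :=
      congrArg Subtype.val (ht ⟨X, hX⟩)
    have e2 := conj_eq_refl h2 v ⟨X, hX⟩ hv
    rw [← smul_neg, ← e1] at e2
    refine smul_right_injective _ hv ?_
    have := congrArg (fun Y => v.1 * Y * g.1.1) e2
    simpa [← Matrix.mul_assoc, mul_self_W h2] using this.symm
  have := congrArg (fun Y => adj Y * Y) hc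
  simp only [adj_mul, v.2.1, adj_eq_inv (h.le g.2), adj_smul, adj_one, Matrix.mul_assoc,
    ← Matrix.mul_assoc v.1, mul_self_W h2, Matrix.smul_mul, Matrix.mul_smul, Matrix.one_mul,
    Units.inv_mul, smul_smul] at this
  exact ⟨c, by simpa using congrFun (congrFun this (.inl 0)) (.inl 0)⟩

theorem coe_sq_eich (h2 : (2 : F) ≠ 0) {e w : W F} (he : Qw F e = 0) (hw : polar (Qw F) e w = 0)
    {g : G4 F} (hg : g.1 = 1 + e.1 * w.1) : (g * g).1 - 1 = (2 : F) • (e.1 * w.1) := by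
  rw [Units.val_mul, hg, Matrix.add_mul, Matrix.mul_add, Matrix.mul_add,
    (mul_mul_eq_zero h2 he hw).1]
  simp only [Matrix.one_mul, Matrix.mul_one]
  module

theorem St.long (h2 : (2 : F) ≠ 0) (h : St P) (C : Ctx P) (e w : W F) (hw : Qw F w = 0)
    (hK : eich (Qw F) e w ∈ h.phi.range) : eich (Qw F) e w = 1 := by
  by_cases h0 : Qw F e = 0 ∧ polar (Qw F) e w = 0
  swap
  · exact eich_of_not h0
  obtain ⟨g, hg, hr⟩ := exists_eich h2 h0.1 h0.2
  obtain ⟨v, v', e1⟩ := exists_vecMulVec_eq h2 h0.1 hw h0.2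
  have e2 := coe_sq_eich h2 h0.1 h0.2 hg
  have e3 := C.tv _ (h.sq_mem (hr ▸ hK)) ((2 : F) • v) v' (by
    rw [smul_vecMulVec, ← e1, ← e2, add_sub_cancel])
  rw [e3, Units.val_one, sub_self, eq_comm, smul_eq_zero] at e2
  rw [← hr, show g = 1 from Subtype.ext (Units.ext (by rw [hg, e2.resolve_left h2]; simp)), map_one]

theorem St.short (h2 : (2 : F) ≠ 0) (h : St P) (hq : NoQuad P) (e w w' : W F)
    (hK : eich (Qw F) e w ∈ h.phi.range) (h1 : eich (Qw F) e w ≠ 1)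
    (hK' : eich (Qw F) e w' ∈ h.phi.range) : (3 : F) = 0 ∧ (eich (Qw F) e w' = 1 ∨
      eich (Qw F) e w' = eich (Qw F) e w ∨ eich (Qw F) e w' = (eich (Qw F) e w)⁻¹) := by
  obtain ⟨he, hw⟩ : Qw F e = 0 ∧ polar (Qw F) e w = 0 := not_not.1 fun n => h1 (eich_of_not n)
  obtain ⟨g, hg, hr⟩ := exists_eich h2 he hw
  have e2 := coe_sq_eich h2 he hw hg
  have z : ∀ {w : W F}, polar (Qw F) e w = 0 → ∀ w' : W F,
      (2 : F) • (e.1 * w.1) * (2 : F) • (e.1 * w'.1) = 0 := fun {w} hw w' => by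
    rw [smul_mul_smul_comm, Matrix.mul_assoc, ← Matrix.mul_assoc w.1,
      (mul_mul_eq_zero h2 he hw).2, Matrix.neg_mul, Matrix.mul_neg, ← Matrix.mul_assoc,
      ← Matrix.mul_assoc, mul_self_W h2, he]
    simp
  have u0 : g.1 * g.1 ≠ 1 := fun e3 => h1 (by
    rw [e3, Units.val_one, sub_self, eq_comm, smul_eq_zero] at e2
    rw [← hr, show g = 1 from Subtype.ext (Units.ext (by rw [hg, e2.resolve_left h2]; simp)),
      map_one])
  have hu := h.sq_mem (hr ▸ hK)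
  by_cases hw' : polar (Qw F) e w' = 0
  swap
  · exact ⟨(hq _ hu _ hu u0 (e2 ▸ z hw w) (e2 ▸ z hw w) (e2 ▸ z hw w)).1,
      Or.inl (eich_of_not fun n => hw' n.2)⟩
  obtain ⟨g', hg', hr'⟩ := exists_eich h2 he hw'
  have e2' := coe_sq_eich h2 he hw' hg'
  obtain ⟨h3, h4⟩ := hq _ hu _ (h.sq_mem (hr' ▸ hK')) u0 (e2 ▸ z hw w) (e2' ▸ z hw' w')
    (e2 ▸ e2' ▸ z hw w')
  have cube : ∀ {w : W F}, polar (Qw F) e w = 0 →
      eich (Qw F) e w = (eich (Qw F) e w * eich (Qw F) e w)⁻¹ := fun {w} hw => by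
    rw [← eich_add he hw hw, ← eich_neg]
    congr 1
    linear_combination (norm := module) h3 • w
  refine ⟨h3, ?_⟩
  rw [cube hw, cube hw', ← hr, ← hr', ← map_mul, ← map_mul]
  refine h4.imp (fun e => ?_) (Or.imp (fun e => ?_) fun e => ?_)
  · rw [show g' * g' = 1 from Subtype.ext e, map_one, inv_one]
  · rw [show g' * g' = g * g from Subtype.ext e]
  · rw [show g' * g' = (g * g)⁻¹ from Subtype.ext e, map_inv]

end Cfsg.Lib.Class.Sp4O
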