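import Cfsg.Agent.Class.Sp4O.Frame
import Mathlib.Algebra.QuadraticAlgebra.Basic

/-!
Two opposite big points of a subgroup of `Sp₄(F)` without transvections: the two groups of
quadratic elements are inverse to each other.
-/

set_option autoImplicit false

namespace Cfsg.Lib.Class.Sp4O

open Matrix Module Cfsg.Geo Cfsg.Lib.Class.Asch Cfsg.Lib.Mit
open scoped MatrixGroups

variable {F : Type*} [Field F]

local notation "ω" => sympForm 2 F

/-- Upper block unitriangular matrices. -/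
def Ue (a : M2 F) : G4 F := ⟨fromBlocks 1 a 0 1, fromBlocks 1 (-a) 0 1,
  by simp [fromBlocks_multiply], by simp [fromBlocks_multiply]⟩

/-- Lower block unitriangular matrices. -/
def Ve (b : M2 F) : G4 F := ⟨fromBlocks 1 0 b 1, fromBlocks 1 0 (-b) 1,
  by simp [fromBlocks_multiply], by simp [fromBlocks_multiply]⟩

/-- Levi elements. -/
def Lv (m m' : M2 F) (h : m * m' = 1) : G4 F := ⟨fromBlocks m 0 0 m'ᵀ, fromBlocks m' 0 0 mᵀ,
  by simp [fromBlocks_multiply, h, ← transpose_mul],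
  by simp [fromBlocks_multiply, mul_eq_one_comm.1 h, ← transpose_mul]⟩

/-- The matrix of the form. -/
def Jg (F : Type*) [Field F] : G4 F := ⟨fromBlocks 0 (-1) 1 0, fromBlocks 0 1 (-1) 0,
  by simp [fromBlocks_multiply], by simp [fromBlocks_multiply]⟩

theorem coe_Ue (a : M2 F) : (Ue a).1 = fromBlocks 1 a 0 1 := rfl
theorem coe_Ve (a : M2 F) : (Ve a).1 = fromBlocks 1 0 a 1 := rfl
theorem coe_Lv (m m' : M2 F) (h : m * m' = 1) : (Lv m m' h).1 = fromBlocks m 0 0 m'ᵀ := rfl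
theorem coe_Lv_inv (m m' : M2 F) (h : m * m' = 1) : (Lv m m' h)⁻¹.1 = fromBlocks m' 0 0 mᵀ := rfl
theorem coe_Jg : (Jg F).1 = fromBlocks 0 (-1) 1 0 := rfl
theorem coe_Jg_inv : (Jg F)⁻¹.1 = fromBlocks 0 1 (-1) 0 := rfl

theorem Ue_add (a b : M2 F) : Ue (a + b) = Ue a * Ue b :=
  Units.ext (by simp [coe_Ue, fromBlocks_multiply, add_comm])

theorem Ve_add (a b : M2 F) : Ve (a + b) = Ve a * Ve b :=
  Units.ext (by simp [coe_Ve, fromBlocks_multiply])

theorem Ue_neg (a : M2 F) : Ue (-a) = (Ue a)⁻¹ := Units.ext rfl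
theorem Ve_neg (a : M2 F) : Ve (-a) = (Ve a)⁻¹ := Units.ext rfl
theorem Ue_zero : Ue (0 : M2 F) = 1 := Units.ext fromBlocks_one
theorem Ve_zero : Ve (0 : M2 F) = 1 := Units.ext fromBlocks_one

theorem Ue_inj {a b : M2 F} (h : Ue a = Ue b) : a = b :=
  (fromBlocks_inj.1 (congrArg Units.val h)).2.1

theorem Ve_inj {a b : M2 F} (h : Ve a = Ve b) : a = b :=
  (fromBlocks_inj.1 (congrArg Units.val h)).2.2.1

theorem adj_fromBlocks (a b c d : M2 F) :
    adj (fromBlocks a b c d) = fromBlocks dᵀ (-bᵀ) (-cᵀ) aᵀ := by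
  simp [adj, J, fromBlocks_transpose, fromBlocks_multiply, fromBlocks_neg]

theorem Ue_mem_sp {a : M2 F} : Ue a ∈ spGL 2 F ↔ aᵀ = a := by
  rw [mem_sp_iff, coe_Ue, adj_fromBlocks, fromBlocks_multiply, ← fromBlocks_one, fromBlocks_inj]
  simp [add_neg_eq_zero, eq_comm]

theorem Ve_mem_sp {a : M2 F} : Ve a ∈ spGL 2 F ↔ aᵀ = a := by
  rw [mem_sp_iff, coe_Ve, adj_fromBlocks, fromBlocks_multiply, ← fromBlocks_one, fromBlocks_inj]
  simp [neg_add_eq_zero]

theorem Lv_mem_sp (m m' : M2 F) (h : m * m' = 1) : Lv m m' h ∈ spGL 2 F := by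
  rw [mem_sp_iff, coe_Lv, adj_fromBlocks]
  simp [fromBlocks_multiply, mul_eq_one_comm.1 h, ← transpose_mul]

theorem Jg_mem_sp : Jg F ∈ spGL 2 F := by
  rw [mem_sp_iff, coe_Jg, adj_fromBlocks]
  simp [fromBlocks_multiply]

theorem Lv_Ue (m m' : M2 F) (h : m * m' = 1) (a : M2 F) :
    Lv m m' h * Ue a * (Lv m m' h)⁻¹ = Ue (m * a * mᵀ) :=
  Units.ext (by
    rw [Units.val_mul, coe_Lv_inv]
    simp [coe_Ue, coe_Lv, fromBlocks_multiply, h, ← transpose_mul])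

theorem Lv_Ve (m m' : M2 F) (h : m * m' = 1) (a : M2 F) :
    Lv m m' h * Ve a * (Lv m m' h)⁻¹ = Ve (m'ᵀ * a * m') :=
  Units.ext (by
    rw [Units.val_mul, coe_Lv_inv]
    simp [coe_Ve, coe_Lv, fromBlocks_multiply, h, ← transpose_mul])

theorem Jg_Ue (a : M2 F) : Jg F * Ue a * (Jg F)⁻¹ = Ve (-a) :=
  Units.ext (by
    rw [Units.val_mul, coe_Jg_inv]; simp [coe_Ue, coe_Ve, coe_Jg, fromBlocks_multiply])

theorem Jg_Ve (a : M2 F) : Jg F * Ve a * (Jg F)⁻¹ = Ue (-a) :=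
  Units.ext (by
    rw [Units.val_mul, coe_Jg_inv]; simp [coe_Ue, coe_Ve, coe_Jg, fromBlocks_multiply])

theorem eq_Ue {k : G4 F} (hk : k ∈ spGL 2 F) (h1 : k.1 *ᵥ ev (.inl 0) = ev (.inl 0))
    (h2 : k.1 *ᵥ ev (.inl 1) = ev (.inl 1)) : ∃ a, k = Ue a := by
  have r1 := sp_rel hk (.inl 0) (.inr 0)
  have r2 := sp_rel hk (.inl 0) (.inr 1)
  have r3 := sp_rel hk (.inl 1) (.inr 0)
  have r4 := sp_rel hk (.inl 1) (.inr 1)
  simp [col_eq h1, col_eq h2, J] at r1 r2 r3 r4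
  refine ⟨k.1.toBlocks₁₂, Units.ext ?_⟩
  ext i j
  rcases i with i | i <;> rcases j with j | j <;> fin_cases i <;> fin_cases j <;>
    simp [coe_Ue, col_eq h1, col_eq h2, toBlocks₁₂, r1, r2, r3, r4]

theorem eq_Ve {k : G4 F} (hk : k ∈ spGL 2 F) (h1 : k.1 *ᵥ ev (.inr 0) = ev (.inr 0))
    (h2 : k.1 *ᵥ ev (.inr 1) = ev (.inr 1)) : ∃ a, k = Ve a := by
  have r1 := sp_rel hk (.inr 0) (.inl 0)
  have r2 := sp_rel hk (.inr 0) (.inl 1)
  have r3 := sp_rel hk (.inr 1) (.inl 0)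
  have r4 := sp_rel hk (.inr 1) (.inl 1)
  simp [col_eq h1, col_eq h2, J] at r1 r2 r3 r4
  refine ⟨k.1.toBlocks₂₁, Units.ext ?_⟩
  ext i j
  rcases i with i | i <;> rcases j with j | j <;> fin_cases i <;> fin_cases j <;>
    simp [coe_Ve, col_eq h1, col_eq h2, toBlocks₂₁, r1, r2, r3, r4]

theorem Ue_ev (a : M2 F) (i : Fin 2) : (Ue a).1 *ᵥ ev (.inl i) = ev (.inl i) := by
  ext j; rcases j with j | j <;> simp [coe_Ue, one_apply, Pi.single_apply]

theorem Ve_ev (a : M2 F) (i : Fin 2) : (Ve a).1 *ᵥ ev (.inr i) = ev (.inr i) := by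
  ext j; rcases j with j | j <;> simp [coe_Ve, one_apply, Pi.single_apply]

theorem exists_vecMulVec {a : M2 F} (h : a.det = 0) : ∃ v w, a = vecMulVec v w := by
  rw [det_fin_two] at h
  by_cases h0 : a 0 0 = 0
  · by_cases h1 : a 0 1 = 0
    · exact ⟨![0, 1], ![a 1 0, a 1 1], by
        ext i j; fin_cases i <;> fin_cases j <;> simp [vecMulVec_apply, h0, h1]⟩
    · exact ⟨![a 0 1, a 1 1], ![0, 1], by
        ext i j; fin_cases i <;> fin_cases j <;> simp [vecMulVec_apply, h0]; grind⟩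
  · exact ⟨![a 0 0, a 1 0], ![1, a 0 1 / a 0 0], by
      ext i j; fin_cases i <;> fin_cases j <;> simp [vecMulVec_apply] <;> grind⟩

variable {P : Subgroup (G4 F)}

theorem Ctx.det_Ue (h : Ctx P) {a : M2 F} (ha : Ue a ∈ P) (h0 : a ≠ 0) : a.det ≠ 0 := fun e => by
  obtain ⟨v, w, rfl⟩ := exists_vecMulVec e
  refine h0 (Ue_inj ((h.tv _ ha (Sum.elim v 0) (Sum.elim 0 w) ?_).trans Ue_zero.symm))
  ext i j
  rcases i with i | i <;> rcases j with j | j <;> simp [coe_Ue, vecMulVec_apply, one_apply]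

theorem Ctx.det_Ve (h : Ctx P) {a : M2 F} (ha : Ve a ∈ P) (h0 : a ≠ 0) : a.det ≠ 0 := by
  have := (h.frame Jg_mem_sp).det_Ue (a := -a) (by rwa [mem_cj, Jg_Ue, neg_neg]) (by simpa)
  rwa [det_neg, Fintype.card_fin, neg_one_sq, one_mul] at this

/-- The first standard point is big. -/
abbrev BigU (P : Subgroup (G4 F)) : Prop := Big P (ev (.inl 0)) (ev (.inl 1))

/-- The second standard point is big. -/
abbrev BigV (P : Subgroup (G4 F)) : Prop := Big P (ev (.inr 0)) (ev (.inr 1))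

theorem BigU.elim (h : BigU P) (z z' : Fin 2 → F) : Big P (Sum.elim z 0) (Sum.elim z' 0) := by
  convert h.span (z 0) (z 1) (z' 0) (z' 1) using 1 <;>
    · ext i; rcases i with i | i <;> fin_cases i <;> simp

theorem BigV.elim (h : BigV P) (z z' : Fin 2 → F) : Big P (Sum.elim 0 z) (Sum.elim 0 z') := by
  convert h.span (z 0) (z 1) (z' 0) (z' 1) using 1 <;>
    · ext i; rcases i with i | i <;> fin_cases i <;> simp

theorem BigU.levi (h : BigU P) (m m' : M2 F) (e : m * m' = 1) : BigU (cj P (Lv m m' e)) :=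
  Big.frame (by
    convert h.elim (m.col 0) (m.col 1) using 1 <;>
      · ext i; rcases i with i | i <;> simp [coe_Lv])

theorem BigV.levi (h : BigV P) (m m' : M2 F) (e : m * m' = 1) : BigV (cj P (Lv m m' e)) :=
  Big.frame (by
    convert h.elim (m'.row 0) (m'.row 1) using 1 <;>
      · ext i; rcases i with i | i <;> simp [coe_Lv])

theorem BigU.swap (h : BigU P) : BigV (cj P (Jg F)) :=
  Big.frame (by
    convert h.span (-1) 0 0 (-1) using 1 <;>
      · ext i; rcases i with i | i <;> fin_cases i <;> simp [coe_Jg])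

theorem BigV.swap (h : BigV P) : BigU (cj P (Jg F)) :=
  Big.frame (by
    convert h using 1 <;>
      · ext i; rcases i with i | i <;> fin_cases i <;> simp [coe_Jg])

theorem emb_slU (s t : F) : emb (slU s, slU t) = Ue !![s, 0; 0, t] := by
  ext i j
  rcases i with i | i <;> rcases j with j | j <;> fin_cases i <;> fin_cases j <;>
    simp [coe_emb, coe_Ue]

theorem emb_slV (s t : F) : emb (slV s, slV t) = Ve !![s, 0; 0, t] := by
  ext i j
  rcases i with i | i <;> rcases j with j | j <;> fin_cases i <;> fin_cases j <;>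
    simp [coe_emb, coe_Ve]

theorem exists_unip [Finite F] {D : Subgroup (SL(2, F) × SL(2, F))} {c : F} {z : SL(2, F)}
    (h : (slV c, z) ∈ D) : ∃ z', (slV c, z') ∈ D ∧ ∃ n, n ≠ 0 ∧ z'.1 *ᵥ n = n := by
  obtain ⟨p, hp⟩ := CharP.exists F
  have hpp : Fact p.Prime := ⟨CharP.char_is_prime F p⟩
  obtain ⟨k, n, hn, e⟩ := Nat.exists_eq_pow_mul_and_not_dvd (orderOf_pos z).ne' p hpp.1.ne_one
  have h1 : ((n ^ (p - 1) : ℕ) : F) = 1 := by
    rw [← Nat.cast_one (R := F), CharP.natCast_eq_natCast F p]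
    simpa [Nat.totient_prime hpp.1] using
      Nat.ModEq.pow_totient ((Nat.Prime.coprime_iff_not_dvd hpp.1).2 hn).symm
  refine ⟨z ^ n ^ (p - 1), ?_, ?_⟩
  · simpa [slV_pow, -Nat.cast_pow, h1] using D.pow_mem h (n ^ (p - 1))
  · have h2 : (z ^ n ^ (p - 1)) ^ p ^ k = 1 := by
      rw [← pow_mul, ← orderOf_dvd_iff_pow_eq_one, e, mul_comm]
      exact mul_dvd_mul_right (dvd_pow_self n (Nat.sub_ne_zero_of_lt hpp.1.one_lt)) _
    generalize z ^ n ^ (p - 1) = y at h2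
    have h3 : (y.1 - 1) ^ p ^ k = 0 := by
      rw [sub_pow_char_pow_of_commute p k (Commute.one_right _), one_pow, sub_eq_zero]
      exact congrArg Subtype.val h2
    have h4 := congrArg det h3
    rw [det_pow, det_zero] at h4
    obtain ⟨v, hv, h5⟩ := exists_mulVec_eq_zero_iff.2 (pow_eq_zero_iff (pow_pos hpp.1.pos k).ne' |>.1 h4)
    exact ⟨v, hv, by rwa [sub_mulVec, one_mulVec, sub_eq_zero] at h5⟩

theorem ev_ne_zero (i : I) : (ev i : I → F) ≠ 0 := by simp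

theorem Ctx.opp_diag [Finite F] (h2 : (2 : F) ≠ 0) (h : Ctx P) (hU : BigU P) (hV : BigV P)
    {s₁ s₂ r₁ r₂ : F} (hs : s₁ ≠ 0) (hr : r₁ ≠ 0) (hu : Ue !![s₁, 0; 0, s₂] ∈ P)
    (hv : Ve !![r₁, 0; 0, r₂] ∈ P) (hg : ¬ ((3 : F) = 0 ∧ (s₁ * r₁) ^ 2 = -1)) :
    ∃ c, !![s₁, 0; 0, s₂] * c = 1 ∧ Ve c ∈ P := by
  rw [← emb_slU] at hu
  rw [← emb_slV] at hv
  obtain ⟨F₀, -, h3, h4, -⟩ := pair ((P.comap emb).map (MonoidHom.fst _ _)) hs hr
    ⟨_, hu, rfl⟩ ⟨_, hv, rfl⟩ ⟨2, h2, by norm_num [← sub_ne_zero],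
      _, mul_mem hu hu, by rw [two_mul, slU_add]; rfl⟩
  obtain ⟨⟨y, z⟩, hz, e⟩ := (h3 (s₁ * r₁)⁻¹).2
    (inv_mem (h4.resolve_right fun e => hg ⟨e.1, e.2.1⟩))
  rw [show (s₁ * r₁)⁻¹ * r₁ = s₁⁻¹ by field_simp] at e
  obtain rfl : y = _ := e
  obtain ⟨z, hz, n, hn, hzn⟩ := exists_unip hz
  have hz' : emb (slV s₁⁻¹, z) ∈ P := hz
  have z0 := congrFun hzn 0
  have z1 := congrFun hzn 1
  simp only [mulVec, dotProduct, Fin.sum_univ_two] at z0 z1
  have k0 : ∀ z, emb (slV s₁⁻¹, z) ≠ 1 := fun z e => by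
    simpa [coe_emb, hs] using congrArg (fun k : G4 F => k.1 (.inr 0) (.inl 0)) e
  have k1 : (emb (slV s₁⁻¹, z)).1 *ᵥ ev (.inr 0) = ev (.inr 0) := by
    ext i; rcases i with i | i <;> fin_cases i <;> simp [coe_emb]
  have n0 : n 0 = 0 := by
    by_contra n0
    refine h.s1 h2 (ev_ne_zero (.inr 0)) (w₁ := n 0 • ev (.inl 1) + n 1 • ev (.inr 1)) ?_ ?_ ?_
      hz' (k0 z) k1 ?_ hV
    · simp [sympForm_eq]
    · simp [sympForm_eq]
    · simpa [sympForm_eq] using n0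
    · ext i
      rcases i with i | i <;> fin_cases i <;>
        simp [coe_emb, mulVec, dotProduct, Fintype.sum_sum_type, z0, z1]
  have n1 : n 1 ≠ 0 := fun e => hn (by ext i; fin_cases i <;> simp [n0, e])
  have hd := z.det_coe
  rw [det_fin_two] at hd
  have ez : z = slV (z 1 0) := by
    ext i j
    fin_cases i <;> fin_cases j <;> simp <;> grind
  rw [ez] at hz'
  generalize z 1 0 = c at hz'
  have hc : 1 - c * s₂ = 0 := by
    by_contra hc
    have hb := (hU.conj (mul_mem hu (inv_mem hz'))).span (-s₁) 0 0 1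
    rw [emb_slU, emb_slV, ← Ve_neg] at hb
    refine h.s1 h2 (ev_ne_zero (.inr 0)) (w₁ := ev (.inr 1))
      (w₂ := (1 - c * s₂) • ev (.inl 1) - c • ev (.inr 1)) ?_ ?_ ?_ hz' (k0 _) ?_ ?_ ?_
    · simp [sympForm_eq]
    · simp [sympForm_eq]
    · simpa [sympForm_eq] using hc
    · rw [emb_slV, Ve_ev]
    · rw [emb_slV, Ve_ev]
    · convert hb using 1 <;>
      · ext i
        rcases i with i | i <;> fin_cases i <;>
          simp [coe_Ue, coe_Ve, fromBlocks_multiply, hs, mul_comm, sub_eq_add_neg]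
  refine ⟨_, ?_, emb_slV s₁⁻¹ c ▸ hz'⟩
  ext i j
  fin_cases i <;> fin_cases j <;> simp [hs]
  linear_combination -hc

theorem opp_of_levi {m m' : M2 F} (e : m * m' = 1) {a : M2 F}
    (h : ∃ c, m' * a * m'ᵀ * c = 1 ∧ Ve c ∈ cj P (Lv m m' e)) : ∃ c, a * c = 1 ∧ Ve c ∈ P := by
  obtain ⟨c, h1, h2⟩ := h
  rw [mem_cj, Lv_Ve] at h2
  refine ⟨_, ?_, h2⟩
  have : a * (m'ᵀ * c * m') = m * (m' * a * m'ᵀ * c) * m' := by
    simp only [← Matrix.mul_assoc, e, Matrix.one_mul]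
  rw [this, h1, Matrix.mul_one, e]

theorem Ue_mem_levi {m m' : M2 F} (e : m * m' = 1) {a : M2 F} (h : Ue a ∈ P) :
    Ue (m' * a * m'ᵀ) ∈ cj P (Lv m m' e) := by
  rwa [mem_cj, Lv_Ue, ← Matrix.mul_assoc, ← Matrix.mul_assoc, e, Matrix.one_mul, Matrix.mul_assoc,
    ← transpose_mul, e, transpose_one, Matrix.mul_one]

theorem Ve_mem_levi {m m' : M2 F} (e : m * m' = 1) {a : M2 F} (h : Ve a ∈ P) :
    Ve (mᵀ * a * m) ∈ cj P (Lv m m' e) := by
  rwa [mem_cj, Lv_Ve, ← Matrix.mul_assoc, ← Matrix.mul_assoc, ← transpose_mul, e, transpose_one,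
    Matrix.one_mul, Matrix.mul_assoc, e, Matrix.mul_one]

theorem Ctx.opp_diag' [Finite F] (h2 : (2 : F) ≠ 0) (h : Ctx P) (hU : BigU P) (hV : BigV P)
    {a b : M2 F} (ha : a ≠ 0) (hb : b ≠ 0) (hu : Ue a ∈ P) (hv : Ve b ∈ P) (a1 : a 1 0 = 0)
    (b1 : b 1 0 = 0) (hg : ¬ ((3 : F) = 0 ∧ a * b * (a * b) = -1)) :
    ∃ c, a * c = 1 ∧ Ve c ∈ P := by
  have a2 : a 0 1 = 0 := (congrFun (congrFun (Ue_mem_sp.1 (h.le hu)) 1) 0).trans a1
  have b2 : b 0 1 = 0 := (congrFun (congrFun (Ve_mem_sp.1 (h.le hv)) 1) 0).trans b1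
  have da := h.det_Ue hu ha
  have db := h.det_Ve hv hb
  rw [eta_fin_two a, a1, a2] at hu hg da ⊢
  rw [eta_fin_two b, b1, b2] at hv hg db
  generalize a 0 0 = s₁ at *
  generalize a 1 1 = s₂ at *
  generalize b 0 0 = r₁ at *
  generalize b 1 1 = r₂ at *
  simp only [det_fin_two_of, mul_zero, sub_zero, ne_eq, mul_eq_zero, not_or] at da db
  by_cases h1 : (3 : F) = 0 ∧ (s₁ * r₁) ^ 2 = -1
  swap
  · exact h.opp_diag h2 hU hV da.1 db.1 hu hv h1
  have e : (!![0, 1; 1, 0] : M2 F) * !![0, 1; 1, 0] = 1 := by simp [one_fin_two]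
  have t : (!![0, 1; 1, 0] : M2 F)ᵀ = !![0, 1; 1, 0] := by
    ext i j; fin_cases i <;> fin_cases j <;> rfl
  have hu' := Ue_mem_levi e hu
  have hv' := Ve_mem_levi e hv
  refine opp_of_levi e ?_
  simp only [t, mul_fin_two, mul_zero, zero_mul, mul_one, one_mul, add_zero, zero_add] at hu' hv' ⊢
  refine (h.frame (Lv_mem_sp _ _ e)).opp_diag h2 (hU.levi _ _ e) (hV.levi _ _ e) da.2 db.2 hu' hv'
    fun h3 => hg ⟨h1.1, ?_⟩
  ext i j
  fin_cases i <;> fin_cases j <;> simp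
  exacts [by rw [← h1.2, sq], by rw [← h3.2, sq]]

theorem Ctx.opp_eig [Finite F] (h2 : (2 : F) ≠ 0) (h : Ctx P) (hU : BigU P) (hV : BigV P)
    {a b : M2 F} (ha : a ≠ 0) (hb : b ≠ 0) (hu : Ue a ∈ P) (hv : Ve b ∈ P) {z : Fin 2 → F} {l : F}
    (hz : (a * b) *ᵥ z = l • z) (hz' : z ⬝ᵥ b *ᵥ z ≠ 0)
    (hg : ¬ ((3 : F) = 0 ∧ a * b * (a * b) = -1)) : ∃ c, a * c = 1 ∧ Ve c ∈ P := by
  have hbs := Ve_mem_sp.1 (h.le hv)
  let m : M2 F := !![z 0, -(b *ᵥ z) 1; z 1, (b *ᵥ z) 0]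
  have hm : m.det ≠ 0 := by
    convert hz' using 1
    simp [m, det_fin_two, dotProduct]; ring
  have e : m * m⁻¹ = 1 := mul_nonsing_inv _ (Ne.isUnit hm)
  have e' := mul_eq_one_comm.1 e
  have C := h.frame (Lv_mem_sp _ _ e)
  have hu' := Ue_mem_levi e hu
  have hv' := Ve_mem_levi e hv
  have k : m⁻¹ * a * m⁻¹ᵀ * (mᵀ * b * m) = m⁻¹ * (a * b) * m := by
    simp only [Matrix.mul_assoc]
    rw [← Matrix.mul_assoc m⁻¹ᵀ, ← transpose_mul, e, transpose_one, Matrix.one_mul]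
  have b1 : (mᵀ * b * m) 1 0 = 0 := by
    simp [m, mul_apply, mulVec, dotProduct]; ring
  have hb' : mᵀ * b * m ≠ 0 := fun e => h.det_Ve hv hb (by
    simpa [hm] using congrArg det e)
  have ha' : m⁻¹ * a * m⁻¹ᵀ ≠ 0 := fun e => h.det_Ue hu ha (by
    simpa [hm] using congrArg det e)
  have db := C.det_Ve hv' hb'
  refine opp_of_levi e (C.opp_diag' h2 (hU.levi _ _ e) (hV.levi _ _ e) ha' hb' hu' hv' ?_ b1
    fun h3 => hg ⟨h3.1, ?_⟩)
  · have z0 : m *ᵥ Pi.single 0 1 = z := by ext i; fin_cases i <;> simp [m]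
    have : (m⁻¹ * (a * b) * m) *ᵥ Pi.single 0 1 = l • Pi.single 0 1 := by
      rw [← mulVec_mulVec, ← mulVec_mulVec, z0, hz, mulVec_smul, ← z0, mulVec_mulVec, e',
        one_mulVec]
    have h5 := congrFun this 1
    rw [← k] at h5
    generalize m⁻¹ * a * m⁻¹ᵀ = a' at *
    generalize mᵀ * b * m = b' at *
    rw [det_fin_two] at db
    simp [mul_apply, b1] at h5 db
    exact h5.resolve_right db.1
  · have := congrArg (fun X => m * X * m⁻¹) (k ▸ h3.2)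
    simpa [Matrix.mul_assoc, e, ← Matrix.mul_assoc m m⁻¹] using this

theorem pow_mulVec_eq {M : M4 F} {w : I → F} {c : F} (h : M *ᵥ w = c • w) (j : ℕ) :
    (M ^ j) *ᵥ w = c ^ j • w := by
  induction j with
  | zero => simp
  | succ j ih => rw [pow_succ, ← mulVec_mulVec, h, mulVec_smul, ih, smul_smul, pow_succ']

theorem Ctx.eq_smul_of_iso [Finite F] (h2 : (2 : F) ≠ 0) (h : Ctx P) (hU : BigU P)
    {a b : M2 F} (hb : b ≠ 0) (hu : Ue a ∈ P) (hv : Ve b ∈ P) {z : Fin 2 → F} (z0 : z ≠ 0)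
    {l : F} (hz : (a * b) *ᵥ z = l • z) (hz' : z ⬝ᵥ b *ᵥ z = 0) (hl : (2 + l) ^ 2 - 4 ≠ 0) :
    a * b = l • 1 := by
  have has := Ue_mem_sp.1 (h.le hu)
  have hbs := Ve_mem_sp.1 (h.le hv)
  have hy : b *ᵥ z ≠ 0 := fun e => h.det_Ve hv hb (exists_mulVec_eq_zero_iff.1 ⟨z, z0, e⟩)
  have n1 : (a * b - l • 1) *ᵥ z = 0 := by rw [sub_mulVec, hz]; simp [smul_mulVec]
  have n2 : (b *ᵥ z) ᵥ* (a * b - l • 1) = 0 := by
    rw [← mulVec_transpose, mulVec_mulVec, transpose_sub, transpose_mul, has, hbs, transpose_smul,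
      transpose_one, show (b * a - l • 1) * b = b * (a * b - l • 1) by
        simp [Matrix.mul_sub, Matrix.sub_mul, Matrix.mul_assoc], ← mulVec_mulVec, n1, mulVec_zero]
  have n3 : (a * b - l • 1) * (a * b - l • 1) = 0 := by
    generalize a * b - l • 1 = n at n1 n2
    generalize b *ᵥ z = y at hy hz' n2
    have a0 := congrFun n1 0; have a1 := congrFun n1 1
    have b0 := congrFun n2 0; have b1 := congrFun n2 1
    have z1 : z 0 ≠ 0 ∨ z 1 ≠ 0 := by
      by_contra! e; exact z0 (by ext i; fin_cases i <;> simp [e])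
    have y1 : y 0 ≠ 0 ∨ y 1 ≠ 0 := by
      by_contra! e; exact hy (by ext i; fin_cases i <;> simp [e])
    simp only [mulVec, vecMul, dotProduct, Fin.sum_univ_two, Pi.zero_apply] at a0 a1 b0 b1 hz'
    have c0 : n 0 0 * z 1 = n 1 0 * z 0 := by grind
    have c1 : n 0 1 * z 1 = n 1 1 * z 0 := by grind
    ext i j
    fin_cases i <;> fin_cases j <;> simp [mul_apply] <;> grind
  obtain ⟨p, hp⟩ := CharP.exists F
  have := Fintype.ofFinite F
  obtain ⟨⟨n, hn⟩, hpp, hq⟩ := FiniteField.card F p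
  replace hq : Fintype.card F = p ^ n := hq
  have := Fact.mk hpp
  have hp2 : p ≠ 2 := by rintro rfl; exact h2 (CharP.cast_eq_zero F 2)
  obtain ⟨i, hi⟩ : Odd (Fintype.card F) := hq ▸ (hpp.odd_of_ne_two hp2).pow
  have hQ : p ^ (2 * n) = 2 * (2 * i * (i + 1)) + 1 := by rw [pow_mul', ← hq, hi]; ring
  have fix : ∀ x : F, x ^ p ^ (2 * n) = x := fun x => by
    rw [pow_mul', ← hq, FiniteField.pow_card_pow]
  let g := Ue a * Ve b
  let N : M4 F := fromBlocks (a * b - l • 1) 0 0 (a * b - l • 1)ᵀ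
  have hN : N * N = 0 := by simp [N, fromBlocks_multiply, n3, ← transpose_mul, -transpose_sub]
  have hT : g.1 + (g⁻¹).1 = (2 + l) • 1 + N := by
    rw [_root_.mul_inv_rev, ← Ue_neg, ← Ve_neg, ← fromBlocks_one]
    simp only [g, N, Units.val_mul, coe_Ue, coe_Ve, fromBlocks_multiply, fromBlocks_add,
      fromBlocks_smul, transpose_sub, transpose_mul, has, hbs, transpose_smul, transpose_one]
    congr 1 <;> simp <;> module
  have hTQ : ((2 + l) • 1 + N) ^ p ^ (2 * n) = (2 + l) • (1 : M4 F) := by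
    rw [add_pow_char_pow_of_commute p _ ((Commute.one_left N).smul_left _), smul_pow, fix, one_pow,
      hQ, pow_succ, pow_mul, sq, hN, zero_pow (by
        have := Fintype.one_lt_card (α := F)
        exact mul_ne_zero (by omega) (by omega))]
    simp
  have hX : (g.1 - (g⁻¹).1) ^ 2 = ((2 + l) ^ 2 - 4) • 1 + (2 * (2 + l)) • N := by
    have : (g.1 - (g⁻¹).1) ^ 2 = (g.1 + (g⁻¹).1) ^ 2 - (4 : F) • 1 := by
      simp only [sq, Matrix.add_mul, Matrix.mul_add, Matrix.sub_mul, Matrix.mul_sub, g.mul_inv,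
        g.inv_mul]
      module
    rw [this, hT, sq]
    simp only [Matrix.add_mul, Matrix.mul_add, Matrix.smul_mul, Matrix.mul_smul, hN,
      Matrix.mul_one, Matrix.one_mul]
    module
  have key : ∀ w, N *ᵥ w = 0 → (g⁻¹ * g ^ p ^ (2 * n)).1 *ᵥ w = w := fun w hw => by
    rw [Units.val_mul, ← mulVec_mulVec]
    refine inv_mulVec_of_eq (smul_right_injective _ h2 ?_)
    have e1 : (2 : F) • g.1 = (g.1 + (g⁻¹).1) + (g.1 - (g⁻¹).1) := by module
    have e2 := pow_mulVec_eq (M := (g.1 - (g⁻¹).1) ^ 2) (w := w) (c := (2 + l) ^ 2 - 4)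
      (by rw [hX]; simp [add_mulVec, smul_mulVec, hw]) (2 * i * (i + 1))
    rw [pow_mul ((2 + l) ^ 2 - 4), show ((2 + l) ^ 2 - 4) ^ (2 * i) = 1 by
      rw [← FiniteField.pow_card_sub_one_eq_one _ hl, hi]; rfl, one_pow, one_smul] at e2
    have c : Commute (g.1 + (g⁻¹).1) (g.1 - (g⁻¹).1) := by
      have := (Commute.refl g.1).units_inv_right
      exact ((Commute.refl _).sub_right this).add_left (this.symm.sub_right (Commute.refl _))
    simp only
    rw [← smul_mulVec, ← smul_mulVec, Units.val_pow_eq_pow_val]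
    conv_rhs => rw [← fix 2, ← smul_pow, e1, add_pow_char_pow_of_commute p _ c, hT, hTQ, hQ,
      pow_succ', pow_mul, add_mulVec, ← mulVec_mulVec, e2]
    rw [e1, hT, add_mulVec, add_mulVec, hw, add_zero]
  have hg : g ∈ P := mul_mem hu hv
  have k1 : g⁻¹ * g ^ p ^ (2 * n) = 1 := by
    by_contra k0
    obtain ⟨j, hj⟩ := Function.ne_iff.1 hy
    refine h.s1 h2 (x := Sum.elim z 0) (w₁ := Sum.elim 0 (b *ᵥ z)) ?_ ?_ ?_ ?_
      (mul_mem (inv_mem hg) (pow_mem hg _)) k0 (key _ ?_) (key _ ?_) (hU.elim z (Pi.single j 1))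
    · exact fun e => z0 (funext fun i => congrFun e (.inl i))
    · rw [← neg_eq_zero, ← hz']; simp [sympForm_eq, dotProduct]
    · simp [sympForm_eq]
    · simpa [sympForm_eq, Pi.single_apply] using hj
    · simp [N, fromBlocks_mulVec, n1]
    · generalize b *ᵥ z = y at n2
      simp [N, fromBlocks_mulVec, -transpose_sub, mulVec_transpose, n2]
  have k2 : g ^ p ^ (2 * n) = g := (inv_mul_eq_one.1 k1).symm
  have k3 : (g.1 + (g⁻¹).1) ^ p ^ (2 * n) = g.1 + (g⁻¹).1 := by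
    rw [add_pow_char_pow_of_commute p _ (Commute.refl g.1).units_inv_right,
      ← Units.val_pow_eq_pow_val, ← Units.val_pow_eq_pow_val, inv_pow, k2]
  rw [hT, hTQ, left_eq_add, ← fromBlocks_zero, fromBlocks_inj] at k3
  exact sub_eq_zero.1 k3.1

theorem exists_aniso (h2 : (2 : F) ≠ 0) {b : M2 F} (hb : b ≠ 0) (hs : bᵀ = b) :
    ∃ z : Fin 2 → F, z ⬝ᵥ b *ᵥ z ≠ 0 := by
  by_contra! h
  have h0 := h ![1, 0]; have h1 := h ![0, 1]; have h3 := h ![1, 1]
  have h4 := congrFun (congrFun hs 0) 1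
  simp [mulVec, dotProduct] at h0 h1 h3 h4
  refine hb ?_
  ext i j
  fin_cases i <;> fin_cases j <;> simp <;> grind

theorem mul_self_fin_two (g : M2 F) : g * g = (-g.det) • 1 + g.trace • g := by
  ext i j
  fin_cases i <;> fin_cases j <;> simp [mul_apply, det_fin_two, trace_fin_two] <;> ring

theorem opp_field [Finite F] (h2 : (2 : F) ≠ 0) {a a' b : M2 F} (e : a * a' = 1) (hu : Ue a ∈ P)
    (hv : Ve b ∈ P) (hr : ∀ r, r ^ 2 ≠ -(a * b).det + (a * b).trace * r)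
    (hg : ¬ ((3 : F) = 0 ∧ a * b * (a * b) = -1)) : Ve a' ∈ P := by
  have := Fact.mk hr
  have e' := mul_eq_one_comm.1 e
  let E := QuadraticAlgebra F (-(a * b).det) (a * b).trace
  have : Finite E := Module.finite_of_finite F
  let ψ : E →ₐ[F] M2 F := QuadraticAlgebra.lift ⟨a * b, mul_self_fin_two _⟩
  have hψ : ψ QuadraticAlgebra.omega = a * b :=
    show (0 : F) • (1 : M2 F) + (1 : F) • (a * b) = _ by simp
  let Ψ : SL(2, E) →* M4 F :=
    { toFun := fun A => fromBlocks (ψ (A 0 0)) (ψ (A 0 1) * a) (a' * ψ (A 1 0))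
        (a' * ψ (A 1 1) * a)
      map_one' := by simp [e']
      map_mul' := fun A B => by
        simp [fromBlocks_multiply, mul_apply, Matrix.mul_add, Matrix.add_mul, Matrix.mul_assoc,
          ← Matrix.mul_assoc a a', e] }
  have hU : Ψ.toHomUnits (slU 1) = Ue a := Units.ext (by simp [Ψ, coe_Ue, e'])
  have hV : ∀ x, Ψ.toHomUnits (slV x) = Ve (a' * ψ x) := fun x =>
    Units.ext (by simp [Ψ, coe_Ve, e'])
  have w0 : (QuadraticAlgebra.omega : E) ≠ 0 := fun e => by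
    simpa using congrArg QuadraticAlgebra.im e
  have i := (algebraMap F E).injective
  have hu' : slU 1 ∈ P.comap Ψ.toHomUnits := show _ ∈ P from hU ▸ hu
  obtain ⟨F₀, -, h3, h4, -⟩ := pair (P.comap Ψ.toHomUnits) one_ne_zero w0 hu'
    (show _ ∈ P by rwa [hV, hψ, ← Matrix.mul_assoc, e', Matrix.one_mul])
    ⟨2, fun e => h2 (i (by rw [map_ofNat, e, map_zero])), by norm_num [← sub_ne_zero],
      by rw [two_mul, slU_add]; exact mul_mem hu' hu'⟩
  rw [one_mul] at h4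
  have := (h3 _).2 (inv_mem (h4.resolve_right fun e => hg ⟨i (by
    rw [map_ofNat, e.1, map_zero]), by rw [← hψ, ← map_mul, ← sq, e.2.1, map_neg, map_one]⟩))
  rwa [inv_mul_cancel₀ w0, Subgroup.mem_comap, hV, map_one, Matrix.mul_one] at this

theorem Ctx.opp_good [Finite F] (h2 : (2 : F) ≠ 0) (h : Ctx P) (hU : BigU P) (hV : BigV P)
    {a b : M2 F} (ha : a ≠ 0) (hb : b ≠ 0) (hu : Ue a ∈ P) (hv : Ve b ∈ P)
    (hg : ¬ ((3 : F) = 0 ∧ a * b * (a * b) = -1)) : ∃ c, a * c = 1 ∧ Ve c ∈ P := by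
  by_cases hr : ∀ r, r ^ 2 ≠ -(a * b).det + (a * b).trace * r
  · have e := mul_nonsing_inv _ (Ne.isUnit (h.det_Ue hu ha))
    exact ⟨_, e, opp_field h2 e hu hv hr hg⟩
  push Not at hr
  obtain ⟨l, hl⟩ := hr
  obtain ⟨z, z0, hz⟩ := exists_mulVec_eq_zero_iff.2 (show (a * b - l • 1).det = 0 by
    rw [det_fin_two, trace_fin_two] at hl
    simp only [det_fin_two, Matrix.sub_apply, Matrix.smul_apply, one_apply_eq, one_apply_ne zero_ne_one,
      one_apply_ne one_ne_zero, smul_eq_mul]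
    linear_combination hl)
  rw [sub_mulVec, smul_mulVec, one_mulVec, sub_eq_zero] at hz
  by_cases hz' : z ⬝ᵥ b *ᵥ z = 0
  swap
  · exact h.opp_eig h2 hU hV ha hb hu hv hz hz' hg
  have l0 : l ≠ 0 := by
    rintro rfl
    rw [zero_smul] at hz
    exact mul_ne_zero (h.det_Ue hu ha) (h.det_Ve hv hb)
      (det_mul a b ▸ exists_mulVec_eq_zero_iff.1 ⟨z, z0, hz⟩)
  have e : a * b = l • 1 := by
    by_cases l4 : l + 4 = 0
    · have := h.eq_smul_of_iso h2 hU (neg_ne_zero.2 hb) hu (Ve_neg b ▸ inv_mem hv) z0 (l := -l)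
        (by rw [Matrix.mul_neg, neg_mulVec, hz, neg_smul]) (by rw [neg_mulVec, dotProduct_neg, hz',
          neg_zero]) fun e => mul_ne_zero l0 (mul_ne_zero h2 (four_ne h2))
            (by linear_combination l * l4 - e)
      rwa [Matrix.mul_neg, neg_smul, neg_inj] at this
    · exact h.eq_smul_of_iso h2 hU hb hu hv z0 hz hz' fun e => mul_ne_zero l0 l4
        (by linear_combination e)
  obtain ⟨z, hz⟩ := exists_aniso h2 hb (Ve_mem_sp.1 (h.le hv))
  exact h.opp_eig h2 hU hV ha hb hu hv (l := l) (by rw [e, smul_mulVec, one_mulVec]) hz hg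

/-- The quadratic groups at two opposite big points are inverse to each other. -/
theorem Ctx.opp [Finite F] (h2 : (2 : F) ≠ 0) (h : Ctx P) (hU : BigU P) (hV : BigV P)
    {a : M2 F} (ha : a ≠ 0) (hu : Ue a ∈ P) : ∃ c, a * c = 1 ∧ Ve c ∈ P := by
  obtain ⟨v, hv, v', hv', v0, v1, v2, v3, v4, h6⟩ := id hV
  obtain ⟨b, rfl⟩ := eq_Ve (h.le hv) v1 v2
  obtain ⟨b', rfl⟩ := eq_Ve (h.le hv') v3 v4
  by_contra hc
  have key : ∀ b, Ve b ∈ P → Ve b ≠ 1 → (3 : F) = 0 ∧ a * b * (a * b) = -1 := fun b hb b0 => by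
    by_contra hg
    exact hc (h.opp_good h2 hU hV ha (by rintro rfl; exact b0 Ve_zero) hu hb hg)
  obtain ⟨h3, e1⟩ := key b hv v0
  obtain ⟨n1, n2, n3⟩ := h6.resolve_left (not_not.2 h3)
  obtain ⟨-, e2⟩ := key b' hv' n1
  obtain ⟨-, e3⟩ := key (b + b') (Ve_add b b' ▸ mul_mem hv hv')
    fun e => n3 (eq_inv_of_mul_eq_one_right (Ve_add b b' ▸ e))
  obtain ⟨-, e4⟩ := key (b' + -b) (by rw [Ve_add, Ve_neg]; exact mul_mem hv' (inv_mem hv))
    fun e => n2 (by rwa [Ve_add, Ve_neg, mul_inv_eq_one] at e)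
  have : (2 : F) • (1 : M2 F) = 0 := by
    simp only [Matrix.mul_add, Matrix.add_mul, Matrix.mul_neg, Matrix.neg_mul, e1, e2] at e3 e4
    linear_combination (norm := module) -e3 - e4
  simp [h2] at this

theorem Ctx.opp' [Finite F] (h2 : (2 : F) ≠ 0) (h : Ctx P) (hU : BigU P) (hV : BigV P)
    {b : M2 F} (hb : b ≠ 0) (hv : Ve b ∈ P) : ∃ c, b * c = 1 ∧ Ue c ∈ P := by
  obtain ⟨c, h1, h3⟩ := (h.frame Jg_mem_sp).opp h2 hV.swap hU.swap (neg_ne_zero.2 hb)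
    (by rwa [mem_cj, Jg_Ue, neg_neg])
  exact ⟨-c, by rw [Matrix.mul_neg, ← Matrix.neg_mul, h1], Jg_Ve c ▸ h3⟩

end Cfsg.Lib.Class.Sp4O
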