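import Cfsg.Agent.Class.OSO3

/-!
Subgroups of `O₅(q)` containing the negative of a reflection: basic facts on roots.
-/

set_option autoImplicit false

namespace Cfsg.Lib.Class.Sp4O.R

open QuadraticMap Module Orth

variable {F V : Type*} [Field F] [AddCommGroup V] [Module F V] {Q : QuadraticForm F V}

/-- The negative of the reflection in `v`. -/
def tv (Q : QuadraticForm F V) (v : V) : O Q := negO Q * refl Q v

/-- Equality up to sign. -/
def Par (v w : V) : Prop := w = v ∨ w = -v

theorem par_refl (v : V) : Par v v := Or.inl rfl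

theorem Par.symm {v w : V} (h : Par v w) : Par w v := by
  rcases h with rfl | rfl
  · exact Or.inl rfl
  · exact Or.inr (neg_neg _).symm

theorem Par.trans {u v w : V} (h : Par u v) (h' : Par v w) : Par u w := by
  rcases h with rfl | rfl <;> rcases h' with rfl | rfl <;> simp [Par]

theorem par_neg (v : V) : Par v (-v) := Or.inr rfl

theorem Par.exists {v w : V} (h : Par v w) : ∃ c : F, c ^ 2 = 1 ∧ w = c • v := by
  rcases h with rfl | rfl
  · exact ⟨1, by ring, (one_smul _ _).symm⟩
  · exact ⟨-1, by ring, (neg_one_smul _ _).symm⟩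

theorem par_smul {c : F} (hc : c ^ 2 = 1) (v : V) : Par v (c • v) := by
  rcases sq_eq_one_iff.1 hc with rfl | rfl
  · exact Or.inl (one_smul _ _)
  · exact Or.inr (neg_one_smul _ _)

theorem Par.mem {v w : V} (h : Par v w) {U : Submodule F V} (hv : v ∈ U) : w ∈ U := by
  rcases h with rfl | rfl
  · exact hv
  · exact U.neg_mem hv

theorem Par.polar_eq_zero {v w x : V} (h : Par v w) (hx : polar Q x v = 0) : polar Q x w = 0 := by
  rcases h with rfl | rfl
  · exact hx
  · rw [polar_neg_right, hx, neg_zero]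

theorem Par.polar_sq {v w : V} (h : Par v w) (x : V) : polar Q x w ^ 2 = polar Q x v ^ 2 := by
  rcases h with rfl | rfl
  · rfl
  · rw [polar_neg_right, neg_sq]

theorem Par.refl_eq {v w : V} (h : Par v w) : refl Q w = refl Q v := by
  rcases h with rfl | rfl
  · rfl
  · exact refl_neg _

theorem Par.map {v w : V} (h : Par v w) (g : O Q) : Par (g.1 v) (g.1 w) := by
  rcases h with rfl | rfl
  · exact par_refl _
  · rw [map_neg]; exact par_neg _

theorem refl1 {v : V} (hv : Q v = 1) (x : V) : (refl Q v).1 x = x - polar Q x v • v := by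
  rw [refl_apply, hv, inv_one, one_mul]

theorem tv_apply (v x : V) : (tv Q v).1 x = -(refl Q v).1 x := rfl

theorem tv_mul_tv (v w : V) : tv Q v * tv Q w = refl Q v * refl Q w := O_ext fun x => by
  simp [tv_apply]

theorem tv_mul_self (v : V) : tv Q v * tv Q v = 1 := by rw [tv_mul_tv, refl_mul_self]

theorem tv_inv (v : V) : (tv Q v)⁻¹ = tv Q v := inv_eq_of_mul_eq_one_right (tv_mul_self v)

theorem conj_tv (g : O Q) (v : V) : g * tv Q v * g⁻¹ = tv Q (g.1 v) := by
  rw [tv, tv, ← conj_refl, ← mul_assoc g, negO_comm g]; simp only [mul_assoc]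

theorem Par.tv_eq {v w : V} (h : Par v w) : tv Q w = tv Q v := by rw [tv, tv, h.refl_eq]

theorem tv_smul {a : F} (ha : a ≠ 0) (v : V) : tv Q (a • v) = tv Q v := by
  rw [tv, tv, refl_smul ha]

theorem tv_refl (v w : V) : tv Q ((refl Q v).1 w) = tv Q v * tv Q w * tv Q v := by
  rw [← (par_neg ((refl Q v).1 w)).tv_eq, ← tv_apply, ← conj_tv, tv_inv]

theorem tv_apply_of_orth {v x : V} (h : polar Q x v = 0) : (tv Q v).1 x = -x := by
  rw [tv_apply, refl_apply_of_orth h]

theorem tv_apply_self {v : V} (hv : Q v = 1) : (tv Q v).1 v = v := by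
  rw [tv_apply, refl_apply_self (by rw [hv]; exact one_ne_zero), neg_neg]

theorem polar_one {v : V} (hv : Q v = 1) : polar Q v v = 2 := by rw [polar_self', hv, mul_one]

theorem ne_zero_one {v : V} (hv : Q v = 1) : v ≠ 0 := by
  rintro rfl
  rw [QuadraticMap.map_zero] at hv
  exact zero_ne_one hv

theorem par_of_smul {v w : V} (hv : Q v = 1) (hw : Q w = 1) {c : F} (h : w = c • v) : Par v w := by
  rw [h, Q_smul, hv, mul_one] at hw
  exact h ▸ par_smul hw v

/-- Two unit vectors which are not equal up to sign are independent. -/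
theorem indep {v w : V} (hv : Q v = 1) (hw : Q w = 1) (h : ¬ Par v w) {α β : F}
    (e : α • v + β • w = 0) : α = 0 ∧ β = 0 := by
  by_cases hβ : β = 0
  · rw [hβ, zero_smul, add_zero, smul_eq_zero] at e
    exact ⟨e.resolve_right (ne_zero_one hv), hβ⟩
  · refine absurd (par_of_smul hv hw (c := -(β⁻¹ * α)) ?_) h
    have : w = β⁻¹ • (β • w) := by rw [smul_smul, inv_mul_cancel₀ hβ, one_smul]
    rw [this, eq_neg_of_add_eq_zero_right e]; module

theorem par_of_refl_eq (h2 : (2 : F) ≠ 0) {v w : V} (hv : Q v = 1) (hw : Q w = 1)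
    (h : refl Q v = refl Q w) : Par v w := by
  by_contra hp
  have h1 : (refl Q v).1 v = (refl Q w).1 v := by rw [h]
  rw [refl1 hv, refl1 hw, polar_one hv] at h1
  exact h2 (indep hv hw hp (α := 2) (β := -polar Q v w) (by
    rw [neg_smul, ← sub_eq_add_neg, sub_eq_zero]; exact sub_right_injective h1)).1

theorem par_of_tv_eq (h2 : (2 : F) ≠ 0) {v w : V} (hv : Q v = 1) (hw : Q w = 1)
    (h : tv Q v = tv Q w) : Par v w := par_of_refl_eq h2 hv hw (mul_left_cancel h)

theorem refl_refl_eq (v w : V) : refl Q ((refl Q v).1 w) = refl Q v * refl Q w * refl Q v := by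
  rw [← conj_refl, refl_inv]

/-- The golden values. -/
def Gold (b : F) : Prop := b ^ 4 - 3 * b ^ 2 + 1 = 0

section Orders

variable (h2 : (2 : F) ≠ 0) {v w : V} (hv : Q v = 1) (hw : Q w = 1) (hp : ¬ Par v w)
include h2 hv hw hp

theorem of_pow_two (h : (refl Q v * refl Q w) ^ 2 = 1) : polar Q v w = 0 := by
  have h1 : refl Q ((refl Q v).1 w) = refl Q w := by
    rw [refl_refl_eq, ← mul_inv_eq_one, refl_inv, ← h, pow_two]; simp only [mul_assoc]
  have h3 := par_of_refl_eq h2 (by rw [O_map, hw]) hw h1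
  rw [refl1 hv, polar_comm] at h3
  rcases h3 with h3 | h3
  · exact neg_eq_zero.1 (indep hv hw hp (α := -polar Q v w) (β := 0) (by
      linear_combination (norm := module) -h3)).1
  · exact absurd (indep hv hw hp (α := -polar Q v w) (β := 2) (by
      linear_combination (norm := module) h3)).2 h2

theorem of_pow_three (h : (refl Q v * refl Q w) ^ 3 = 1) : polar Q v w ^ 2 = 1 := by
  have h1 : refl Q ((refl Q v).1 w) = refl Q ((refl Q w).1 v) := by
    rw [refl_refl_eq, refl_refl_eq, ← mul_inv_eq_one, ← h]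
    simp only [mul_inv_rev, refl_inv, pow_succ, pow_zero, one_mul, mul_assoc]
  have h3 := par_of_refl_eq h2 (by rw [O_map, hw]) (by rw [O_map, hv]) h1
  rw [refl1 hv, refl1 hw, polar_comm Q w v] at h3
  rcases h3 with h3 | h3
  · have := (indep hv hw hp (α := 1 + polar Q v w) (β := -(1 + polar Q v w)) (by
      linear_combination (norm := module) h3)).1
    linear_combination (polar Q v w - 1) * this
  · have := (indep hv hw hp (α := 1 - polar Q v w) (β := 1 - polar Q v w) (by
      linear_combination (norm := module) h3)).1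
    linear_combination (-polar Q v w - 1) * this

theorem of_pow_four (h : (refl Q v * refl Q w) ^ 4 = 1) :
    polar Q v w = 0 ∨ polar Q v w ^ 2 = 2 := by
  by_contra hc
  push Not at hc
  have h1 : (refl Q v * refl Q ((refl Q w).1 v)) ^ 2 = 1 := by
    rw [refl_refl_eq, ← h]
    simp only [pow_succ, pow_zero, one_mul, mul_assoc]
  have h3 : ¬ Par v ((refl Q w).1 v) := by
    rw [refl1 hw]
    rintro (h3 | h3)
    · exact hc.1 (indep hv hw hp (α := 0) (β := polar Q v w) (by
        linear_combination (norm := module) -h3)).2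
    · exact h2 (indep hv hw hp (α := 2) (β := -polar Q v w) (by
        linear_combination (norm := module) h3)).1
  have h4 := of_pow_two h2 hv (by rw [O_map, hv]) h3 h1
  rw [refl1 hw, polar_sub_right, polar_smul_right', polar_one hv] at h4
  exact hc.2 (by linear_combination -h4)

theorem of_pow_five (h : (refl Q v * refl Q w) ^ 5 = 1) : Gold (polar Q v w) := by
  have h1 : refl Q ((refl Q v).1 ((refl Q w).1 v)) = refl Q ((refl Q w).1 ((refl Q v).1 w)) := by
    rw [refl_refl_eq, refl_refl_eq, refl_refl_eq, refl_refl_eq, ← mul_inv_eq_one, ← h]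
    simp only [mul_inv_rev, refl_inv, pow_succ, pow_zero, one_mul, mul_assoc]
  have h3 := par_of_refl_eq h2 (by rw [O_map, O_map, hv]) (by rw [O_map, O_map, hw]) h1
  simp only [refl1 hv, refl1 hw, polar_sub_left, polar_smul_left', polar_comm Q w v,
    polar_one hv, polar_one hw] at h3
  unfold Gold
  rcases h3 with h3 | h3
  · have := (indep hv hw hp (α := 1 - polar Q v w - polar Q v w ^ 2)
      (β := -(1 - polar Q v w - polar Q v w ^ 2)) (by linear_combination (norm := module) h3)).1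
    linear_combination (1 + polar Q v w - polar Q v w ^ 2) * this
  · have := (indep hv hw hp (α := -(1 + polar Q v w - polar Q v w ^ 2))
      (β := -(1 + polar Q v w - polar Q v w ^ 2)) (by linear_combination (norm := module) h3)).1
    linear_combination -(1 - polar Q v w - polar Q v w ^ 2) * this

end Orders

theorem refl_comm_of_orth {v w : V} (h : polar Q w v = 0) :
    refl Q v * refl Q w = refl Q w * refl Q v := by
  rw [mul_refl, refl_apply_of_orth h]

theorem mem_span_of_eich_eq_one [FiniteDimensional F V] (hQ : (polarBilin Q).Nondegenerate)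
    {e w : V} (he0 : e ≠ 0) (he : Q e = 0) (hw : polar Q e w = 0) (h : eich Q e w = 1) :
    ∃ c : F, w = c • e := by
  obtain ⟨f, hf⟩ := Orth.exists_polar_eq_one hQ he0
  have h1 := eich_apply he hw f
  rw [h, O_one_apply, polar_comm Q f e, hf] at h1
  exact ⟨polar Q f w - Q w * 1, by linear_combination (norm := module) h1⟩

theorem mem_span_of_eich_eq [FiniteDimensional F V] (hQ : (polarBilin Q).Nondegenerate)
    {e w w' : V} (he0 : e ≠ 0) (he : Q e = 0) (hw : polar Q e w = 0) (hw' : polar Q e w' = 0)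
    (h : eich Q e w' = eich Q e w) : ∃ c : F, w' - w = c • e := by
  refine mem_span_of_eich_eq_one hQ he0 he (by rw [polar_sub_right, hw, hw', sub_zero]) ?_
  rw [sub_eq_add_neg, eich_add he hw' (by rw [polar_neg_right, hw, neg_zero]), eich_neg, h,
    mul_inv_cancel]

theorem eich_sub_eq {v w : V} (hv : Q v = 1) (hw : Q w = 1) (h : polar Q v w = 2) :
    eich Q (v - w) v = refl Q v * refl Q w := by
  rw [eich_eq_refl_mul_refl (by rw [Q_sub, hv, hw, h]; ring)
    (by rw [polar_sub_left, polar_one hv, polar_comm, h, sub_self])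
    (by rw [hv]; exact one_ne_zero), hv, one_smul, sub_sub_cancel]

variable (Q) in
/-- The standing hypotheses. -/
structure RC [FiniteDimensional F V] (K : Subgroup (O Q)) : Prop where
  hQ : (polarBilin Q).Nondegenerate
  h5 : finrank F V = 5
  h2 : (2 : F) ≠ 0
  simple : IsSimpleGroup K
  hna : ¬ IsMulCommutative K
  hirr : ∀ U : Submodule F V, (∀ g ∈ K, ∀ v ∈ U, g.1 v ∈ U) → U = ⊥ ∨ U = ⊤
  hΩ : ∀ v, Q v ≠ 0 → tv Q v ∈ K → IsSquare (Q v)
  H0 : ∀ e w, Q w = 0 → eich Q e w ∈ K → eich Q e w = 1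
  H1 : ∀ e w w', eich Q e w ∈ K → eich Q e w ≠ 1 → eich Q e w' ∈ K →
    (3 : F) = 0 ∧ (eich Q e w' = 1 ∨ eich Q e w' = eich Q e w ∨ eich Q e w' = (eich Q e w)⁻¹)
  ex : ∃ a, Q a = 1 ∧ tv Q a ∈ K

/-- Roots. -/
def Rt (K : Subgroup (O Q)) (v : V) : Prop := Q v = 1 ∧ tv Q v ∈ K

variable {K : Subgroup (O Q)}

theorem Rt.par {v w : V} (h : Rt K v) (hp : Par v w) : Rt K w := by
  refine ⟨?_, hp.tv_eq (Q := Q) ▸ h.2⟩
  rcases hp with rfl | rfl
  · exact h.1
  · rw [QuadraticMap.map_neg, h.1]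

theorem Rt.neg {v : V} (h : Rt K v) : Rt K (-v) := h.par (par_neg v)

theorem Rt.smul {v : V} (h : Rt K v) {c : F} (hc : c ^ 2 = 1) : Rt K (c • v) :=
  h.par (par_smul hc v)

theorem Rt.apply {v : V} (h : Rt K v) {g : O Q} (hg : g ∈ K) : Rt K (g.1 v) :=
  ⟨by rw [O_map, h.1], conj_tv g v ▸ K.mul_mem (K.mul_mem hg h.2) (K.inv_mem hg)⟩

theorem Rt.rf {v w : V} (hv : Rt K v) (hw : Rt K w) : Rt K ((refl Q v).1 w) := by
  have := (hw.apply hv.2).neg
  rwa [tv_apply, neg_neg] at this

theorem Rt.mul_mem {v w : V} (hv : Rt K v) (hw : Rt K w) : Orth.refl Q v * Orth.refl Q w ∈ K :=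
  tv_mul_tv (Q := Q) v w ▸ K.mul_mem hv.2 hw.2

theorem tv_mem_stab [FiniteDimensional F V] {U : Submodule F V} {v : V}
    (h : v ∈ U ∨ v ∈ orth Q U) : tv Q v ∈ stab Q U := mem_stab_of_forall_mem fun x hx => by
  rw [tv_apply]
  refine U.neg_mem ?_
  rcases h with h | h
  · rw [refl_apply]; exact U.sub_mem hx (U.smul_mem _ h)
  · rwa [refl_apply_of_orth (mem_orth.1 h x hx)]

variable [FiniteDimensional F V]

namespace RC

variable (C : RC Q K)
include C

theorem rt_of_mem {v : V} (hv : Q v ≠ 0) (h : tv Q v ∈ K) : ∃ c : F, c ≠ 0 ∧ Rt K (c • v) := by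
  obtain ⟨r, hr⟩ := C.hΩ v hv h
  have hr0 : r ≠ 0 := by rintro rfl; exact hv (by rw [hr, mul_zero])
  exact ⟨r⁻¹, inv_ne_zero hr0, by rw [Q_smul, hr]; field_simp,
    by rwa [tv_smul (inv_ne_zero hr0)]⟩

theorem dick_tv {v : V} (hv : Q v ≠ 0) : dick (tv Q v) = 1 := by
  rw [tv, dick_mul_refl C.hQ _ hv, dick_negO C.h2, C.h5]; decide

theorem tv_ne_one {v : V} (hv : Q v = 1) : tv Q v ≠ 1 := fun h => by
  obtain ⟨z, h1, h3⟩ := exists_nonsing_orth_one C.hQ (by rw [C.h5]; decide) v
  have h4 := tv_apply_of_orth (Q := Q) (v := v) (x := z) (by rwa [polar_comm])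
  rw [h, O_one_apply, eq_neg_iff_add_eq_zero, ← two_smul F, smul_eq_zero] at h4
  rcases h4 with h4 | rfl
  · exact C.h2 h4
  · exact h3 (QuadraticMap.map_zero _)

theorem le_of_class {a : V} (ha : Rt K a) {H : Subgroup (O Q)}
    (h : ∀ g ∈ K, tv Q (g.1 a) ∈ H) : K ≤ H := by
  have := C.simple
  have h1 : Subgroup.normalClosure {(⟨tv Q a, ha.2⟩ : K)} = ⊤ := by
    refine (IsSimpleGroup.eq_bot_or_eq_top_of_normal _ inferInstance).resolve_left fun h0 => ?_
    have h3 := Subgroup.subset_normalClosure (s := {(⟨tv Q a, ha.2⟩ : K)}) rfl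
    rw [h0] at h3
    exact C.tv_ne_one ha.1 (congrArg Subtype.val (Subgroup.mem_bot.1 h3))
  have h3 : Subgroup.normalClosure {(⟨tv Q a, ha.2⟩ : K)} ≤ H.comap K.subtype := by
    refine (Subgroup.closure_le _).2 fun x hx => ?_
    obtain ⟨_, rfl, hc⟩ := Group.mem_conjugatesOfSet_iff.1 hx
    obtain ⟨g, rfl⟩ := isConj_iff.1 hc
    have := h g g.2
    rwa [← conj_tv] at this
  intro g hg
  exact h3 (h1 ▸ Subgroup.mem_top (⟨g, hg⟩ : K))

theorem le_of_roots {H : Subgroup (O Q)} (h : ∀ v, Rt K v → tv Q v ∈ H) : K ≤ H := by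
  obtain ⟨a, ha⟩ := C.ex
  exact C.le_of_class ha fun g hg => h _ (Rt.apply ha hg)

theorem dick_eq_one {g : O Q} (hg : g ∈ K) : dick g = 1 :=
  C.le_of_roots (H := (dickHom C.hQ (not_exc_of_two_ne_zero C.h2)).ker)
    (fun _ hv => C.dick_tv (hv.1 ▸ one_ne_zero)) hg

theorem not_le_stab {U : Submodule F V} (h0 : U ≠ ⊥) (h1 : U ≠ ⊤) : ¬ K ≤ stab Q U := fun h =>
  (C.hirr U fun _ hg v hv => (h hg v).1 hv).elim h0 h1

theorem exists_root {U : Submodule F V} (h0 : U ≠ ⊥) (h1 : U ≠ ⊤) :
    ∃ z, Rt K z ∧ z ∉ U ∧ z ∉ orth Q U := by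
  by_contra h
  push Not at h
  exact C.not_le_stab h0 h1 (C.le_of_roots fun v hv => tv_mem_stab (or_iff_not_imp_left.2 (h v hv)))

theorem ne_top {U : Submodule F V} (h : finrank F U < 5) : U ≠ ⊤ := by
  rintro rfl
  rw [finrank_top, C.h5] at h
  exact lt_irrefl _ h

theorem false_of_class {f : V} (hf : Rt K f)
    (h : ∀ g ∈ K, Par f (g.1 f) ∨ polar Q f (g.1 f) = 0) : False := by
  refine C.not_le_stab (U := Submodule.span F {f})
    (by rw [Ne, Submodule.span_singleton_eq_bot]; exact ne_zero_one hf.1)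
    (C.ne_top ((finrank_span_singleton_le f).trans_lt (by decide)))
    (C.le_of_class hf fun g hg => tv_mem_stab ?_)
  rcases h g hg with h1 | h1
  · exact Or.inl (h1.mem (Submodule.mem_span_singleton_self f))
  · exact Or.inr (mem_orth_singleton.2 h1)

theorem three_eq_zero {v w : V} (hv : Rt K v) (hw : Rt K w) (hp : ¬ Par v w)
    (h : polar Q v w ^ 2 = 4) : (3 : F) = 0 := by
  have key : ∀ w, Rt K w → w ≠ v → polar Q v w = 2 → (3 : F) = 0 := fun w hw hne h => by
    have h1 : eich Q (v - w) v ∈ K := eich_sub_eq hv.1 hw.1 h ▸ hv.mul_mem hw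
    refine (C.H1 _ _ _ h1 (fun h3 => ?_) h1).1
    rw [eich_sub_eq hv.1 hw.1 h, mul_eq_one_iff_eq_inv, refl_inv] at h3
    rcases par_of_refl_eq C.h2 hv.1 hw.1 h3 with h4 | h4
    · exact hne h4
    · rw [h4, polar_neg_right, polar_one hv.1] at h
      exact mul_ne_zero C.h2 C.h2 (by linear_combination -h)
  have h3 : (polar Q v w - 2) * (polar Q v w + 2) = 0 := by linear_combination h
  rcases mul_eq_zero.1 h3 with h4 | h4
  · exact key w hw (fun e => hp (Or.inl e)) (by linear_combination h4)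
  · exact key (-w) hw.neg (fun e => hp (Or.inr (by rw [← e, neg_neg])))
      (by rw [polar_neg_right]; linear_combination -h4)

theorem five_ne_zero {v w : V} (hv : Rt K v) (hw : Rt K w) (hp : ¬ Par v w)
    (h : Gold (polar Q v w)) : (5 : F) ≠ 0 := fun h5 => by
  have h1 : (polar Q v w ^ 2 - 4) ^ 2 = 0 := by
    unfold Gold at h
    linear_combination h - (polar Q v w ^ 2 - 3) * h5
  have h3 := C.three_eq_zero hv hw hp (by linear_combination pow_eq_zero_iff (two_ne_zero) |>.1 h1)
  exact C.h2 (by linear_combination h5 - h3)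

end RC

end Cfsg.Lib.Class.Sp4O.R
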