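import Cfsg.Agent.Class.Sp4O.R1

/-!
Connected triples of roots span nondegenerate subspaces.
-/

set_option autoImplicit false

namespace Cfsg.Lib.Class.Sp4O.R

open QuadraticMap Module Orth

variable {F V : Type*} [Field F] [AddCommGroup V] [Module F V] {Q : QuadraticForm F V}

theorem not_par_of_sq {a b : V} (ha : Q a = 1) (h : polar Q a b ^ 2 ≠ 4) : ¬ Par a b := by
  rintro (rfl | rfl)
  · exact h (by rw [polar_one ha]; norm_num)
  · exact h (by rw [polar_neg_right, polar_one ha]; norm_num)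

theorem plane_nd {a b : V} (ha : Q a = 1) (hb : Q b = 1) (h : polar Q a b ^ 2 ≠ 4) {α β : F}
    (h1 : polar Q (α • a + β • b) a = 0) (h3 : polar Q (α • a + β • b) b = 0) :
    α = 0 ∧ β = 0 := by
  simp only [polar_add_left, polar_smul_left', polar_one ha, polar_one hb, polar_comm Q b a]
    at h1 h3
  have h4 : polar Q a b ^ 2 - 4 ≠ 0 := sub_ne_zero.2 h
  exact ⟨(mul_eq_zero.1 (by linear_combination polar Q a b * h3 - 2 * h1)).resolve_left h4,
    (mul_eq_zero.1 (by linear_combination polar Q a b * h1 - 2 * h3)).resolve_left h4⟩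

theorem linInd_pair {a b : V} (ha : Q a = 1) (hb : Q b = 1) (h : ¬ Par a b) :
    LinearIndependent F ![a, b] := LinearIndependent.pair_iff.2 fun _ _ e => indep ha hb h e

variable [FiniteDimensional F V]

theorem three_refl_sq (hQ : (polarBilin Q).Nondegenerate) {a b c : V}
    (ha : Q a = 1) (hb : Q b = 1) (h : polar Q a b ^ 2 ≠ 4) (hc : Q c ≠ 0)
    (hm : c ∈ Submodule.span F {a, b}) :
    refl Q c * refl Q a * refl Q b * (refl Q c * refl Q a * refl Q b) = 1 := by
  have ma : a ∈ Submodule.span F {a, b} := Submodule.subset_span (by simp)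
  have mb : b ∈ Submodule.span F {a, b} := Submodule.subset_span (by simp)
  have hP : Disjoint (Submodule.span F {a, b}) (orth Q (Submodule.span F {a, b})) := by
    refine Submodule.disjoint_def.2 fun x hx hx' => ?_
    obtain ⟨α, β, rfl⟩ := Submodule.mem_span_pair.1 hx
    obtain ⟨rfl, rfl⟩ := plane_nd ha hb h (mem_orth'.1 hx' a ma) (mem_orth'.1 hx' b mb)
    simp
  have hn := restrict_nondeg_iff.2 hP
  have h1 := mul_self_eq_one_of_dick hn
    (finrank_span_pair (linInd_pair ha hb (not_par_of_sq ha h)))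
    (g := refl _ ⟨c, hm⟩ * refl _ ⟨a, ma⟩ * refl _ ⟨b, mb⟩) (by
      rw [dick_mul_refl hn _ (by rw [restrict_apply', hb]; exact one_ne_zero),
        dick_mul_refl hn _ (by rw [restrict_apply', ha]; exact one_ne_zero), dick_refl hn hc]
      decide)
  have h3 := congrArg (extend hQ hP) h1
  simpa only [map_mul, map_one, extend_refl] using h3

variable {K : Subgroup (O Q)}

namespace RC

variable (C : RC Q K)
include C

theorem nd1 {a b e : V} (ha : Rt K a) (hb : Rt K b) (h0 : polar Q a b ≠ 0)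
    (h : polar Q a b ^ 2 ≠ 4) {α β : F} (hc : Rt K (α • a + β • b + e)) (he : Q e = 0)
    (hea : polar Q e a = 0) (heb : polar Q e b = 0) : e = 0 := by
  by_contra he0
  have hP : ∀ γ δ : F, polar Q e (γ • a + δ • b) = 0 := fun γ δ => by
    rw [polar_add_right, polar_smul_right', polar_smul_right', hea, heb]; ring
  have hP' : ∀ {γ δ t : F}, γ • a + δ • b = t • e → γ = 0 ∧ δ = 0 := fun h1 =>
    plane_nd ha.1 hb.1 h (by rw [h1, polar_smul_left', hea, mul_zero])
      (by rw [h1, polar_smul_left', heb, mul_zero])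
  set p := polar Q a b with hp
  have hc' : Q (α • a + β • b) = 1 := by
    have := hc.1
    rwa [Q_add, he, polar_comm, hP, add_zero, add_zero] at this
  set c := α • a + β • b with hcdef
  have h1 : refl Q (c + e) = eich Q e c * refl Q c := by
    have h3 := eich_eq_refl_mul_refl he (w := c + e)
      (by rw [polar_add_right, hP, polar_self', he]; ring) (by rw [hc.1]; exact one_ne_zero)
    rw [hc.1, one_smul, add_sub_cancel_right, ← one_smul F e, eich_smul_left he
      (by rw [polar_add_right, hP, polar_smul_right', polar_self', he]; ring), one_smul,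
      eich_add_smul_self he (hP _ _), one_smul] at h3
    rw [h3, mul_assoc, refl_mul_self, mul_one]
  have h3 := three_refl_sq C.hQ ha.1 hb.1 h (c := c) (by rw [hc']; exact one_ne_zero)
    (Submodule.mem_span_pair.2 ⟨α, β, rfl⟩)
  set g := refl Q c * refl Q a * refl Q b with hg
  have hy : ∀ γ δ : F, (refl Q b * refl Q a).1 (γ • a + δ • b) =
      (-γ - p * δ) • a + (p * γ + (p ^ 2 - 1) * δ) • b := fun γ δ => by
    simp only [O_mul_apply, refl1 ha.1, refl1 hb.1, polar_sub_left, polar_add_left,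
      polar_smul_left', polar_one ha.1, polar_one hb.1, polar_comm Q b a, ← hp]
    module
  have hye : (refl Q b * refl Q a).1 e = e := by
    rw [O_mul_apply, refl_apply_of_orth hea, refl_apply_of_orth heb]
  have hge : g.1 e = e := by
    rw [hg, O_mul_apply, O_mul_apply, refl_apply_of_orth heb, refl_apply_of_orth hea,
      refl_apply_of_orth (hP _ _)]
  have hgc : g.1 c = -(refl Q b * refl Q a).1 c := by
    rw [eq_inv_of_mul_eq_one_left h3, hg]
    simp only [mul_inv_rev, refl_inv, O_mul_apply]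
    rw [refl_apply_self (by rw [hc']; exact one_ne_zero), map_neg, map_neg]
  have h4 : eich Q e ((2 * α + p * β) • a + (-(p * α) + (2 - p ^ 2) * β) • b) ∈ K := by
    have h5 : (refl Q (c + e) * refl Q a) * (refl Q b * refl Q (c + e)) * (refl Q a * refl Q b) =
        eich Q e c * (g * eich Q e c * g⁻¹) := by
      rw [← eq_inv_of_mul_eq_one_left h3, h1, hg]; simp only [mul_assoc]
    have h6 := K.mul_mem (K.mul_mem (hc.mul_mem ha) (hb.mul_mem hc)) (ha.mul_mem hb)
    rw [h5, conj_eich, hge, hgc, hy, ← eich_add he (hP _ _)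
      (by rw [polar_neg_right, hP, neg_zero])] at h6
    convert h6 using 2
    module
  generalize hγ : 2 * α + p * β = γ at h4
  generalize hδ : -(p * α) + (2 - p ^ 2) * β = δ at h4
  have h4' : p ^ 2 - 4 ≠ 0 := sub_ne_zero.2 h
  have hw : ¬ (γ = 0 ∧ δ = 0) := by
    rintro ⟨rfl, rfl⟩
    have hβ : β = 0 := (mul_eq_zero.1 (by linear_combination -p * hγ - 2 * hδ)).resolve_left h4'
    have hα : α = 0 := (mul_eq_zero.1 (by linear_combination hγ - p * hβ)).resolve_left C.h2
    rw [hcdef, hα, hβ, zero_smul, zero_smul, add_zero, QuadraticMap.map_zero] at hc'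
    exact zero_ne_one hc'
  have h5 := K.mul_mem (K.mul_mem (hb.mul_mem ha) h4) (K.inv_mem (hb.mul_mem ha))
  rw [conj_eich, hye, hy] at h5
  apply hw
  rcases (C.H1 _ _ _ h4 (fun h6 => by
    obtain ⟨t, ht⟩ := mem_span_of_eich_eq_one C.hQ he0 he (hP _ _) h6
    exact hw (hP' ht)) h5).2 with h6 | h6 | h6
  · obtain ⟨t, ht⟩ := mem_span_of_eich_eq_one C.hQ he0 he (hP _ _) h6
    obtain ⟨e1, e2⟩ := hP' ht
    have hδ0 : δ = 0 := by linear_combination -p * e1 - e2
    exact ⟨by linear_combination -e1 - p * hδ0, hδ0⟩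
  · obtain ⟨t, ht⟩ := mem_span_of_eich_eq C.hQ he0 he (hP _ _) (hP _ _) h6
    obtain ⟨e1, e2⟩ := hP' (γ := -2 * γ - p * δ) (δ := p * γ + (p ^ 2 - 2) * δ) (t := t)
      (by rw [← ht]; module)
    have hδ0 : δ = 0 := (mul_eq_zero.1 (by linear_combination p * e1 + 2 * e2)).resolve_left h4'
    exact ⟨(mul_eq_zero.1 (by linear_combination -e1 - p * hδ0)).resolve_left C.h2, hδ0⟩
  · rw [← eich_neg] at h6
    obtain ⟨t, ht⟩ := mem_span_of_eich_eq C.hQ he0 he
      (by rw [polar_neg_right, hP, neg_zero]) (hP _ _) h6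
    obtain ⟨e1, e2⟩ := hP' (γ := -(p * δ)) (δ := p * γ + p ^ 2 * δ) (t := t)
      (by rw [← ht]; module)
    have hδ0 : δ = 0 := (mul_eq_zero.1 (neg_eq_zero.1 e1)).resolve_left h0
    exact ⟨(mul_eq_zero.1 (by linear_combination e2 - p ^ 2 * hδ0)).resolve_left h0, hδ0⟩

theorem nd2 {a b c : V} (ha : Rt K a) (hb : Rt K b) (hc : Rt K c) (h1 : polar Q b a = 2)
    (h3 : polar Q b c = 2) (h4 : polar Q a c = 2) (hab : b ≠ a) :
    ∃ t : F, b - c = t • (b - a) := by
  have he : Q (b - a) = 0 := by rw [Q_sub, ha.1, hb.1, h1]; ring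
  have hf : Q (b - c) = 0 := by rw [Q_sub, hc.1, hb.1, h3]; ring
  have heb : polar Q (b - a) b = 0 := by
    rw [polar_sub_left, polar_one hb.1, polar_comm, h1, sub_self]
  have hfb : polar Q (b - c) b = 0 := by
    rw [polar_sub_left, polar_one hb.1, polar_comm, h3, sub_self]
  have hef : polar Q (b - a) (b - c) = 0 := by
    rw [polar_sub_right, heb, polar_sub_left, h3, h4]; ring
  have hef2 : polar Q (b - a) ((2 : F) • (b - c)) = 0 := by rw [polar_smul_right', hef, mul_zero]
  have m1 : eich Q (b - a) b ∈ K := eich_sub_eq hb.1 ha.1 h1 ▸ hb.mul_mem ha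
  have m2 : eich Q (b - c) b ∈ K := eich_sub_eq hb.1 hc.1 h3 ▸ hb.mul_mem hc
  have m3 := K.mul_mem (K.inv_mem m1) (K.mul_mem (K.mul_mem m2 m1) (K.inv_mem m2))
  rw [conj_eich, eich_apply_of_orth_orth hef heb,
    eich_apply_of_orth hf hfb (by rw [polar_comm, hfb]), polar_one hb.1, eich_add he heb hef2,
    inv_mul_cancel_left] at m3
  obtain ⟨t, ht⟩ := mem_span_of_eich_eq_one C.hQ (sub_ne_zero.2 hab) he hef2
    (C.H0 _ _ (by rw [Q_smul, hf, mul_zero]) m3)
  refine ⟨2⁻¹ * t, ?_⟩
  rw [mul_smul, ← ht, smul_smul, inv_mul_cancel₀ C.h2, one_smul]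

theorem ndA {a b c : V} (ha : Rt K a) (hb : Rt K b) (hc : Rt K c) (h0 : polar Q a b ≠ 0)
    (h : polar Q a b ^ 2 ≠ 4) {α β γ : F} {n : V} (hn : n = α • a + β • b + γ • c)
    (h1 : polar Q n a = 0) (h3 : polar Q n b = 0) (h4 : polar Q n c = 0) : n = 0 := by
  by_cases hγ : γ = 0
  · rw [hγ, zero_smul, add_zero] at hn
    obtain ⟨rfl, rfl⟩ := plane_nd ha.1 hb.1 h (hn ▸ h1) (hn ▸ h3)
    rw [hn]; simp
  have h5 : Q n = 0 := by
    have : polar Q n n = 0 := by
      conv_lhs => enter [3]; rw [hn]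
      simp only [polar_add_right, polar_smul_right', h1, h3, h4]; ring
    rw [polar_self'] at this
    exact (mul_eq_zero.1 this).resolve_left C.h2
  have h6 := C.nd1 ha hb h0 h (α := -(γ⁻¹ * α)) (β := -(γ⁻¹ * β)) (e := γ⁻¹ • n) (by
    convert hc using 1
    rw [hn]
    match_scalars <;> field_simp <;> ring) (by rw [Q_smul, h5, mul_zero])
    (by rw [polar_smul_left', h1, mul_zero]) (by rw [polar_smul_left', h3, mul_zero])
  exact (smul_eq_zero.1 h6).resolve_left (inv_ne_zero hγ)

theorem nd {a b c : V} (ha : Rt K a) (hb : Rt K b) (hc : Rt K c)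
    (hi : ∀ α β γ : F, α • a + β • b + γ • c = 0 → α = 0 ∧ β = 0 ∧ γ = 0)
    (hp : polar Q a b ≠ 0) (hq : polar Q b c ≠ 0) {α β γ : F} {n : V}
    (hn : n = α • a + β • b + γ • c) (h1 : polar Q n a = 0) (h3 : polar Q n b = 0)
    (h4 : polar Q n c = 0) : n = 0 := by
  by_cases e1 : polar Q a b ^ 2 ≠ 4
  · exact C.ndA ha hb hc hp e1 hn h1 h3 h4
  by_cases e2 : polar Q b c ^ 2 ≠ 4
  · exact C.ndA hb hc ha hq e2 (α := β) (β := γ) (γ := α) (by rw [hn]; abel) h3 h4 h1
  push Not at e1 e2
  have h2 := C.h2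
  by_cases e3 : polar Q a b * polar Q b c * polar Q a c = 8
  · exfalso
    have f1 : (polar Q a b / 2) ^ 2 = 1 := by field_simp; linear_combination e1
    have f2 : (polar Q b c / 2) ^ 2 = 1 := by field_simp; linear_combination e2
    have g1 : polar Q a b / 2 ≠ 0 := div_ne_zero hp h2
    obtain ⟨t, ht⟩ := C.nd2 (ha.smul f1) hb (hc.smul f2)
      (by rw [polar_smul_right', polar_comm Q b a]; field_simp; linear_combination e1)
      (by rw [polar_smul_right']; field_simp; linear_combination e2)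
      (by rw [polar_smul_right', polar_smul_left']; field_simp; linear_combination e3)
      (fun h => one_ne_zero (hi (-(polar Q a b / 2)) 1 0 (by
        linear_combination (norm := module) h)).2.1)
    exact div_ne_zero hq h2 (hi (-(t * (polar Q a b / 2))) (t - 1) (polar Q b c / 2) (by
      linear_combination (norm := module) -ht)).2.2
  rw [hn] at h1 h3 h4 ⊢
  simp only [polar_add_left, polar_smul_left', polar_one ha.1, polar_one hb.1, polar_one hc.1,
    polar_comm Q b a, polar_comm Q c a, polar_comm Q c b] at h1 h3 h4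
  have e4 : polar Q a b * polar Q b c * polar Q a c - 8 ≠ 0 := sub_ne_zero.2 e3
  have hγ : γ = 0 := (mul_eq_zero.1 (by
    linear_combination polar Q b c * polar Q a b * h1 - 2 * polar Q b c * h3 -
      polar Q b c * β * e1 + 2 * γ * e2)).resolve_left e4
  have hα : α = 0 := (mul_eq_zero.1 (by
    linear_combination polar Q b c * polar Q a b * h4 - 2 * polar Q a b * h3 -
      polar Q a b * β * e2 + 2 * α * e1)).resolve_left e4
  have hβ : β = 0 := (mul_eq_zero.1 (by
    linear_combination h3 - polar Q a b * hα - polar Q b c * hγ)).resolve_left h2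
  rw [hα, hβ, hγ]; simp

end RC

end Cfsg.Lib.Class.Sp4O.R
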