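import Cfsg.Agent.Class.Sp4O.R2
import Cfsg.Agent.S0823

/-!
The action on a nondegenerate three-dimensional subspace, through Dickson's theorem.
-/

set_option autoImplicit false

namespace Cfsg.Lib.Class.Sp4O.R

open QuadraticMap Module Orth OMax Matrix Equiv
open scoped MatrixGroups

/-- Membership in `A₅` or in `S₄`. -/
def Ok : Bool → Perm (Fin 5) → Prop
  | true, g => Perm.sign g = 1
  | false, g => g 4 = 4

instance (β : Bool) (g : Perm (Fin 5)) : Decidable (Ok β g) := by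
  cases β <;> unfold Ok <;> infer_instance

/-- Groups which embed into `A₅` or into `S₄`. -/
def Emb (G : Type*) [Group G] : Prop :=
  ∃ (β : Bool) (χ : G →* Perm (Fin 5)), Function.Injective χ ∧ ∀ g, Ok β (χ g)

theorem Emb.of_injective {G H : Type*} [Group G] [Group H] (h : Emb H) (f : G →* H)
    (hf : Function.Injective f) : Emb G := by
  obtain ⟨β, χ, h1, h2⟩ := h
  exact ⟨β, χ.comp f, h1.comp hf, fun g => h2 _⟩

theorem Emb.of_equiv {G H : Type*} [Group G] [Group H] (h : Emb H) (e : Nonempty (G ≃* H)) :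
    Emb G := e.elim fun e => h.of_injective e.toMonoidHom e.injective

theorem emb_S4 : Emb (Perm (Fin 4)) :=
  ⟨false, Perm.viaEmbeddingHom Fin.castSuccEmb, Perm.viaEmbeddingHom_injective _, fun g =>
    Perm.viaEmbedding_apply_of_notMem _ _ _ (by decide)⟩

theorem emb_A5 : Emb (alternatingGroup (Fin 5)) :=
  ⟨true, Subgroup.subtype _, Subtype.val_injective, fun g => g.2⟩

theorem emb_A4 : Emb (alternatingGroup (Fin 4)) :=
  emb_S4.of_injective (Subgroup.subtype _) Subtype.val_injective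

theorem exists_ne_of_card {F : Type*} [Field F] [Finite F] (F₀ : Subfield F)
    (h : 3 < Nat.card F₀) : ∃ b ∈ F₀, b ≠ 0 ∧ b ≠ 1 ∧ b ≠ -1 := by
  by_contra hc
  push Not at hc
  have h1 : (F₀ : Set F) ⊆ {0, 1, -1} := fun b hb => by
    by_cases h0 : b = 0
    · simp [h0]
    by_cases h1 : b = 1
    · simp [h1]
    simp [hc b hb h0 h1]
  have h2 := Set.ncard_le_ncard h1
  have h3 : ({0, 1, -1} : Set F).ncard ≤ 3 := (Set.ncard_insert_le _ _).trans
    (Nat.succ_le_succ ((Set.ncard_insert_le _ _).trans (by rw [Set.ncard_singleton])))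
  have h4 : Nat.card F₀ = (F₀ : Set F).ncard := rfl
  omega

theorem pgl_cases {F : Type*} [Field F] [Finite F] (p : ℕ) [Fact p.Prime] [CharP F p]
    (h2 : (2 : F) ≠ 0) (H : Subgroup PGL(2, F)) :
    (∃ t ∈ H, t ≠ 1 ∧ ∀ h ∈ H, (t ^ p = 1 ∧ h * t * h⁻¹ * t = t * (h * t * h⁻¹)) ∨
      h * t * h⁻¹ = t ∨ h * t * h⁻¹ = t⁻¹) ∨ Emb H ∨
    ∃ u ∈ H, ∃ u' ∈ H, (u * u) ^ p = 1 ∧ (u' * u') ^ p = 1 ∧
      u' * u' * (u * u) = u * u * (u' * u') ∧ u * u ≠ 1 ∧ u' * u' ≠ 1 ∧ u' * u' ≠ u * u ∧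
      u' * u' ≠ (u * u)⁻¹ := by
  rcases dickson_pgl' p H with ⟨x, hx⟩ | ⟨x, y, hxy, ⟨t, ht, ht1, ht2⟩, hH⟩ | ⟨-, h | h | h⟩ |
    ⟨-, h⟩ | ⟨F₀, c, h3, h⟩
  · by_cases h1 : ∃ h ∈ H, h ≠ 1 ∧ h ^ p = 1
    · obtain ⟨t, ht, ht1, htp⟩ := h1
      refine Or.inl ⟨t, ht, ht1, fun h hh => Or.inl ⟨htp, commute_of_mem_unip p (x := x)
        ⟨hx (H.mul_mem (H.mul_mem hh ht) (H.inv_mem hh)), ?_⟩ ⟨hx ht, htp⟩⟩⟩
      rw [conj_pow, htp]; simp
    by_cases h2 : ∃ t ∈ H, t ≠ 1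
    · obtain ⟨t, ht, ht1⟩ := h2
      refine Or.inl ⟨t, ht, ht1, fun h hh => Or.inr (Or.inl ?_)⟩
      by_contra hc
      exact h1 ⟨h * t * h⁻¹ * t⁻¹, H.mul_mem (H.mul_mem (H.mul_mem hh ht) (H.inv_mem hh))
        (H.inv_mem ht), fun h3 => hc (mul_inv_eq_one.1 h3),
        (commutator_mem_unip p (hx hh) (hx ht)).2⟩
    · push Not at h2
      exact Or.inr (Or.inl ⟨false, 1, fun a b _ => Subtype.ext ((h2 _ a.2).trans (h2 _ b.2).symm),
        fun _ => rfl⟩)
  · exact Or.inl ⟨t, ht, ht2, fun h hh => Or.inr (conj_eq_or_inv hxy.ne (hH hh) ht1)⟩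
  · exact Or.inr (Or.inl (emb_A4.of_equiv h))
  · exact Or.inr (Or.inl (emb_S4.of_equiv h))
  · exact Or.inr (Or.inl (emb_A5.of_equiv h))
  · exact Or.inr (Or.inl (emb_A5.of_equiv h))
  right
  rcases h3.eq_or_lt with h3 | h3
  · left
    have := Fintype.ofFinite F₀
    have e1 := (emb_S4.of_equiv (Cfsg.Agent.S0823.nonempty_pgl_equiv (F := F₀)
      (by rw [← Nat.card_eq_fintype_card, h3]))).of_equiv ⟨(pglSubEquiv F₀).symm⟩
    have e2 := e1.of_equiv ⟨(conjEquiv (pglSub F₀) c).symm⟩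
    have hle : H ≤ (pglSub F₀).map (MulAut.conj c).toMonoidHom := by
      rcases h with rfl | rfl
      · exact le_rfl
      · exact Subgroup.map_mono (pslSub_le_pglSub F₀)
    exact e2.of_injective (Subgroup.inclusion hle) (Subgroup.inclusion_injective hle)
  · right
    obtain ⟨b, hb, b0, b1, b2⟩ := exists_ne_of_card F₀ h3
    have hm : ∀ b ∈ F₀, c * aff 1 b * c⁻¹ ∈ H := fun b hb => by
      rcases h with rfl | rfl
      · exact ⟨_, pslSub_le_pglSub F₀ (aff_one_mem_pslSub hb), rfl⟩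
      · exact ⟨_, aff_one_mem_pslSub hb, rfl⟩
    have hmul : ∀ s t : F, c * aff 1 s * c⁻¹ * (c * aff 1 t * c⁻¹) = c * aff 1 (s + t) * c⁻¹ :=
      fun s t => by rw [conj_mul, aff_mul, mul_one, Units.val_one, one_mul, add_comm]
    have hone : ∀ s : F, c * aff 1 s * c⁻¹ = 1 ↔ s = 0 := fun s => by
      rw [conj_eq_one_iff, aff_eq_one_iff]; simp
    have hp : ∀ s : F, (c * aff 1 s * c⁻¹) ^ p = 1 := fun s => by
      rw [conj_pow, (aff_pow_char_eq_one_iff p 1 s).2 rfl]; simp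
    refine ⟨_, hm 1 F₀.one_mem, _, hm b hb, ?_⟩
    simp only [hmul, hp, true_and]
    refine ⟨by rw [add_comm], ?_, ?_, fun h => ?_, fun h => ?_⟩
    · rw [Ne, hone]; exact fun h => h2 (by linear_combination h)
    · rw [Ne, hone]; exact fun h => mul_ne_zero h2 b0 (by linear_combination h)
    · have h4 := congrArg (· * (c * aff 1 (-(1 + 1)) * c⁻¹)) h
      simp only [hmul, add_neg_cancel, (hone 0).2 rfl, hone] at h4
      exact mul_ne_zero h2 (sub_ne_zero.2 b1) (by linear_combination h4)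
    · rw [eq_inv_iff_mul_eq_one, hmul, hone] at h
      exact mul_ne_zero h2 (sub_ne_zero.2 b2) (by linear_combination h)

variable {F V : Type*} [Field F] [AddCommGroup V] [Module F V] {Q : QuadraticForm F V}
  [FiniteDimensional F V]

theorem mem_span_of_fix (hn : finrank F V = 3) {t : O Q} (hd : dick t = 1) (h1 : t ≠ 1) {v x : V}
    (hv : v ≠ 0) (htv : t.1 v = v) (hx : t.1 x = x) : ∃ c : F, x = c • v := by
  obtain ⟨u, -, hu⟩ := exists_fixs_eq_span hn hd h1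
  obtain ⟨a, rfl⟩ := Submodule.mem_span_singleton.1 (hu ▸ mem_fixs.2 htv)
  obtain ⟨b, rfl⟩ := Submodule.mem_span_singleton.1 (hu ▸ mem_fixs.2 hx)
  have ha : a ≠ 0 := by rintro rfl; exact hv (zero_smul _ _)
  exact ⟨b * a⁻¹, by rw [smul_smul, mul_assoc, inv_mul_cancel₀ ha, mul_one]⟩

theorem fix_of_comm (p : ℕ) [Fact p.Prime] [CharP F p] (hn : finrank F V = 3) {t s : O Q}
    (hd : dick t = 1) (h1 : t ≠ 1) {v : V} (hv : v ≠ 0) (htv : t.1 v = v) (hc : s * t = t * s)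
    (hs : s ^ p = 1) : s.1 v = v := by
  obtain ⟨c, hc⟩ := mem_span_of_fix hn hd h1 hv htv (x := s.1 v)
    (by rw [← O_mul_apply, ← hc, O_mul_apply, htv])
  have h3 : ∀ n : ℕ, (s ^ n).1 v = c ^ n • v := fun n => by
    induction n with
    | zero => simp
    | succ n ih => rw [pow_succ', O_mul_apply, ih, map_smul, hc, smul_smul, pow_succ]
  have h4 := h3 p
  rw [hs, O_one_apply] at h4
  have h5 : c ^ p = 1 := by
    have : (c ^ p - 1) • v = 0 := by rw [sub_smul, ← h4, one_smul, sub_self]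
    exact sub_eq_zero.1 ((smul_eq_zero.1 this).resolve_right hv)
  have h6 : (c - 1) ^ p = 0 := by rw [sub_pow_char, h5, one_pow, sub_self]
  rw [hc, sub_eq_zero.1 (pow_eq_zero_iff (Fact.out : p.Prime).ne_zero |>.1 h6), one_smul]

/-- The elements of `K` which are `±1` on the orthogonal complement of `U`. -/
def MU (K : Subgroup (O Q)) (U : Submodule F V) : Subgroup (O Q) where
  carrier := {g | g ∈ K ∧ ((∀ x ∈ orth Q U, g.1 x = x) ∨ ∀ x ∈ orth Q U, g.1 x = -x)}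
  one_mem' := ⟨K.one_mem, Or.inl fun _ _ => rfl⟩
  mul_mem' := by
    rintro a b ⟨ha, h1 | h1⟩ ⟨hb, h2 | h2⟩
    · exact ⟨K.mul_mem ha hb, Or.inl fun x hx => by rw [O_mul_apply, h2 x hx, h1 x hx]⟩
    · exact ⟨K.mul_mem ha hb, Or.inr fun x hx => by rw [O_mul_apply, h2 x hx, map_neg, h1 x hx]⟩
    · exact ⟨K.mul_mem ha hb, Or.inr fun x hx => by rw [O_mul_apply, h2 x hx, h1 x hx]⟩
    · exact ⟨K.mul_mem ha hb, Or.inl fun x hx => by
        rw [O_mul_apply, h2 x hx, map_neg, h1 x hx, neg_neg]⟩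
  inv_mem' := by
    rintro a ⟨ha, h1 | h1⟩
    · exact ⟨K.inv_mem ha, Or.inl fun x hx => O_inv_apply_of_eq (h1 x hx)⟩
    · exact ⟨K.inv_mem ha, Or.inr fun x hx => O_inv_apply_of_eq (by
        rw [map_neg, h1 x hx, neg_neg])⟩

variable {K : Subgroup (O Q)} {U : Submodule F V}

omit [FiniteDimensional F V] in
theorem Rt.mem_MU {v : V} (hv : Rt K v) (hU : v ∈ U) : tv Q v ∈ MU K U :=
  ⟨hv.2, Or.inr fun _ hx => tv_apply_of_orth (mem_orth'.1 hx v hU)⟩

theorem MU_le_stab_orth : MU K U ≤ stab Q (orth Q U) := fun g hg =>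
  mem_stab_of_forall_mem fun x hx => by
    rcases hg.2 with h | h
    · rwa [h x hx]
    · rw [h x hx]; exact Submodule.neg_mem _ hx

theorem MU_le_stab (hQ : (polarBilin Q).Nondegenerate) : MU K U ≤ stab Q U := fun g hg => by
  have := mem_stab_orth (MU_le_stab_orth hg)
  rwa [orth_orth hQ] at this

/-- Restriction to `U`. -/
def res (hQ : (polarBilin Q).Nondegenerate) : MU K U →* O (Q.restrict U) :=
  (stabRestrict Q U).comp (Subgroup.inclusion (MU_le_stab hQ))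

theorem res_apply (hQ : (polarBilin Q).Nondegenerate) (m : MU K U) (x : U) :
    ((res hQ m).1 x : V) = m.1.1 x := rfl

theorem extend_res (hQ : (polarBilin Q).Nondegenerate) (hU : Disjoint U (orth Q U)) (m : MU K U) :
    extend hQ hU (res hQ (m * m)) = (m * m : MU K U) :=
  O_ext_of_isCompl (isCompl_orth hQ hU) (fun a ha => extend_apply_left hQ hU _ ⟨a, ha⟩)
    fun b hb => by
      rw [extend_apply_right hQ hU _ hb, Subgroup.coe_mul, O_mul_apply]
      rcases m.2.2 with h | h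
      · rw [h b hb, h b hb]
      · rw [h b hb, map_neg, h b hb, neg_neg]

namespace RC

variable (C : RC Q K)
include C

theorem dick_res (hU : Disjoint U (orth Q U)) (h3 : finrank F U = 3) (m : MU K U) :
    dick (res C.hQ m) = 1 := by
  have h1 := detO_glue (isCompl_orth C.hQ hU) (orth_ho U)
    (stabRestrict Q U ⟨m, MU_le_stab C.hQ m.2⟩,
      stabRestrict Q (orth Q U) ⟨m, MU_le_stab_orth m.2⟩)
  rw [glue_stabRestrict, (detO_eq_one_iff C.hQ C.h2 _).2 (C.dick_eq_one m.2.1)] at h1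
  have h4 : detO _ (stabRestrict Q (orth Q U) ⟨m, MU_le_stab_orth m.2⟩) = 1 := by
    rcases m.2.2 with h | h
    · rw [show stabRestrict Q (orth Q U) ⟨m, MU_le_stab_orth m.2⟩ = 1 from
        O_ext fun x => Subtype.ext (h x x.2), map_one]
    · rw [show stabRestrict Q (orth Q U) ⟨m, MU_le_stab_orth m.2⟩ = negO _ from
        O_ext fun x => Subtype.ext (h x x.2), detO_eq_one_iff (restrict_orth_nondeg C.hQ hU) C.h2,
        dick_negO C.h2]
      have h5 := finrank_orth C.hQ U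
      rw [h3, C.h5] at h5
      rw [show finrank F (orth Q U) = 2 by omega]; decide
  rw [h4, mul_one] at h1
  exact (detO_eq_one_iff (restrict_nondeg_iff.2 hU) C.h2 _).1 h1.symm

theorem exists_psi [Finite F] (hU : Disjoint U (orth Q U)) (h3 : finrank F U = 3)
    (hinv : ∀ n ∈ U, n ≠ 0 → ∃ m ∈ MU K U, ∀ c : F, m.1 n ≠ c • n) :
    ∃ (β : Bool) (ψ : MU K U →* Perm (Fin 5)), (∀ m, ψ m = 1 ↔ ∀ x ∈ U, m.1.1 x = x) ∧
      ∀ m, Ok β (ψ m) := by
  have hn := restrict_nondeg_iff.2 hU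
  obtain ⟨φ, hφ, hr⟩ := exists_so3_embed C.h2 hn h3
  obtain ⟨p, hp⟩ := CharP.exists F
  have := Fact.mk (CharP.char_is_prime F p)
  have hd := C.dick_res hU h3
  obtain ⟨θ, hθ⟩ : ∃ θ : MU K U →* PGL(2, F), ∀ m, φ (θ m) = res C.hQ m :=
    ⟨(MonoidHom.ofInjective hφ).symm.toMonoidHom.comp
      ((res C.hQ).codRestrict φ.range fun m => hr _ (hd m)), fun m =>
        congrArg Subtype.val ((MonoidHom.ofInjective hφ).apply_symm_apply _)⟩
  have hθ1 : ∀ m, θ m = 1 ↔ res C.hQ m = 1 := fun m => by rw [← hθ, map_eq_one_iff φ hφ]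
  have hθ2 : ∀ m m', θ m = θ m' ↔ res C.hQ m = res C.hQ m' := fun m m' => by
    rw [← hθ, ← hθ, hφ.eq_iff]
  rcases pgl_cases p C.h2 θ.range with ⟨_, ⟨t, rfl⟩, ht1, ht⟩ | ⟨β, χ, hχ, hok⟩ |
    ⟨_, ⟨u, rfl⟩, _, ⟨u', rfl⟩, a1, a2, a3, a4, a5, a6, a7⟩
  · exfalso
    rw [Ne, hθ1] at ht1
    obtain ⟨v, hv, hf⟩ := exists_fixs_eq_span h3 (hd t) ht1
    have htv : (res C.hQ t).1 v = v := mem_fixs.1 (hf ▸ Submodule.mem_span_singleton_self v)
    obtain ⟨m, hm, hmv⟩ := hinv v v.2 fun h => hv (Subtype.ext h)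
    have h4 : (res C.hQ ((⟨m, hm⟩ : MU K U)⁻¹ * t * (⟨m, hm⟩ : MU K U)⁻¹⁻¹)).1 v = v := by
      rcases ht _ ⟨(⟨m, hm⟩ : MU K U)⁻¹, rfl⟩ with ⟨h5, h6⟩ | h5 | h5
      · simp only [← map_inv, ← map_mul, ← map_pow, hθ1, hθ2] at h5 h6
        refine fix_of_comm p h3 (hd t) ht1 hv htv (by simpa only [map_mul] using h6) ?_
        rw [← map_pow, conj_pow, map_mul, map_mul, h5]; simp
      · simp only [← map_inv, ← map_mul, hθ2] at h5
        rw [h5, htv]
      · simp only [← map_inv, ← map_mul, hθ2] at h5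
        rw [h5, map_inv, O_inv_apply_of_eq htv]
    rw [inv_inv, map_mul, map_mul, map_inv, O_mul_apply, O_mul_apply] at h4
    obtain ⟨c, hc⟩ := mem_span_of_fix h3 (hd t) ht1 hv htv (x := (res C.hQ ⟨m, hm⟩).1 v) (by
      conv_rhs => rw [← h4, O_apply_inv])
    exact hmv c (congrArg Subtype.val hc)
  · refine ⟨β, χ.comp θ.rangeRestrict, fun m => ?_, fun m => hok _⟩
    rw [MonoidHom.comp_apply, map_eq_one_iff χ hχ, Subtype.ext_iff, MonoidHom.coe_rangeRestrict,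
      OneMemClass.coe_one, hθ1]
    exact ⟨fun h x hx => by rw [← res_apply C.hQ m ⟨x, hx⟩, h]; rfl,
      fun h => O_ext fun x => Subtype.ext (h x x.2)⟩
  · exfalso
    simp only [← map_inv, ← map_mul, ← map_pow, hθ1, hθ2, Ne] at a1 a2 a3 a4 a5 a6 a7
    rw [map_pow] at a1 a2
    rw [map_mul _ (u' * u'), map_mul _ (u * u)] at a3
    obtain ⟨ρ, w, b1, b2, b3, -, b5⟩ := exists_eich_of_pow_char p C.h2 hn h3 (hd _) a4 a1
    obtain ⟨ρ', w', -, c2, c3, -, c5⟩ := exists_eich_of_pow_char p C.h2 hn h3 (hd _) a5 a2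
    have h4 := fix_of_comm p h3 (hd _) a4 b1 (by rw [b5, eich_apply_self]) a3 a2
    obtain ⟨c, rfl⟩ := mem_span_of_fix h3 (hd _) a5 b1 h4 (x := ρ') (by rw [c5, eich_apply_self])
    have hc : c ≠ 0 := by rintro rfl; exact a5 (by rw [c5, zero_smul, eich_zero_left])
    rw [eich_smul_left b2 ((mul_eq_zero.1 (by rwa [polar_smul_left'] at c3)).resolve_left hc)] at c5
    have e1 := extend_res C.hQ hU u
    have e2 := extend_res C.hQ hU u'
    have hinj := extend_injective C.hQ hU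
    have h5 := (C.H1 ρ w (c • w' : U) (by rw [← extend_eich C.hQ hU, ← b5, e1]; exact (u * u).2.1)
      (by rwa [← extend_eich C.hQ hU, ← b5, Ne, map_eq_one_iff _ hinj])
      (by rw [← extend_eich C.hQ hU, ← c5, e2]; exact (u' * u').2.1)).2
    rw [← extend_eich C.hQ hU, ← extend_eich C.hQ hU, ← b5, ← c5, ← map_inv,
      map_eq_one_iff _ hinj, hinj.eq_iff, hinj.eq_iff, ← map_inv] at h5
    tauto

end RC

end Cfsg.Lib.Class.Sp4O.R
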