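import Cfsg.Agent.Class.Sp4O.R3

/-!
Finite computations in `A₅` and `S₄`.
-/

set_option autoImplicit false

namespace Cfsg.Lib.Class.Sp4O.R

open Equiv

/-- The elements of order at most two. -/
def invs : Bool → List (Perm (Fin 5))
  | true => [1, swap 1 2 * swap 3 4, swap 1 3 * swap 2 4, swap 1 4 * swap 2 3, swap 0 2 * swap 3 4,
      swap 0 3 * swap 2 4, swap 0 4 * swap 2 3, swap 0 1 * swap 3 4, swap 0 3 * swap 1 4,
      swap 0 4 * swap 1 3, swap 0 1 * swap 2 4, swap 0 2 * swap 1 4, swap 0 4 * swap 1 2,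
      swap 0 1 * swap 2 3, swap 0 2 * swap 1 3, swap 0 3 * swap 1 2]
  | false => [1, swap 0 1, swap 0 2, swap 0 3, swap 1 2, swap 1 3, swap 2 3, swap 0 1 * swap 2 3,
      swap 0 2 * swap 1 3, swap 0 3 * swap 1 2]

theorem mem_invs : ∀ β g, Ok β g → g * g = 1 → g ∈ invs β := by decide +kernel

theorem dec1 : ∀ β, ∀ a ∈ invs β, ∀ c ∈ invs β,
    (a * c) ^ 3 = 1 ∨ (a * c) ^ 4 = 1 ∨ (a * c) ^ 5 = 1 := by decide +kernel

set_option synthInstance.maxSize 4096 in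
set_option synthInstance.maxHeartbeats 200000 in
theorem dec2 : ∀ β, ∀ a ∈ invs β, ∀ h ∈ invs β, (a * h) ^ 4 = 1 → (a * h) ^ 2 ≠ 1 →
    ∀ x ∈ invs β, a = x ∨ h * a * h = x ∨ h = x ∨ a * h * a = x ∨
      ((x * a) ^ 4 = 1 ∧ (x * (h * a * h)) ^ 2 = 1) ∨
      ((x * a) ^ 2 = 1 ∧ (x * (h * a * h)) ^ 4 = 1) ∨
      ((x * a) ^ 3 = 1 ∧ (x * (h * a * h)) ^ 3 = 1) := by decide +kernel

theorem dec3 : ∀ β g, Ok β g → g ^ 4 = 1 → g * g ≠ 1 →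
    ∀ x ∈ invs β, (x * (g * (g * x * g⁻¹) * g⁻¹)) ^ 2 = 1 := by decide +kernel

set_option synthInstance.maxSize 4096 in
set_option synthInstance.maxHeartbeats 200000 in
theorem dec4 : ∀ β, ∀ a ∈ invs β, ∀ c ∈ invs β, (a * c) ^ 2 = 1 → a ≠ c →
    ∀ x ∈ invs β, (x * a) ^ 5 = 1 → (x * c) ^ 5 = 1 → x ≠ a → x ≠ c →
      (x * (a * (c * x * c) * a)) ^ 3 = 1 ∧ x ≠ a * (c * x * c) * a := by decide +kernel

end Cfsg.Lib.Class.Sp4O.R
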