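import Cfsg.Agent.Class.Sp4O.R4

/-!
Triples of roots.
-/

set_option autoImplicit false

namespace Cfsg.Lib.Class.Sp4O.R

open QuadraticMap Module Orth Equiv

variable {F V : Type*} [Field F] [AddCommGroup V] [Module F V] {Q : QuadraticForm F V}

/-- The roots in `U` as involutions of `A₅` or `S₄`. -/
structure Sig (K : Subgroup (O Q)) (U : Submodule F V) (β : Bool) (σ : V → Perm (Fin 5)) :
    Prop where
  mem : ∀ {v}, Rt K v → v ∈ U → σ v ∈ invs β
  inj : ∀ {v w}, Rt K v → v ∈ U → Rt K w → w ∈ U → (σ v = σ w ↔ Par v w)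
  cj : ∀ {v w}, Rt K v → v ∈ U → Rt K w → w ∈ U → σ ((refl Q v).1 w) = σ v * σ w * σ v
  pw : ∀ {v w}, Rt K v → v ∈ U → Rt K w → w ∈ U → ∀ n : ℕ,
    (σ v * σ w) ^ n = 1 ↔ (refl Q v * refl Q w) ^ n = 1
  el : ∀ g ∈ K, (∀ x ∈ orth Q U, g.1 x = x) → g ^ 4 = 1 → ∃ γ, Ok β γ ∧ γ ^ 4 = 1 ∧
    ∀ v, Rt K v → v ∈ U → g.1 v ∈ U ∧ σ (g.1 v) = γ * σ v * γ⁻¹

/-- Good subspaces. -/
def Gd (K : Subgroup (O Q)) (U : Submodule F V) : Prop := ∃ β σ, Sig K U β σ

theorem refl_mem {U : Submodule F V} {v w : V} (hv : v ∈ U) (hw : w ∈ U) : (refl Q v).1 w ∈ U := by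
  rw [Orth.refl_apply]; exact U.sub_mem hw (U.smul_mem _ hv)

theorem not_par_of_sq' {a b : V} (ha : Q a = 1) (h : polar Q a b ^ 2 = 2) (h2 : (2 : F) ≠ 0) :
    ¬ Par a b := not_par_of_sq ha fun e => h2 (by linear_combination h - e)

theorem not_par_of_orth {a b : V} (ha : Q a = 1) (h : polar Q a b = 0) (h2 : (2 : F) ≠ 0) :
    ¬ Par a b := not_par_of_sq ha fun e => mul_ne_zero h2 h2 (by
  rw [h] at e; linear_combination -e)

theorem linInd_triple {a b c : V}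
    (hi : ∀ α β γ : F, α • a + β • b + γ • c = 0 → α = 0 ∧ β = 0 ∧ γ = 0) :
    LinearIndependent F ![a, b, c] := by
  rw [Fintype.linearIndependent_iff]
  intro g hg i
  obtain ⟨h0, h1, h2⟩ := hi (g 0) (g 1) (g 2) (by simpa [Fin.sum_univ_three] using hg)
  fin_cases i <;> assumption

theorem finrank_span_triple {a b c : V}
    (hi : ∀ α β γ : F, α • a + β • b + γ • c = 0 → α = 0 ∧ β = 0 ∧ γ = 0) :
    finrank F (Submodule.span F {a, b, c}) = 3 := by
  have := finrank_span_eq_card (linInd_triple hi)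
  rwa [show Set.range ![a, b, c] = {a, b, c} by
    simp only [Matrix.range_cons, Matrix.range_empty, Set.union_empty, Set.singleton_union]] at this

variable [FiniteDimensional F V] [Finite F] {K : Subgroup (O Q)}

namespace RC

variable (C : RC Q K)
include C

theorem gd_of {U : Submodule F V} (hU : Disjoint U (orth Q U)) (h3 : finrank F U = 3)
    (hinv : ∀ n ∈ U, n ≠ 0 → ∃ m ∈ MU K U, ∀ c : F, m.1 n ≠ c • n) : Gd K U := by
  classical
  obtain ⟨β, ψ, h1, hok⟩ := C.exists_psi hU h3 hinv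
  have key : ∀ m : MU K U, (∀ x ∈ orth Q U, m.1.1 x = x) → (ψ m = 1 ↔ m.1 = 1) := fun m hm => by
    rw [h1]
    exact ⟨fun h => O_ext_of_isCompl (isCompl_orth C.hQ hU) h hm, fun h x _ => by rw [h]; rfl⟩
  let σ : V → Perm (Fin 5) := fun v => if h : tv Q v ∈ MU K U then ψ ⟨_, h⟩ else 1
  have hσ : ∀ {v} (hv : Rt K v) (hU : v ∈ U), σ v = ψ ⟨_, hv.mem_MU hU⟩ := fun hv hU =>
    dif_pos (hv.mem_MU hU)
  have hpw : ∀ {v w}, Rt K v → v ∈ U → Rt K w → w ∈ U → ∀ n : ℕ,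
      (σ v * σ w) ^ n = 1 ↔ (refl Q v * refl Q w) ^ n = 1 := fun {v w} hv hv' hw hw' n => by
    rw [hσ hv hv', hσ hw hw', ← map_mul, ← map_pow, key, ← tv_mul_tv]
    · rfl
    · have : refl Q v * refl Q w ∈ fixG Q (orth Q U) := fun x hx => by
        rw [O_mul_apply, refl_apply_of_orth (mem_orth'.1 hx w hw'),
          refl_apply_of_orth (mem_orth'.1 hx v hv')]
      rw [← tv_mul_tv] at this
      exact Subgroup.pow_mem _ this n
  have hsq : ∀ {v}, Rt K v → v ∈ U → σ v * σ v = 1 := fun hv hv' => by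
    have := (hpw hv hv' hv hv' 1).2 (by rw [pow_one, refl_mul_self])
    rwa [pow_one] at this
  refine ⟨β, σ, fun hv hv' => mem_invs _ _ (hσ hv hv' ▸ hok _) (hsq hv hv'),
    fun {v w} hv hv' hw hw' => ⟨fun h => ?_, fun h => ?_⟩, fun {v w} hv hv' hw hw' => ?_, hpw,
    fun g hg hg' h4 => ⟨ψ ⟨g, hg, Or.inl hg'⟩, hok _, ?_, fun v hv hv' => ?_⟩⟩
  · have h5 := (hpw hv hv' hw hw' 1).1 (by rw [pow_one, h, hsq hw hw'])
    rw [pow_one, mul_eq_one_iff_eq_inv, refl_inv] at h5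
    exact par_of_refl_eq C.h2 hv.1 hw.1 h5
  · rw [hσ hv hv', hσ hw hw']
    exact congrArg ψ (Subtype.ext h.tv_eq.symm)
  · rw [hσ (hv.rf hw) (refl_mem hv' hw'), hσ hv hv', hσ hw hw', ← map_mul, ← map_mul]
    exact congrArg ψ (Subtype.ext (tv_refl v w))
  · rw [← map_pow, ← map_one ψ]
    exact congrArg ψ (Subtype.ext h4)
  · have h5 : g.1 v ∈ U := (MU_le_stab C.hQ (K := K) ⟨hg, Or.inl hg'⟩ v).1 hv'
    refine ⟨h5, ?_⟩
    rw [hσ (hv.apply hg) h5, hσ hv hv', ← map_inv, ← map_mul, ← map_mul]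
    exact congrArg ψ (Subtype.ext (conj_tv g v).symm)

theorem gd_triple {a b c : V} (ha : Rt K a) (hb : Rt K b) (hc : Rt K c)
    (hi : ∀ α β γ : F, α • a + β • b + γ • c = 0 → α = 0 ∧ β = 0 ∧ γ = 0)
    (hp : polar Q a b ≠ 0) (hq : polar Q b c ≠ 0) : Gd K (Submodule.span F {a, b, c}) := by
  have ma : a ∈ Submodule.span F {a, b, c} := Submodule.subset_span (by simp)
  have mb : b ∈ Submodule.span F {a, b, c} := Submodule.subset_span (by simp)
  have mc : c ∈ Submodule.span F {a, b, c} := Submodule.subset_span (by simp)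
  have hnd : ∀ n ∈ Submodule.span F {a, b, c}, polar Q n a = 0 → polar Q n b = 0 →
      polar Q n c = 0 → n = 0 := fun n hn h1 h3 h4 => by
    obtain ⟨α, β, γ, h5⟩ := Submodule.mem_span_triple.1 hn
    exact C.nd ha hb hc hi hp hq h5.symm h1 h3 h4
  refine C.gd_of (Submodule.disjoint_def.2 fun n hn hn' => hnd n hn (mem_orth'.1 hn' a ma)
    (mem_orth'.1 hn' b mb) (mem_orth'.1 hn' c mc)) (finrank_span_triple hi) fun n hn h0 => ?_
  by_contra hcon
  push Not at hcon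
  have key : ∀ v, Rt K v → v ∈ Submodule.span F {a, b, c} → polar Q n v = 0 ∨ ∃ t : F, v = t • n :=
    fun v hv hv' => by
      obtain ⟨t, ht⟩ := hcon _ (hv.mem_MU hv')
      rw [tv_apply, refl1 hv.1] at ht
      refine or_iff_not_imp_left.2 fun h => ⟨(polar Q n v)⁻¹ * (t + 1), ?_⟩
      rw [mul_smul, show (t + 1) • n = polar Q n v • v by linear_combination (norm := module) -ht,
        smul_smul, inv_mul_cancel₀ h, one_smul]
  have hab : ∀ s t : F, a = s • n → b = t • n → False := fun s t h1 h3 => by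
    have := hi t (-s) 0 (by rw [h1, h3]; module)
    exact ne_zero_one hb.1 (by rw [h3, this.1, zero_smul])
  have hnb : polar Q n b = 0 := by
    refine (key b hb mb).resolve_right fun ⟨t, ht⟩ => ?_
    rcases key a ha ma with h | ⟨s, hs⟩
    · exact hp (by rw [ht, polar_smul_right', polar_comm, h, mul_zero])
    · exact hab s t hs ht
  refine h0 (hnd n hn ((key a ha ma).resolve_right fun ⟨t, ht⟩ => hp ?_) hnb
    ((key c hc mc).resolve_right fun ⟨t, ht⟩ => hq ?_))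
  · rw [ht, polar_smul_left', hnb, mul_zero]
  · rw [ht, polar_smul_right', polar_comm, hnb, mul_zero]

theorem exists_gd {a b x : V} (ha : Rt K a) (hb : Rt K b) (hx : Rt K x) (hab : ¬ Par a b)
    (hp : polar Q a b ≠ 0) (h : polar Q a x ≠ 0 ∨ polar Q b x ≠ 0) :
    ∃ U, Gd K U ∧ a ∈ U ∧ b ∈ U ∧ x ∈ U := by
  have key : ∀ z, Rt K z → z ∉ Submodule.span F {a, b} → polar Q a z ≠ 0 ∨ polar Q b z ≠ 0 →
      ∃ U, Gd K U ∧ a ∈ U ∧ b ∈ U ∧ z ∈ U := fun z hz hz' h => by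
    have hi : ∀ α β γ : F, α • a + β • b + γ • z = 0 → α = 0 ∧ β = 0 ∧ γ = 0 := fun α β γ e => by
      have hγ : γ = 0 := by
        by_contra hγ
        refine hz' (Submodule.mem_span_pair.2 ⟨-(γ⁻¹ * α), -(γ⁻¹ * β), ?_⟩)
        rw [← one_smul F z, ← inv_mul_cancel₀ hγ]
        linear_combination (norm := module) (-γ⁻¹) • e
      rw [hγ, zero_smul, add_zero] at e
      exact ⟨(indep ha.1 hb.1 hab e).1, (indep ha.1 hb.1 hab e).2, hγ⟩
    rcases h with h | h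
    · exact ⟨_, C.gd_triple hb ha hz (fun α β γ e => by
        have := hi β α γ (by rw [← e]; abel)
        tauto) (by rwa [polar_comm]) h, Submodule.subset_span (by simp),
        Submodule.subset_span (by simp), Submodule.subset_span (by simp)⟩
    · exact ⟨_, C.gd_triple ha hb hz hi hp h, Submodule.subset_span (by simp),
        Submodule.subset_span (by simp), Submodule.subset_span (by simp)⟩
  by_cases hx' : x ∈ Submodule.span F {a, b}
  · obtain ⟨z, hz, h1, h3⟩ := C.exists_root (U := Submodule.span F {a, b}) (fun h0 =>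
      ne_zero_one ha.1 ((Submodule.eq_bot_iff _).1 h0 a (Submodule.subset_span (by simp))))
      (C.ne_top ((finrank_span_pair_le a b).trans_lt (by decide)))
    obtain ⟨U, h4, h5, h6, -⟩ := key z hz h1 (by rwa [mem_orth_pair, not_and_or] at h3)
    refine ⟨U, h4, h5, h6, Submodule.span_le.2 ?_ hx'⟩
    rintro _ (rfl | rfl) <;> assumption
  · exact key x hx hx' h

theorem orders {v w : V} (hv : Rt K v) (hw : Rt K w) (hp : ¬ Par v w) (h : polar Q v w ≠ 0) :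
    (refl Q v * refl Q w) ^ 3 = 1 ∨ (refl Q v * refl Q w) ^ 4 = 1 ∨
      (refl Q v * refl Q w) ^ 5 = 1 := by
  obtain ⟨U, ⟨β, σ, S⟩, h1, h3, -⟩ := C.exists_gd hv hw hw hp h (Or.inl h)
  simpa only [S.pw hv h1 hw h3] using dec1 β _ (S.mem hv h1) _ (S.mem hw h3)

theorem values {v w : V} (hv : Rt K v) (hw : Rt K w) (hp : ¬ Par v w) :
    polar Q v w = 0 ∨ polar Q v w ^ 2 = 1 ∨ polar Q v w ^ 2 = 2 ∨ Gold (polar Q v w) := by
  refine or_iff_not_imp_left.2 fun h => ?_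
  rcases C.orders hv hw hp h with h1 | h1 | h1
  · exact Or.inl (of_pow_three C.h2 hv.1 hw.1 hp h1)
  · exact Or.inr (Or.inl ((of_pow_four C.h2 hv.1 hw.1 hp h1).resolve_left h))
  · exact Or.inr (Or.inr (of_pow_five C.h2 hv.1 hw.1 hp h1))

/-- The position of a root relative to a square. -/
theorem pair {f g x : V} {s : F} (hs : s ^ 2 = 2) (hf : Rt K f) (hg : Rt K g)
    (hfg : polar Q f g = 0) (hh : Rt K (s⁻¹ • (f + g))) (hx : Rt K x) :
    Par f x ∨ Par g x ∨ Par (s⁻¹ • (f + g)) x ∨ Par (s⁻¹ • (f - g)) x ∨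
      (polar Q x f = 0 ∧ polar Q x g = 0) ∨ (polar Q x f ^ 2 = 2 ∧ polar Q x g = 0) ∨
      (polar Q x f = 0 ∧ polar Q x g ^ 2 = 2) ∨ (polar Q x f ^ 2 = 1 ∧ polar Q x g ^ 2 = 1) := by
  have hs0 : s ≠ 0 := by rintro rfl; exact C.h2 (by rw [← hs]; ring)
  set h := s⁻¹ • (f + g) with hdef
  have hfh : polar Q f h = s := by
    rw [hdef, polar_smul_right', polar_add_right, polar_one hf.1, hfg, ← hs]; field_simp; ring
  have hnp : ¬ Par f h := not_par_of_sq' hf.1 (by rw [hfh, hs]) C.h2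
  have hrg : Par ((refl Q h).1 f) g := Or.inr (by
    rw [refl1 hh.1, hfh, hdef, smul_smul, mul_inv_cancel₀ hs0]; module)
  have hrh : Par ((refl Q f).1 h) (s⁻¹ • (f - g)) := Or.inr (by
    rw [hdef, map_smul, map_add, refl_apply_self (by rw [hf.1]; exact one_ne_zero),
      refl_apply_of_orth (by rwa [polar_comm])]; module)
  by_cases h0 : polar Q x f = 0 ∧ polar Q x g = 0
  · tauto
  by_cases e1 : Par f x
  · tauto
  by_cases e2 : Par g x
  · tauto
  obtain ⟨U, ⟨β, σ, S⟩, h1, h3, h4⟩ := C.exists_gd hf hh hx hnp (hfh ▸ hs0) (by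
    by_contra hc
    push Not at hc
    obtain ⟨c1, c2⟩ := hc
    rw [hdef, polar_smul_left', polar_add_left, c1, zero_add, mul_eq_zero] at c2
    exact h0 ⟨by rw [polar_comm, c1], by rw [polar_comm, c2.resolve_left (inv_ne_zero hs0)]⟩)
  have h5 := refl_mem (Q := Q) h3 h1
  have h6 := hrg.mem h5
  have h7 : σ h * σ f * σ h = σ g := by
    rw [← S.cj hh h3 hf h1]; exact (S.inj (hh.rf hf) h5 hg h6).2 hrg
  have h8 := dec2 β _ (S.mem hf h1) _ (S.mem hh h3) (by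
    rw [S.pw hf h1 hh h3, show (refl Q f * refl Q h) ^ 4 = refl Q f * refl Q g *
      (refl Q f * refl Q g) by
        rw [hrg.refl_eq, refl_refl_eq]; simp only [pow_succ, pow_zero, one_mul, mul_assoc],
      mul_assoc, ← mul_assoc (refl Q g), refl_comm_of_orth hfg, mul_assoc, refl_mul_self, mul_one,
      refl_mul_self]) (by
    rw [Ne, S.pw hf h1 hh h3]
    exact fun h => hs0 (hfh ▸ of_pow_two C.h2 hf.1 hh.1 hnp h)) _ (S.mem hx h4)
  rw [h7, ← S.cj hf h1 hh h3, S.inj hf h1 hx h4, S.inj hg h6 hx h4, S.inj hh h3 hx h4,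
    S.inj (hf.rf hh) (refl_mem h1 h3) hx h4] at h8
  simp only [S.pw hx h4 hf h1, S.pw hx h4 hg h6] at h8
  have e3 : ¬ Par x f := fun h => e1 h.symm
  have e4 : ¬ Par x g := fun h => e2 h.symm
  rcases h8 with h8 | h8 | h8 | h8 | ⟨h8, h9⟩ | ⟨h8, h9⟩ | ⟨h8, h9⟩
  · tauto
  · tauto
  · tauto
  · have := hrh.symm.trans h8
    tauto
  · have := of_pow_four C.h2 hx.1 hf.1 e3 h8
    have := of_pow_two C.h2 hx.1 hg.1 e4 h9
    tauto
  · have := of_pow_two C.h2 hx.1 hf.1 e3 h8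
    have := of_pow_four C.h2 hx.1 hg.1 e4 h9
    tauto
  · have := of_pow_three C.h2 hx.1 hf.1 e3 h8
    have := of_pow_three C.h2 hx.1 hg.1 e4 h9
    tauto

/-- Two golden coordinates. -/
theorem gold_pair {a c x : V} (ha : Rt K a) (hc : Rt K c) (hx : Rt K x) (hac : polar Q a c = 0)
    (h1 : ¬ Par x a) (h3 : ¬ Par x c) (h0 : polar Q x a ≠ 0) (h0' : polar Q x c ≠ 0)
    (h4 : (refl Q x * refl Q a) ^ 5 = 1) (h5 : (refl Q x * refl Q c) ^ 5 = 1) :
    (2 - polar Q x a ^ 2 - polar Q x c ^ 2) ^ 2 = 1 := by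
  obtain ⟨U, ⟨β, σ, S⟩, m1, m2, m3⟩ := C.exists_gd hx ha hc h1 h0 (Or.inl h0')
  have hp : ¬ Par a c := not_par_of_orth ha.1 hac C.h2
  obtain ⟨h6, h7⟩ := dec4 β _ (S.mem ha m2) _ (S.mem hc m3) (by
      rw [S.pw ha m2 hc m3, pow_two, mul_assoc, ← mul_assoc (refl Q c), refl_comm_of_orth hac,
        mul_assoc, refl_mul_self, mul_one, refl_mul_self])
    (by rwa [Ne, S.inj ha m2 hc m3]) _ (S.mem hx m1) (by rwa [S.pw hx m1 ha m2])
    (by rwa [S.pw hx m1 hc m3]) (by rwa [Ne, S.inj hx m1 ha m2]) (by rwa [Ne, S.inj hx m1 hc m3])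
  have r1 := hc.rf hx
  have r2 := refl_mem (Q := Q) m3 m1
  have r3 := ha.rf r1
  have r4 := refl_mem (Q := Q) m2 r2
  rw [← S.cj hc m3 hx m1, ← S.cj ha m2 r1 r2] at h6 h7
  rw [Ne, S.inj hx m1 r3 r4] at h7
  have h8 := of_pow_three C.h2 hx.1 r3.1 h7 ((S.pw hx m1 r3 r4 3).1 h6)
  simp only [refl1 ha.1, refl1 hc.1, polar_sub_left, polar_sub_right, polar_smul_left',
    polar_smul_right', polar_one hx.1, polar_comm Q c a, hac] at h8
  linear_combination h8

omit [Finite F] in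
/-- An element of order four. -/
theorem rot {U : Submodule F V} (hU : Gd K U) {g : O Q} (hg : g ∈ K)
    (h1 : ∀ x ∈ orth Q U, g.1 x = x) (h4 : g ^ 4 = 1) {x : V} (hx : Rt K x) (hxU : x ∈ U)
    (hp : ¬ Par x (g.1 (g.1 x))) : polar Q x (g.1 (g.1 x)) = 0 := by
  obtain ⟨β, σ, S⟩ := hU
  obtain ⟨γ, h5, h6, h7⟩ := S.el g hg h1 h4
  obtain ⟨m1, e1⟩ := h7 x hx hxU
  obtain ⟨m2, e2⟩ := h7 _ (hx.apply hg) m1
  have r := (hx.apply hg).apply hg
  have h8 := dec3 β γ h5 h6 (fun h => hp ((S.inj hx hxU r m2).1 (by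
    rw [e2, e1, ← mul_assoc, ← mul_assoc, h, mul_assoc, ← mul_inv_rev, h]; simp))) _ (S.mem hx hxU)
  rw [← e1, ← e2, S.pw hx hxU r m2] at h8
  exact of_pow_two C.h2 hx.1 r.1 hp h8

end RC

end Cfsg.Lib.Class.Sp4O.R
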