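import Cfsg.Agent.Class.Sp4O.R5

/-!
The case of two roots at an angle of 45 degrees.
-/

set_option autoImplicit false

namespace Cfsg.Lib.Class.Sp4O.R

open QuadraticMap Module Orth

variable {F V : Type*} [Field F] [AddCommGroup V] [Module F V] {Q : QuadraticForm F V}

/-- Frames of type `B`. -/
def Fr (K : Subgroup (O Q)) (s : F) (S : Finset V) : Prop :=
  (∀ f ∈ S, Rt K f) ∧ ∀ f ∈ S, ∀ g ∈ S, f ≠ g → polar Q f g = 0 ∧ Rt K (s⁻¹ • (f + g))

/-- The stabiliser of a set of vectors. -/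
def setStab (Q : QuadraticForm F V) (T : Set V) : Subgroup (O Q) where
  carrier := {g | ∀ v, v ∈ T ↔ g.1 v ∈ T}
  mul_mem' {a b} ha hb v := (hb v).trans (ha _)
  one_mem' _ := Iff.rfl
  inv_mem' {a} ha v := by
    have := ha ((a⁻¹).1 v)
    rw [O_apply_inv] at this
    exact this.symm

variable {K : Subgroup (O Q)} {s : F}

theorem half_sub {f g : V} (hg : Rt K g) (hfg : polar Q f g = 0) (hh : Rt K (s⁻¹ • (f + g))) :
    Rt K (s⁻¹ • (f - g)) := by
  have := hg.rf hh
  rwa [map_smul, map_add, refl_apply_of_orth hfg,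
    refl_apply_self (by rw [hg.1]; exact one_ne_zero), ← sub_eq_add_neg] at this

theorem half_sign {f g : V} (hg : Rt K g) (hfg : polar Q f g = 0) (hh : Rt K (s⁻¹ • (f + g)))
    {ε δ : F} (hε : ε ^ 2 = 1) (hδ : δ ^ 2 = 1) : Rt K (s⁻¹ • (ε • f + δ • g)) := by
  have h1 := half_sub hg hfg hh
  rcases sq_eq_one_iff.1 hε with rfl | rfl <;> rcases sq_eq_one_iff.1 hδ with rfl | rfl
  · convert hh using 1; module
  · convert h1 using 1; module
  · convert h1.neg using 1; module
  · convert hh.neg using 1; module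

theorem s_ne (h2 : (2 : F) ≠ 0) (hs : s ^ 2 = 2) : s ≠ 0 := by
  rintro rfl; exact h2 (by rw [← hs]; ring)

theorem Fr.insert [DecidableEq V] {S : Finset V} (h : Fr K s S) {f : V} (hf : Rt K f)
    (h1 : ∀ g ∈ S, polar Q f g = 0 ∧ Rt K (s⁻¹ • (f + g))) : Fr K s (insert f S) := by
  refine ⟨fun g hg => ?_, fun a ha b hb hab => ?_⟩
  · rcases Finset.mem_insert.1 hg with rfl | hg
    · exact hf
    · exact h.1 g hg
  rcases Finset.mem_insert.1 ha with e | ha <;> rcases Finset.mem_insert.1 hb with e' | hb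
  · exact absurd (e.trans e'.symm) hab
  · exact e ▸ h1 b hb
  · rw [e', polar_comm, add_comm]; exact h1 a ha
  · exact h.2 a ha b hb hab

theorem Fr.typeI (h2 : (2 : F) ≠ 0) (hs : s ^ 2 = 2) {S : Finset V} (h : Fr K s S) {f x : V}
    (hf : f ∈ S) (hx : Rt K x) (h1 : polar Q x f ^ 2 = 2)
    (h3 : ∀ g ∈ S, g ≠ f → polar Q x g = 0) : ∃ S', Fr K s S' ∧ S.card < S'.card := by
  classical
  have hs0 := s_ne h2 hs
  have hr := (hx.rf (h.1 f hf)).neg
  have h4 : ∀ g ∈ S, polar Q (-(refl Q x).1 f) g = 0 ∧ Rt K (s⁻¹ • (-(refl Q x).1 f + g)) := by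
    intro g hg
    by_cases e : g = f
    · subst e
      rw [refl1 hx.1, polar_comm Q g x]
      refine ⟨by
        rw [polar_neg_left, polar_sub_left, polar_smul_left', polar_one (h.1 g hg).1]
        linear_combination h1, ?_⟩
      convert hx.smul (c := s⁻¹ * polar Q x g) (by field_simp; rw [h1, hs]) using 1
      module
    · have h5 := h.2 f hf g hg (Ne.symm e)
      refine ⟨by
        rw [refl1 hx.1, polar_neg_left, polar_sub_left, polar_smul_left', h5.1, h3 g hg e]
        ring, ?_⟩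
      convert (hx.rf (half_sub (h.1 g hg) h5.1 h5.2)).neg using 1
      rw [map_smul, map_sub, refl_apply_of_orth (x := g) (by rw [polar_comm, h3 g hg e])]
      module
  refine ⟨_, h.insert hr h4, ?_⟩
  rw [Finset.card_insert_of_notMem fun hm => h2 (by rw [← polar_one hr.1, (h4 _ hm).1])]
  exact Nat.lt_succ_self _

variable [FiniteDimensional F V] [Finite F]

namespace RC

variable (C : RC Q K) (hs : s ^ 2 = 2) {S : Finset V} (hS : Fr K s S)
  (hmax : ∀ S', Fr K s S' → S'.card ≤ S.card) (hc : 2 ≤ S.card)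
include C hs hS hmax hc

theorem frame_cases {x : V} (hx : Rt K x) : (∃ f ∈ S, Par f x) ∨
    (∃ f ∈ S, ∃ g ∈ S, f ≠ g ∧ ∃ ε : F, ε ^ 2 = 1 ∧ Par (s⁻¹ • (f + ε • g)) x) ∨
    (∀ f ∈ S, polar Q x f = 0) ∨ ∀ f ∈ S, polar Q x f ^ 2 = 1 := by
  by_contra hcon
  push Not at hcon
  obtain ⟨h1, h3, ⟨f, hf, h4⟩, h5⟩ := hcon
  have key : ∀ g ∈ S, g ≠ f → (polar Q x f ^ 2 = 2 ∧ polar Q x g = 0) ∨
      (polar Q x f ^ 2 = 1 ∧ polar Q x g ^ 2 = 1) := fun g hg e => by
    have h6 := hS.2 f hf g hg e.symm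
    have h7 := C.pair hs (hS.1 f hf) (hS.1 g hg) h6.1 h6.2 hx
    have h8 := h3 f hf g hg e.symm 1 (by ring)
    have h9 := h3 f hf g hg e.symm (-1) (by ring)
    rw [one_smul] at h8
    rw [neg_one_smul, ← sub_eq_add_neg] at h9
    have := h1 f hf
    have := h1 g hg
    tauto
  obtain ⟨g₀, hg₀, e₀⟩ := Finset.exists_mem_ne hc f
  rcases key g₀ hg₀ e₀ with ⟨h6, -⟩ | ⟨h6, -⟩
  · obtain ⟨S', h7, h8⟩ := hS.typeI C.h2 hs hf hx h6 fun g hg e =>
      ((key g hg e).resolve_right fun h => one_ne_zero (α := F) (by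
        linear_combination h.1 - h6)).2
    exact absurd (hmax S' h7) (not_le.2 h8)
  · obtain ⟨g, hg, h7⟩ := h5
    by_cases e : g = f
    · exact h7 (e ▸ h6)
    · exact h7 ((key g hg e).resolve_left fun h => one_ne_zero (α := F) (by
        linear_combination h6 - h.1)).2

theorem typeII {x : V} (hx : Rt K x) (h : ∀ f ∈ S, polar Q x f ^ 2 = 1) :
    x ∈ Submodule.span F (S : Set V) ∧ S.card ≤ 4 := by
  classical
  have hs0 := s_ne C.h2 hs
  obtain ⟨f₁, m₁, f₂, m₂, e₁₂⟩ := Finset.one_lt_card.1 hc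
  obtain ⟨o₁₂, r₁₂⟩ := hS.2 f₁ m₁ f₂ m₂ e₁₂
  have q₁ := polar_one (hS.1 f₁ m₁).1
  have q₂ := polar_one (hS.1 f₂ m₂).1
  have o₂₁ : polar Q f₂ f₁ = 0 := by rw [polar_comm, o₁₂]
  have u₁ := h f₁ m₁
  have u₂ := h f₂ m₂
  have hh := half_sign (hS.1 f₂ m₂) o₁₂ r₁₂ u₁ u₂
  have hxh : polar Q x (s⁻¹ • (polar Q x f₁ • f₁ + polar Q x f₂ • f₂)) = s := by
    simp only [polar_smul_right', polar_add_right]
    field_simp
    linear_combination u₁ + u₂ - hs
  by_cases h3 : ∃ f₃ ∈ S, f₃ ≠ f₁ ∧ f₃ ≠ f₂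
  swap
  · exfalso
    have h4 : S.card ≤ 2 := by
      refine le_trans (Finset.card_le_card (t := {f₁, f₂}) fun g hg => ?_) Finset.card_le_two
      by_contra h5
      simp only [Finset.mem_insert, Finset.mem_singleton, not_or] at h5
      exact h3 ⟨g, hg, h5⟩
    have hh' := half_sign (hS.1 f₂ m₂) o₁₂ r₁₂ u₁ (δ := -polar Q x f₂) (by rw [neg_sq, u₂])
    have ho : polar Q (s⁻¹ • (polar Q x f₁ • f₁ + polar Q x f₂ • f₂))
        (s⁻¹ • (polar Q x f₁ • f₁ + -polar Q x f₂ • f₂)) = 0 := by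
      simp only [polar_smul_right', polar_add_right, polar_smul_left', polar_add_left, q₁, q₂, o₁₂,
        o₂₁]
      linear_combination 2 * s⁻¹ ^ 2 * (u₁ - u₂)
    have h5 : Fr K s (insert (s⁻¹ • (polar Q x f₁ • f₁ + polar Q x f₂ • f₂))
        {s⁻¹ • (polar Q x f₁ • f₁ + -polar Q x f₂ • f₂)}) := by
      refine Fr.insert ⟨by simpa using hh', by simp⟩ hh fun g hg => ?_
      rw [Finset.mem_singleton.1 hg]
      refine ⟨ho, ?_⟩
      convert (hS.1 f₁ m₁).smul u₁ using 1
      match_scalars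
      · field_simp; linear_combination -(polar Q x f₁) * hs
      · ring
    obtain ⟨S', h6, h7⟩ := h5.typeI C.h2 hs (Finset.mem_insert_self _ _) hx (by rw [hxh, hs])
      fun g hg e => by
        rw [Finset.mem_singleton.1 ((Finset.mem_insert.1 hg).resolve_left e)]
        simp only [polar_smul_right', polar_add_right]
        linear_combination s⁻¹ * (u₁ - u₂)
    rw [Finset.card_pair fun e => C.h2 (by rw [← polar_one hh.1]; nth_rw 2 [e]; exact ho)] at h7
    have := hmax S' h6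
    omega
  obtain ⟨f₃, m₃, e₃₁, e₃₂⟩ := h3
  have hy := hx.rf hh
  rw [refl1 hx.1, polar_comm Q _ x, hxh] at hy
  set y := s⁻¹ • (polar Q x f₁ • f₁ + polar Q x f₂ • f₂) - s • x with hydef
  have y₁ : polar Q y f₁ = 0 := by
    simp only [hydef, polar_smul_left', polar_add_left, polar_sub_left, q₁, o₂₁]
    field_simp; linear_combination -(polar Q x f₁) * hs
  have y₂ : polar Q y f₂ = 0 := by
    simp only [hydef, polar_smul_left', polar_add_left, polar_sub_left, q₂, o₁₂]
    field_simp; linear_combination -(polar Q x f₂) * hs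
  have y₃ : ∀ g ∈ S, g ≠ f₁ → g ≠ f₂ → polar Q y g ^ 2 = 2 := fun g hg e₁ e₂ => by
    simp only [hydef, polar_smul_left', polar_add_left, polar_sub_left,
      (hS.2 f₁ m₁ g hg e₁.symm).1, (hS.2 f₂ m₂ g hg e₂.symm).1]
    linear_combination s ^ 2 * h g hg + hs
  obtain ⟨f₄, m₄, e₄₃, y₄⟩ : ∃ f₄ ∈ S, f₄ ≠ f₃ ∧ polar Q y f₄ ≠ 0 := by
    by_contra hcon
    push Not at hcon
    obtain ⟨S', h7, h8⟩ := hS.typeI C.h2 hs m₃ hy (y₃ f₃ m₃ e₃₁ e₃₂) hcon
    exact absurd (hmax S' h7) (not_le.2 h8)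
  have z₃ := y₃ f₃ m₃ e₃₁ e₃₂
  have z₄ := y₃ f₄ m₄ (by rintro rfl; exact y₄ y₁) (by rintro rfl; exact y₄ y₂)
  have n₃ : f₃ ∈ Submodule.span F {f₃, f₄} := Submodule.subset_span (by simp)
  have n₄ : f₄ ∈ Submodule.span F {f₃, f₄} := Submodule.subset_span (by simp)
  have hyP : y ∈ Submodule.span F {f₃, f₄} := by
    obtain ⟨o₃₄, r₃₄⟩ := hS.2 f₃ m₃ f₄ m₄ e₄₃.symm
    rcases C.pair hs (hS.1 f₃ m₃) (hS.1 f₄ m₄) o₃₄ r₃₄ hy with h4 | h4 | h4 | h4 | h4 | h4 | h4 | h4
    · exact h4.mem n₃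
    · exact h4.mem n₄
    · exact h4.mem (Submodule.smul_mem _ _ (Submodule.add_mem _ n₃ n₄))
    · exact h4.mem (Submodule.smul_mem _ _ (Submodule.sub_mem _ n₃ n₄))
    · exact absurd h4.2 y₄
    · exact absurd h4.2 y₄
    · exact absurd (by rw [← z₃, h4.1]; ring) C.h2
    · exact absurd (by linear_combination h4.1 - z₃) (one_ne_zero (α := F))
  constructor
  · have h4 : y ∈ Submodule.span F (S : Set V) := Submodule.span_mono (by
      rintro _ (rfl | rfl) <;> assumption) hyP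
    have h5 : x = s⁻¹ • (s⁻¹ • (polar Q x f₁ • f₁ + polar Q x f₂ • f₂) - y) := by
      rw [hydef, sub_sub_cancel, smul_smul, inv_mul_cancel₀ hs0, one_smul]
    rw [h5]
    exact Submodule.smul_mem _ _ (Submodule.sub_mem _ (Submodule.smul_mem _ _ (Submodule.add_mem _
      (Submodule.smul_mem _ _ (Submodule.subset_span m₁))
      (Submodule.smul_mem _ _ (Submodule.subset_span m₂)))) h4)
  · refine le_trans (Finset.card_le_card (t := {f₁, f₂, f₃, f₄}) fun g hg => ?_)
      Finset.card_le_four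
    by_contra h5
    simp only [Finset.mem_insert, Finset.mem_singleton, not_or] at h5
    obtain ⟨α, β, h6⟩ := Submodule.mem_span_pair.1 hyP
    have h7 := y₃ g hg h5.1 h5.2.1
    rw [← h6, polar_add_left, polar_smul_left', polar_smul_left',
      (hS.2 f₃ m₃ g hg (Ne.symm h5.2.2.1)).1, (hS.2 f₄ m₄ g hg (Ne.symm h5.2.2.2)).1] at h7
    exact C.h2 (by linear_combination -h7)

theorem five_le_card : 5 ≤ S.card := by
  have h1 : Submodule.span F (S : Set V) = ⊤ := by
    by_contra h0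
    obtain ⟨f, hf, -⟩ := Finset.one_lt_card.1 hc
    obtain ⟨z, hz, h3, h4⟩ := C.exists_root (U := Submodule.span F (S : Set V)) (fun h =>
      ne_zero_one (hS.1 f hf).1 ((Submodule.eq_bot_iff _).1 h f (Submodule.subset_span hf))) h0
    rcases C.frame_cases hs hS hmax hc hz with ⟨f, hf, h⟩ | ⟨f, hf, g, hg, -, ε, -, h⟩ | h | h
    · exact h3 (h.mem (Submodule.subset_span hf))
    · exact h3 (h.mem (Submodule.smul_mem _ _ (Submodule.add_mem _ (Submodule.subset_span hf)
        (Submodule.smul_mem _ _ (Submodule.subset_span hg)))))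
    · exact h4 (mem_orth_span.2 fun w hw => by rw [polar_comm, h w hw])
    · exact h3 (C.typeII hs hS hmax hc hz h).1
  have h2 := finrank_span_finset_le_card (R := F) S
  rwa [Set.finrank, h1, finrank_top, C.h5] at h2

theorem false_of_max : False := by
  have hs0 := s_ne C.h2 hs
  have h5 := C.five_le_card hs hS hmax hc
  have key : ∀ x, Rt K x → ∀ f ∈ S, ∃ g ∈ S, Par g ((refl Q x).1 f) := fun x hx f hf => by
    have fix : ∀ {v}, polar Q f v = 0 → ∃ g ∈ S, Par g ((refl Q v).1 f) := fun h =>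
      ⟨f, hf, by rw [refl_apply_of_orth h]; exact par_refl f⟩
    rcases C.frame_cases hs hS hmax hc hx with ⟨a, ha, h⟩ | ⟨a, ha, b, hb, hab, ε, hε, h⟩ | h | h
    · rw [h.refl_eq]
      by_cases e : f = a
      · exact ⟨f, hf, by
          rw [← e, refl_apply_self (by rw [(hS.1 f hf).1]; exact one_ne_zero)]; exact par_neg f⟩
      · exact fix (hS.2 f hf a ha e).1
    · have h1 := (hx.par h.symm).1
      have oab := (hS.2 a ha b hb hab).1
      rw [h.refl_eq]
      by_cases e : f = a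
      · refine ⟨b, hb, ?_⟩
        rw [e, refl1 h1, polar_smul_right', polar_add_right, polar_smul_right', oab,
          polar_one (hS.1 a ha).1]
        convert par_smul (c := -ε) (by rw [neg_sq, hε]) b using 1
        match_scalars
        · field_simp; linear_combination hs
        · field_simp; linear_combination ε * hs
      by_cases e' : f = b
      · refine ⟨a, ha, ?_⟩
        rw [e', refl1 h1, polar_smul_right', polar_add_right, polar_smul_right', polar_comm Q b a,
          oab, polar_one (hS.1 b hb).1]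
        convert par_smul (c := -ε) (by rw [neg_sq, hε]) a using 1
        match_scalars
        · field_simp; linear_combination hs - 2 * hε
        · field_simp; linear_combination ε * hs
      · exact fix (by rw [polar_smul_right', polar_add_right, polar_smul_right',
          (hS.2 f hf a ha e).1, (hS.2 f hf b hb e').1]; ring)
    · exact fix (by rw [polar_comm, h f hf])
    · have := (C.typeII hs hS hmax hc hx h).2
      omega
  have key2 : ∀ x, Rt K x → ∀ v, (∃ g ∈ S, Par g v) → ∃ g ∈ S, Par g ((tv Q x).1 v) := by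
    rintro x hx v ⟨f, hf, h⟩
    obtain ⟨g, hg, h1⟩ := key x hx f hf
    exact ⟨g, hg, (h1.trans (h.map _)).trans (par_neg _)⟩
  have hle : K ≤ setStab Q {v | ∃ g ∈ S, Par g v} := C.le_of_roots fun x hx v =>
    ⟨key2 x hx v, fun h => by
      have := key2 x hx _ h
      rwa [← O_mul_apply, tv_mul_self, O_one_apply] at this⟩
  obtain ⟨f, hf, -⟩ := Finset.one_lt_card.1 hc
  refine C.false_of_class (hS.1 f hf) fun k hk => ?_
  obtain ⟨g, hg, h⟩ := (hle hk f).1 ⟨f, hf, par_refl f⟩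
  by_cases e : f = g
  · exact Or.inl (e ▸ h)
  · exact Or.inr (h.polar_eq_zero (hS.2 f hf g hg e).1)

omit hs hS hmax hc in
theorem sq_ne_two {v w : V} (hv : Rt K v) (hw : Rt K w) : polar Q v w ^ 2 ≠ 2 := fun hs => by
  classical
  have : Finite V := Module.finite_of_finite F
  have hs0 := s_ne C.h2 hs
  have hr := (hw.rf hv).neg
  have ho : polar Q v (-(refl Q w).1 v) = 0 := by
    rw [refl1 hw.1, polar_neg_right, polar_sub_right, polar_smul_right', polar_one hv.1]
    linear_combination hs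
  have h1 : Fr K (polar Q v w) (insert v {-(refl Q w).1 v}) := by
    refine Fr.insert ⟨by simpa using hr, by simp⟩ hv fun g hg => ?_
    rw [Finset.mem_singleton.1 hg]
    refine ⟨ho, ?_⟩
    convert hw using 1
    rw [refl1 hw.1]
    match_scalars
    · ring
    · field_simp
  obtain ⟨S, hS, hmax⟩ := Set.exists_max_image {S | Fr K (polar Q v w) S} Finset.card
    (Set.toFinite _) ⟨_, h1⟩
  refine C.false_of_max hs hS hmax (le_trans ?_ (hmax _ h1))
  rw [Finset.card_pair fun e => C.h2 (by rw [← polar_one hv.1]; nth_rw 2 [e]; exact ho)]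

end RC

end Cfsg.Lib.Class.Sp4O.R
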