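import Cfsg.Agent.Class.Sp4O.R6

/-!
There are no five pairwise orthogonal roots.
-/

set_option autoImplicit false

namespace Cfsg.Lib.Class.Sp4O.R

open QuadraticMap Module Orth

/-- Coordinates of type `D`. -/
def Dty {F : Type*} [Field F] (a : Fin 5 → F) (k : Fin 5) : Prop := a k = 0 ∧ ∀ i, i ≠ k → a i = 1

/-- Coordinates of type `H`. -/
def Hty {F : Type*} [Field F] (a : Fin 5 → F) : Prop :=
  (∃ u v, u ≠ v ∧ a u = 0 ∧ a v = 0 ∧ ∀ i, i ≠ u → i ≠ v → a i ≠ 0) ∧
    ∀ i j, i ≠ j → a i ≠ 0 → a i ≠ a j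

theorem classify {F : Type*} [Field F] (h2 : (2 : F) ≠ 0) (a : Fin 5 → F) (G : Fin 5 → Prop)
    (h : ∀ i, a i = 0 ∨ a i = 1 ∨ G i) (hG : ∀ i, G i → a i ^ 2 - 3 * a i + 1 = 0 ∧ (5 : F) ≠ 0)
    (hp : ∀ i j, i ≠ j → G i → G j → a i + a j = 3) (hs : ∑ i, a i = 4)
    (hsupp : ∀ k, ∃ i, i ≠ k ∧ a i ≠ 0) : (∃ k, Dty a k) ∨ Hty a := by
  classical
  have g0 : ∀ i, G i → a i ≠ 0 := fun i hi e => one_ne_zero (α := F) (by
    have := (hG i hi).1
    rw [e] at this; linear_combination this)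
  have g1 : ∀ i, G i → a i ≠ 1 := fun i hi e => one_ne_zero (α := F) (by
    have := (hG i hi).1
    rw [e] at this; linear_combination -this)
  have g2 : ∀ i j, i ≠ j → G i → G j → a i ≠ a j := fun i j hij hi hj e => (hG i hi).2 (by
    have h1 := hp i j hij hi hj
    rw [← e] at h1
    linear_combination -4 * (hG i hi).1 + (2 * a i - 3) * h1)
  set A := Finset.univ.filter fun i => a i = 1 with hA
  set B := Finset.univ.filter G with hB
  have mA : ∀ i, i ∈ A ↔ a i = 1 := fun i => by simp [hA]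
  have mB : ∀ i, i ∈ B ↔ G i := fun i => by simp [hB]
  have hd : Disjoint A B := Finset.disjoint_left.2 fun i h1 h3 => g1 i ((mB i).1 h3) ((mA i).1 h1)
  have h0 : ∀ i, i ∉ A ∪ B ↔ a i = 0 := fun i => by
    rw [Finset.mem_union, mA, mB]
    refine ⟨fun h1 => (h i).resolve_right h1, fun h1 h3 => h3.elim (fun h4 => ?_) fun h4 => g0 i h4 h1⟩
    exact zero_ne_one (h1.symm.trans h4)
  have hsum : (A.card : F) + ∑ i ∈ B, a i = 4 := by
    rw [← hs, ← Finset.sum_subset (Finset.subset_univ (A ∪ B)) fun i _ hi => (h0 i).1 hi,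
      Finset.sum_union hd, Finset.sum_congr rfl fun i hi => (mA i).1 hi]
    simp
  have hc : (A ∪ B)ᶜ.card + (A.card + B.card) = 5 := by
    rw [← Finset.card_union_of_disjoint hd, add_comm, Finset.card_add_card_compl, Fintype.card_fin]
  have hB2 : B.card ≤ 2 := by
    by_contra hcon
    obtain ⟨i, j, k, hi, hj, hk, hij, hik, hjk⟩ := Finset.two_lt_card_iff.1 (not_le.1 hcon)
    rw [mB] at hi hj hk
    exact g2 j k hjk hj hk (by linear_combination hp i j hij hi hj - hp i k hik hi hk)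
  have h1 : (1 : F) ≠ 0 := one_ne_zero
  obtain hB0 | hB1 | hB2 : B.card = 0 ∨ B.card = 1 ∨ B.card = 2 := by omega
  · rw [Finset.card_eq_zero.1 hB0, Finset.sum_empty, add_zero] at hsum
    obtain hA4 | hA1 : A.card = 4 ∨ A.card = 1 := by
      have : A.card ≤ 5 := by omega
      interval_cases A.card
      · exact absurd (by linear_combination -hsum) (mul_ne_zero h2 h2)
      · exact Or.inr rfl
      · exact absurd (by linear_combination -hsum) h2
      · exact absurd (by linear_combination -hsum) h1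
      · exact Or.inl rfl
      · exact absurd (by linear_combination hsum) h1
    · obtain ⟨k, hk⟩ := Finset.card_eq_one.1 (show (A ∪ B)ᶜ.card = 1 by omega)
      refine Or.inl ⟨k, (h0 k).1 (Finset.mem_compl.1 (hk ▸ Finset.mem_singleton_self k)),
        fun i hi => ?_⟩
      have h3 : i ∈ A ∪ B := by
        by_contra h4
        exact hi (Finset.mem_singleton.1 (hk ▸ Finset.mem_compl.2 h4))
      rwa [Finset.card_eq_zero.1 hB0, Finset.union_empty, mA] at h3
    · obtain ⟨k, hk⟩ := Finset.card_eq_one.1 hA1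
      obtain ⟨i, hi, h3⟩ := hsupp k
      refine absurd ((h0 i).1 ?_) h3
      rwa [Finset.card_eq_zero.1 hB0, Finset.union_empty, hk, Finset.mem_singleton]
  · exfalso
    obtain ⟨k, hk⟩ := Finset.card_eq_one.1 hB1
    obtain ⟨h3, h5⟩ := hG k ((mB k).1 (hk ▸ Finset.mem_singleton_self k))
    rw [hk, Finset.sum_singleton] at hsum
    rw [eq_sub_of_add_eq' hsum] at h3
    have : A.card ≤ 4 := by omega
    interval_cases A.card
    · exact h5 (by linear_combination h3)
    · exact h1 (by linear_combination h3)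
    · exact h1 (by linear_combination -h3)
    · exact h1 (by linear_combination -h3)
    · exact h1 (by linear_combination h3)
  · obtain ⟨i, j, hij, hk⟩ := Finset.card_eq_two.1 hB2
    rw [hk, Finset.sum_pair hij, hp i j hij ((mB i).1 (by simp [hk])) ((mB j).1 (by simp [hk]))]
      at hsum
    have hA1 : A.card = 1 := by
      have : A.card ≤ 3 := by omega
      interval_cases A.card
      · exact absurd (by linear_combination -hsum) h1
      · rfl
      · exact absurd (by linear_combination hsum) h1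
      · exact absurd (by linear_combination hsum) h2
    obtain ⟨u, v, huv, h3⟩ := Finset.card_eq_two.1 (show (A ∪ B)ᶜ.card = 2 by omega)
    refine Or.inr ⟨⟨u, v, huv, (h0 u).1 (Finset.mem_compl.1 (by simp [h3])),
      (h0 v).1 (Finset.mem_compl.1 (by simp [h3])), fun l hu hv h4 => ?_⟩, fun l m hlm h4 h5 => ?_⟩
    · have := Finset.mem_compl.2 ((h0 l).2 h4)
      simp [h3, hu, hv] at this
    rcases (h l).resolve_left h4 with h6 | h6
    · exact hlm (Finset.card_le_one.1 hA1.le l ((mA l).2 h6) m ((mA m).2 (h5 ▸ h6)))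
    rcases (h m).resolve_left (h5 ▸ h4) with h7 | h7
    · exact g1 l h6 (h5 ▸ h7)
    · exact g2 l m hlm h6 h7 h5

theorem exists_not_mem_four : ∀ a b c d : Fin 5, ∃ i, i ≠ a ∧ i ≠ b ∧ i ≠ c ∧ i ≠ d := by decide

theorem sum_signs : ∀ k l m : Fin 5, k ≠ l → m ≠ k → m ≠ l →
    ∑ i, (if i = k then 0 else 1) * (if i = l then 0 else if i = m then -1 else 1 : ℤ) = 1 := by
  decide

theorem four_cover : ∀ a b c d u v : Fin 5, a ≠ b → a ≠ c → a ≠ d → b ≠ c → b ≠ d → c ≠ d → u ≠ v →
    u = a ∨ u = b ∨ u = c ∨ u = d ∨ v = a ∨ v = b ∨ v = c ∨ v = d := by decide +kernel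

variable {F V : Type*} [Field F] [AddCommGroup V] [Module F V] {Q : QuadraticForm F V}
  {K : Subgroup (O Q)} {e : Fin 5 → V}

/-- Roots outside the frame. -/
def Out (K : Subgroup (O Q)) (e : Fin 5 → V) (x : V) : Prop := Rt K x ∧ ∀ i, ¬ Par x (e i)

variable (he : ∀ i, Rt K (e i)) (ho : ∀ i j, i ≠ j → polar Q (e i) (e j) = 0)
include he ho

omit he in
theorem out_of_two {x : V} (hx : Rt K x) {i j : Fin 5} (hij : i ≠ j) (hi : polar Q x (e i) ≠ 0)
    (hj : polar Q x (e j) ≠ 0) : Out K e x := ⟨hx, fun k hk => by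
  have h : ∀ l, l ≠ k → polar Q x (e l) = 0 := fun l hl => by
    rw [polar_comm]; exact hk.symm.polar_eq_zero (ho l k hl)
  by_cases e1 : i = k
  · exact hj (h j (e1 ▸ hij.symm))
  · exact hi (h i e1)⟩

theorem co_refl (x : V) (k i : Fin 5) : polar Q ((refl Q (e k)).1 x) (e i) =
    if i = k then -polar Q x (e i) else polar Q x (e i) := by
  rw [refl1 (he k).1, polar_sub_left, polar_smul_left']
  split_ifs with h
  · rw [h, polar_one (he k).1]; ring
  · rw [ho k i (Ne.symm h)]; ring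

theorem exists_signs {y : V} (hy : Rt K y) (ε : Fin 5 → F) (hε : ∀ i, ε i ^ 2 = 1) :
    ∃ y', Rt K y' ∧ ∀ i, polar Q y' (e i) = ε i * polar Q y (e i) := by
  classical
  have key : ∀ s : Finset (Fin 5), ∃ y', Rt K y' ∧
      ∀ i, polar Q y' (e i) = (if i ∈ s then ε i else 1) * polar Q y (e i) := fun s => by
    induction s using Finset.induction_on with
    | empty => exact ⟨y, hy, by simp⟩
    | insert k s hk ih =>
      obtain ⟨z, hz, h⟩ := ih
      rcases sq_eq_one_iff.1 (hε k) with h1 | h1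
      · refine ⟨z, hz, fun i => ?_⟩
        rw [h]
        by_cases e1 : i = k
        · simp [e1, hk, h1]
        · simp [e1]
      · refine ⟨_, (he k).rf hz, fun i => ?_⟩
        rw [co_refl he ho, h]
        by_cases e1 : i = k
        · simp [e1, hk, h1]
        · simp [e1]
  simpa using key Finset.univ

theorem exists_nonorth {x y : V} (hy : Rt K y) {k : Fin 5} (h1 : polar Q x (e k) ≠ 0)
    (h3 : polar Q y (e k) ≠ 0) : ∃ y', Rt K y' ∧ polar Q y' x ≠ 0 ∧
      ∀ i, polar Q y' (e i) ^ 2 = polar Q y (e i) ^ 2 := by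
  by_cases h : polar Q y x = 0
  · refine ⟨_, (he k).rf hy, ?_, fun i => ?_⟩
    · rw [refl1 (he k).1, polar_sub_left, polar_smul_left', h, polar_comm Q (e k), zero_sub]
      exact neg_ne_zero.2 (mul_ne_zero h3 h1)
    · rw [co_refl he ho]; split_ifs <;> ring
  · exact ⟨y, hy, h, fun _ => rfl⟩

variable [FiniteDimensional F V] [Finite F]

namespace RC

variable (C : RC Q K)
include C

omit [Finite F] in
theorem expand (x : V) : (2 : F) • x = ∑ i, polar Q x (e i) • e i := by
  have h1 : ∀ (c : Fin 5 → F) (j : Fin 5), polar Q (∑ i, c i • e i) (e j) = c j * 2 := fun c j => by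
    rw [← polarBilin_apply_apply, map_sum, LinearMap.sum_apply, Finset.sum_eq_single j]
    · rw [polarBilin_apply_apply, polar_smul_left', polar_one (he j).1]
    · intro i _ hi
      rw [polarBilin_apply_apply, polar_smul_left', ho i j hi, mul_zero]
    · simp
  have hi : LinearIndependent F e := Fintype.linearIndependent_iff.2 fun c hc j => by
    have := h1 c j
    rw [hc, polar_zero_left] at this
    exact (mul_eq_zero.1 this.symm).resolve_right C.h2
  have hs := hi.span_eq_top_of_card_eq_finrank' (by rw [C.h5, Fintype.card_fin])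
  rw [← sub_eq_zero]
  refine nondeg_right C.hQ fun y => (mem_orth (W := Submodule.span F (Set.range e))).1
    (mem_orth_span.2 ?_) y (hs ▸ Submodule.mem_top)
  rintro _ ⟨j, rfl⟩
  rw [polar_comm, polar_sub_left, h1, polar_smul_left']; ring

omit [Finite F] in
theorem polar_expand (x y : V) : 2 * polar Q x y = ∑ i, polar Q x (e i) * polar Q y (e i) := by
  rw [← polar_smul_left', C.expand he ho, ← polarBilin_apply_apply, map_sum, LinearMap.sum_apply]
  exact Finset.sum_congr rfl fun i _ => by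
    rw [polarBilin_apply_apply, polar_smul_left', polar_comm Q (e i)]

theorem out_type {x : V} (hx : Out K e x) :
    (∃ k, Dty (fun i => polar Q x (e i) ^ 2) k) ∨ Hty fun i => polar Q x (e i) ^ 2 := by
  refine classify C.h2 _ (fun i => polar Q x (e i) ≠ 0 ∧ (refl Q x * refl Q (e i)) ^ 5 = 1)
    (fun i => ?_) (fun i hi => ?_) (fun i j hij hi hj => ?_) ?_ fun k => ?_
  · by_cases h : polar Q x (e i) = 0
    · exact Or.inl (by rw [h]; ring)
    rcases C.orders hx.1 (he i) (hx.2 i) h with h1 | h1 | h1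
    · exact Or.inr (Or.inl (of_pow_three C.h2 hx.1.1 (he i).1 (hx.2 i) h1))
    · exact absurd ((of_pow_four C.h2 hx.1.1 (he i).1 (hx.2 i) h1).resolve_left h)
        (C.sq_ne_two hx.1 (he i))
    · exact Or.inr (Or.inr ⟨h, h1⟩)
  · have h1 := of_pow_five C.h2 hx.1.1 (he i).1 (hx.2 i) hi.2
    exact ⟨by unfold Gold at h1; linear_combination h1, C.five_ne_zero hx.1 (he i) (hx.2 i) h1⟩
  · have h1 := of_pow_five C.h2 hx.1.1 (he i).1 (hx.2 i) hi.2
    have h3 := of_pow_five C.h2 hx.1.1 (he j).1 (hx.2 j) hj.2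
    unfold Gold at h1 h3
    rcases sq_eq_one_iff.1 (C.gold_pair (he i) (he j) hx.1 (ho i j hij) (hx.2 i) (hx.2 j) hi.1 hj.1
      hi.2 hj.2) with h4 | h4
    · exfalso
      have h5 : 2 * (2 * polar Q x (e i) ^ 2 - 1) = 0 := by
        linear_combination h3 - h1 + (polar Q x (e j) ^ 2 - polar Q x (e i) ^ 2 - 2) * h4
      have h6 := (mul_eq_zero.1 h5).resolve_left C.h2
      exact one_ne_zero (α := F) (by
        linear_combination -4 * h1 + (2 * polar Q x (e i) ^ 2 - 5) * h6)
    · linear_combination -h4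
  · have := C.polar_expand he ho x x
    rw [polar_one hx.1.1] at this
    simp only [pow_two, ← this]; norm_num
  · by_contra hc
    push Not at hc
    refine hx.2 k (par_of_smul (he k).1 hx.1.1 (c := 2⁻¹ * polar Q x (e k)) ?_).symm
    have h1 := C.expand he ho x
    rw [Finset.sum_eq_single k (fun i _ hi => by
      rw [pow_eq_zero_iff two_ne_zero |>.1 (hc i hi), zero_smul]) (by simp)] at h1
    rw [mul_smul, ← h1, smul_smul, inv_mul_cancel₀ C.h2, one_smul]

theorem not_two_D {x y : V} (hx : Rt K x) (hy : Rt K y) {k l : Fin 5} (hkl : k ≠ l)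
    (h1 : Dty (fun i => polar Q x (e i) ^ 2) k) (h3 : Dty (fun i => polar Q y (e i) ^ 2) l) :
    False := by
  obtain ⟨m, hmk, hml, -⟩ := exists_not_mem_four k l k k
  obtain ⟨n, hnk, hnl, hnm, -⟩ := exists_not_mem_four k l m k
  obtain ⟨x', hx', h4⟩ := exists_signs he ho hx (fun i => if i = k then 1 else polar Q x (e i))
    fun i => by
      split_ifs with h
      · ring
      · exact h1.2 i h
  obtain ⟨y', hy', h5⟩ := exists_signs he ho hy
    (fun i => if i = l then 1 else if i = m then -polar Q y (e i) else polar Q y (e i)) fun i => by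
      split_ifs with h h'
      · ring
      · rw [neg_sq]; exact h3.2 i h
      · exact h3.2 i h
  have h6 : ∀ i, polar Q x' (e i) = if i = k then 0 else 1 := fun i => by
    rw [h4]
    split_ifs with h
    · rw [h, pow_eq_zero_iff two_ne_zero |>.1 h1.1, mul_zero]
    · rw [← pow_two]; exact h1.2 i h
  have h7 : ∀ i, polar Q y' (e i) = if i = l then 0 else if i = m then -1 else 1 := fun i => by
    rw [h5]
    split_ifs with h h'
    · rw [h, pow_eq_zero_iff two_ne_zero |>.1 h3.1, mul_zero]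
    · rw [neg_mul, ← pow_two]; exact congrArg _ (h3.2 i h)
    · rw [← pow_two]; exact h3.2 i h
  have h8 : 2 * polar Q x' y' = 1 := by
    have := congrArg (Int.cast : ℤ → F) (sum_signs k l m hkl hmk hml)
    push_cast at this
    rw [C.polar_expand he ho, ← this]
    simp only [h6, h7]
  have xk : polar Q x' (e k) = 0 := by simp [h6]
  have yk : polar Q y' (e k) = 1 := by simp [h7, hkl, hmk.symm]
  have hp : ¬ Par x' y' := fun h => one_ne_zero (α := F) (by
    rw [← yk, polar_comm]; exact h.polar_eq_zero (by rw [polar_comm, xk]))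
  rcases C.values hx' hy' hp with h9 | h9 | h9 | h9
  · rw [h9, mul_zero] at h8; exact zero_ne_one h8
  · have h3' : (3 : F) = 0 := by linear_combination -4 * h9 + (2 * polar Q x' y' + 1) * h8
    obtain ⟨t, ht⟩ := C.nd2 hx'.neg (he n) hy'.neg
      (by rw [polar_neg_right, polar_comm, h6, if_neg hnk]; linear_combination -h3')
      (by rw [polar_neg_right, polar_comm, h7, if_neg hnl, if_neg hnm]; linear_combination -h3')
      (by rw [polar_neg_right, polar_neg_left, neg_neg]
          linear_combination 2 * h8 - polar Q x' y' * h3')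
      (fun h => one_ne_zero (α := F) (by
        have := ho n l hnl
        rw [h, polar_neg_left, h6, if_neg hkl.symm] at this
        linear_combination -this))
    have h10 := congrArg (fun v => polar Q v (e k)) ht
    simp only [polar_sub_left, polar_neg_left, polar_smul_left', ho n k hnk, xk, yk] at h10
    exact one_ne_zero (α := F) (by linear_combination h10)
  · exact C.sq_ne_two hx' hy' h9
  · refine C.five_ne_zero hx' hy' hp h9 ?_
    unfold Gold at h9
    linear_combination 16 * h9 - (8 * polar Q x' y' ^ 3 + 4 * polar Q x' y' ^ 2 -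
      22 * polar Q x' y' - 11) * h8

omit [Finite F] in
theorem exists_out (k : Fin 5) : ∃ y, Out K e y ∧ polar Q y (e k) ≠ 0 := by
  obtain ⟨z, hz, h1, h3⟩ := C.exists_root (U := Submodule.span F {e k})
    (by rw [Ne, Submodule.span_singleton_eq_bot]; exact ne_zero_one (he k).1)
    (C.ne_top ((finrank_span_singleton_le _).trans_lt (by decide)))
  rw [mem_orth_singleton] at h3
  refine ⟨z, ⟨hz, fun i hi => ?_⟩, by rwa [polar_comm]⟩
  by_cases h : k = i
  · exact h1 (hi.symm.mem (h ▸ Submodule.mem_span_singleton_self _))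
  · exact h3 (hi.symm.polar_eq_zero (ho k i h))

theorem no_five : False := by
  have sq0 : ∀ {a : F}, a ^ 2 = 0 ↔ a = 0 := pow_eq_zero_iff two_ne_zero
  have hco : ∀ {x : V}, Rt K x → ∀ y i, polar Q ((refl Q x).1 y) (e i) =
      polar Q y (e i) - polar Q y x * polar Q x (e i) := fun hx y i => by
    rw [refl1 hx.1, polar_sub_left, polar_smul_left']
  have hH : ∀ x, Out K e x → Hty fun i => polar Q x (e i) ^ 2 := fun x hx => by
    refine (C.out_type he ho hx).resolve_left ?_
    rintro ⟨k, hk⟩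
    have hx0 : ∀ i, i ≠ k → polar Q x (e i) ≠ 0 := fun i hi h => by
      have := hk.2 i hi
      simp [h] at this
    have key : ∀ z, Out K e z → polar Q z (e k) ≠ 0 → Hty fun i => polar Q z (e i) ^ 2 :=
      fun z hz h => (C.out_type he ho hz).resolve_left fun ⟨l, hl⟩ =>
        C.not_two_D he ho hx.1 hz.1 (by rintro rfl; exact h (sq0.1 hl.1)) hk hl
    obtain ⟨y, hy, h1⟩ := C.exists_out he ho k
    obtain ⟨u, v, huv, hu, hv, h3⟩ := (key y hy h1).1
    have huk : u ≠ k := by rintro rfl; exact h1 (sq0.1 hu)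
    have hvk : v ≠ k := by rintro rfl; exact h1 (sq0.1 hv)
    obtain ⟨m, m1, m2, m3, -⟩ := exists_not_mem_four k u v k
    obtain ⟨y', hy', h4, h5⟩ := exists_nonorth he ho hy.1 (hx0 m m1) (mt sq0.2 (h3 m m2 m3))
    have h6 : ∀ i, i ≠ k → polar Q y (e i) ^ 2 = 0 →
        polar Q ((refl Q x).1 y') (e i) ^ 2 = polar Q y' x ^ 2 := fun i hi h => by
      rw [hco hx.1, sq0.1 ((h5 i).trans h)]
      linear_combination polar Q y' x ^ 2 * hk.2 i hi
    have h7 := h6 u huk hu
    have h8 := h6 v hvk hv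
    have h9 : polar Q y' x ^ 2 ≠ 0 := mt sq0.1 h4
    refine (key _ (out_of_two ho (hx.1.rf hy') huv (mt sq0.2 (h7 ▸ h9)) (mt sq0.2 (h8 ▸ h9)))
      ?_).2 u v huv (fun h => h9 (h7.symm.trans h)) (h7.trans h8.symm)
    rw [hco hx.1, sq0.1 hk.1, mul_zero, sub_zero]
    exact fun h => h1 (sq0.1 ((h5 k).symm.trans (sq0.2 h)))
  have key : ∀ x y, Out K e x → Out K e y → ∃ z, Rt K z ∧ ∀ i,
      (polar Q x (e i) = 0 → polar Q y (e i) ≠ 0 → polar Q z (e i) ≠ 0) ∧
      (polar Q x (e i) ≠ 0 → polar Q y (e i) = 0 → polar Q z (e i) ≠ 0) := fun x y hx hy => by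
    obtain ⟨u, v, -, -, -, h1⟩ := (hH x hx).1
    obtain ⟨u', v', -, -, -, h3⟩ := (hH y hy).1
    obtain ⟨m, m1, m2, m3, m4⟩ := exists_not_mem_four u v u' v'
    obtain ⟨y', hy', h4, h5⟩ := exists_nonorth he ho hy.1 (mt sq0.2 (h1 m m1 m2))
      (mt sq0.2 (h3 m m3 m4))
    refine ⟨_, hx.1.rf hy', fun i => ⟨fun h6 h7 => ?_, fun h6 h7 => ?_⟩⟩
    · rw [hco hx.1, h6, mul_zero, sub_zero]
      exact fun h => h7 (sq0.1 ((h5 i).symm.trans (sq0.2 h)))
    · rw [hco hx.1, sq0.1 ((h5 i).trans (sq0.2 h7)), zero_sub]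
      exact neg_ne_zero.2 (mul_ne_zero h4 h6)
  obtain ⟨x, hx, -⟩ := C.exists_out he ho 0
  obtain ⟨u, v, huv, hu, hv, h1⟩ := (hH x hx).1
  obtain ⟨y, hy, yu, yv⟩ : ∃ y, Out K e y ∧ polar Q y (e u) ≠ 0 ∧ polar Q y (e v) ≠ 0 := by
    obtain ⟨y₁, hy₁, a₁⟩ := C.exists_out he ho u
    obtain ⟨y₂, hy₂, a₂⟩ := C.exists_out he ho v
    by_cases b₁ : polar Q y₁ (e v) = 0
    swap
    · exact ⟨y₁, hy₁, a₁, b₁⟩
    by_cases b₂ : polar Q y₂ (e u) = 0
    swap
    · exact ⟨y₂, hy₂, b₂, a₂⟩
    obtain ⟨z, hz, h3⟩ := key y₁ y₂ hy₁ hy₂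
    exact ⟨z, out_of_two ho hz huv ((h3 u).2 a₁ b₂) ((h3 v).1 b₁ a₂), (h3 u).2 a₁ b₂,
      (h3 v).1 b₁ a₂⟩
  obtain ⟨u', v', huv', hu', hv', -⟩ := (hH y hy).1
  have e1 : u ≠ u' := by rintro rfl; exact yu (sq0.1 hu')
  have e2 : u ≠ v' := by rintro rfl; exact yu (sq0.1 hv')
  have e3 : v ≠ u' := by rintro rfl; exact yv (sq0.1 hu')
  have e4 : v ≠ v' := by rintro rfl; exact yv (sq0.1 hv')
  obtain ⟨z, hz, h3⟩ := key x y hx hy
  have z1 := (h3 u).1 (sq0.1 hu) yu
  have z2 := (h3 v).1 (sq0.1 hv) yv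
  have z3 := (h3 u').2 (mt sq0.2 (h1 u' e1.symm e3.symm)) (sq0.1 hu')
  have z4 := (h3 v').2 (mt sq0.2 (h1 v' e2.symm e4.symm)) (sq0.1 hv')
  obtain ⟨s, t, hst, hs, ht, -⟩ := (hH z (out_of_two ho hz huv z1 z2)).1
  have hs' := sq0.1 hs
  have ht' := sq0.1 ht
  rcases four_cover u v u' v' s t huv e1 e2 e3 e4 huv' hst with
    rfl | rfl | rfl | rfl | rfl | rfl | rfl | rfl <;> contradiction

end RC

end Cfsg.Lib.Class.Sp4O.R
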