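import Cfsg.Agent.Class.Sp4O.R7

/-!
Three pairwise orthogonal roots.
-/

set_option autoImplicit false

namespace Cfsg.Lib.Class.Sp4O.R

open QuadraticMap Module Orth

variable {F V : Type*} [Field F] [AddCommGroup V] [Module F V] {Q : QuadraticForm F V}

theorem orth_triple_nd (h2 : (2 : F) ≠ 0) {a b c : V} (ha : Q a = 1) (hb : Q b = 1) (hc : Q c = 1)
    (hab : polar Q a b = 0) (hac : polar Q a c = 0) (hbc : polar Q b c = 0) {α β γ : F}
    (h : ∀ v ∈ ({a, b, c} : Set V), polar Q (α • a + β • b + γ • c) v = 0) :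
    α = 0 ∧ β = 0 ∧ γ = 0 := by
  have h1 := h a (by simp)
  have h3 := h b (by simp)
  have h4 := h c (by simp)
  simp only [polar_add_left, polar_smul_left', polar_one ha, polar_one hb, polar_one hc,
    polar_comm Q b a, polar_comm Q c a, polar_comm Q c b, hab, hac, hbc, mul_zero, add_zero,
    zero_add, mul_eq_zero, h2, or_false] at h1 h3 h4
  exact ⟨h1, h3, h4⟩

theorem eq_zero_of_two_smul (h2 : (2 : F) ≠ 0) {v : V} (h : v + v = 0) : v = 0 := by
  rw [← two_smul F] at h
  exact (smul_eq_zero.1 h).resolve_left h2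

variable [FiniteDimensional F V] {K : Subgroup (O Q)}

namespace RC

variable (C : RC Q K)
include C

theorem root_of_neg [Finite F] {h : O Q} (hh : h ∈ K) {W : Submodule F V} (hW : 3 ≤ finrank F W)
    (h1 : ∀ x ∈ W, h.1 x = -x) : ∃ w, Rt K w ∧ w ∈ orth Q W := by
  have hd : dick (negO Q * h) = -1 := by
    rw [dick_mul C.hQ (not_exc_of_two_ne_zero C.h2), C.dick_eq_one hh, dick_negO C.h2, C.h5]; decide
  have hle : W ≤ fixs (negO Q * h) := fun x hx => by
    rw [mem_fixs, O_mul_apply, h1 x hx, negO_apply, neg_neg]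
  have h4 : finrank F (fixs (negO Q * h)) = 4 := by
    have h3 := hW.trans (Submodule.finrank_mono hle)
    have h5 := (fixs (negO Q * h)).finrank_le
    rw [dick, C.h5] at hd
    rw [C.h5] at h5
    interval_cases finrank F (fixs (negO Q * h))
    · exact absurd hd (by decide)
    · rfl
    · exact absurd hd (by decide)
  obtain ⟨w, -, hw⟩ := exists_eq_span_of_finrank_eq_one (W := orth Q (fixs (negO Q * h))) (by
    have := finrank_orth C.hQ (fixs (negO Q * h))
    rw [C.h5] at this; omega)
  have h5 := fixG_le_zpowers C.hQ hw (x := negO Q * h) fun _ hv => hv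
  have h6 : negO Q * h ≠ 1 := fun e => by rw [e, dick_one] at hd; exact absurd hd (by decide)
  have h7 : Q w ≠ 0 := fun e => h6 (by simpa [refl_of_eq_zero e] using h5)
  have h8 : negO Q * h = refl Q w := by
    classical
    rw [mem_zpowers_iff_mem_range_orderOf, orderOf_refl C.hQ h7, Finset.mem_image] at h5
    obtain ⟨k, hk, h9⟩ := h5
    rw [Finset.mem_range] at hk
    interval_cases k
    · exact absurd h9.symm h6
    · rw [← h9, pow_one]
  obtain ⟨c, -, hc⟩ := C.rt_of_mem h7 (by rwa [tv, ← h8, ← mul_assoc, negO_mul_self, one_mul])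
  exact ⟨_, hc, Submodule.smul_mem _ _ (orth_anti hle (hw ▸ Submodule.mem_span_singleton_self w))⟩

variable {a b c : V} (ha : Rt K a) (hb : Rt K b) (hc : Rt K c) (hab : polar Q a b = 0)
  (hac : polar Q a c = 0) (hbc : polar Q b c = 0)
include ha hb hc hab hac hbc

theorem finrank_three : finrank F (Submodule.span F {a, b, c}) = 3 :=
  finrank_span_triple fun α β γ e => orth_triple_nd C.h2 ha.1 hb.1 hc.1 hab hac hbc fun v _ => by
    rw [e, polar_zero_left]

theorem disjoint_three :
    Disjoint (Submodule.span F {a, b, c}) (orth Q (Submodule.span F {a, b, c})) := by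
  refine Submodule.disjoint_def.2 fun x hx hx' => ?_
  obtain ⟨α, β, γ, rfl⟩ := Submodule.mem_span_triple.1 hx
  obtain ⟨rfl, rfl, rfl⟩ := orth_triple_nd C.h2 ha.1 hb.1 hc.1 hab hac hbc fun v hv =>
    mem_orth'.1 hx' v (Submodule.subset_span hv)
  simp

theorem exists_rot (n : ℕ) : ∀ h ∈ K, h ∈ fixG Q (Submodule.span F {a, b, c}) → h ^ 2 ^ n = 1 →
    h ∉ MU K (Submodule.span F {a, b, c}) → ∃ g ∈ K, g ∈ fixG Q (Submodule.span F {a, b, c}) ∧
      ∀ d ∈ orth Q (Submodule.span F {a, b, c}), g.1 (g.1 d) = -d := by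
  induction n with
  | zero =>
    intro h _ _ h1 h3
    rw [pow_zero, pow_one] at h1
    exact absurd (h1 ▸ Subgroup.one_mem _) h3
  | succ n ih =>
    intro h hh hf h1 h3
    by_cases h4 : h * h ∈ MU K (Submodule.span F {a, b, c})
    swap
    · exact ih _ (K.mul_mem hh hh) (Subgroup.mul_mem _ hf hf)
        (by rwa [← pow_two, ← pow_mul, ← pow_succ']) h4
    refine ⟨h, hh, hf, h4.2.resolve_left fun h5 => h3 ⟨hh, ?_⟩⟩
    have hle : Submodule.span F {a, b, c} ≤ fixs h := hf
    have h6 := C.finrank_three ha hb hc hab hac hbc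
    have h7 := h6.ge.trans (Submodule.finrank_mono hle)
    have h8 := (fixs h).finrank_le
    have hd := C.dick_eq_one hh
    rw [dick, C.h5] at hd
    rw [C.h5] at h8
    interval_cases h9 : finrank F (fixs h)
    · right
      intro d hd'
      have h10 := Submodule.eq_of_le_of_finrank_eq hle (h6.trans h9.symm)
      refine eq_neg_of_add_eq_zero_right (Submodule.disjoint_def.1
        (C.disjoint_three ha hb hc hab hac hbc) _ ?_
        (Submodule.add_mem _ hd' ((mem_stab_orth (fixG_le_stab _ hf) d).1 hd')))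
      rw [h10, mem_fixs, map_add, ← O_mul_apply, h5 d hd', add_comm]
    · exact absurd hd (by decide)
    · left
      intro d _
      exact mem_fixs.1 (Submodule.eq_top_of_finrank_eq (h9.trans C.h5.symm) ▸ Submodule.mem_top)

variable [Finite F]

theorem no_four {d : V} (hd : Rt K d) (hm : d ∈ orth Q (Submodule.span F {a, b, c})) : False := by
  have had : polar Q a d = 0 := mem_orth_span.1 hm a (by simp)
  have hbd : polar Q b d = 0 := mem_orth_span.1 hm b (by simp)
  have hcd : polar Q c d = 0 := mem_orth_span.1 hm c (by simp)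
  have hba := (polar_comm Q b a).trans hab
  have hca := (polar_comm Q c a).trans hac
  have hcb := (polar_comm Q c b).trans hbc
  have hda := (polar_comm Q d a).trans had
  have hdb := (polar_comm Q d b).trans hbd
  have hdc := (polar_comm Q d c).trans hcd
  obtain ⟨w, hw, h1⟩ := C.root_of_neg (K.mul_mem (ha.mul_mem hb) (hc.mul_mem hd))
    (W := Submodule.span F {a, b, c, d})
    ((C.finrank_three ha hb hc hab hac hbc).ge.trans (Submodule.finrank_mono (Submodule.span_mono
      (by rintro _ (rfl | rfl | rfl) <;> simp)))) fun x hx => by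
      have : negO Q * (refl Q a * refl Q b * (refl Q c * refl Q d)) ∈
          fixG Q (Submodule.span F {a, b, c, d}) := mem_fixG_span.2 (by
        rintro _ (rfl | rfl | rfl | rfl) <;>
        simp [refl1 ha.1, refl1 hb.1, refl1 hc.1, refl1 hd.1, polar_one ha.1, polar_one hb.1,
          polar_one hc.1, polar_one hd.1, two_smul, *])
      exact neg_eq_iff_eq_neg.1 (this x hx)
  have haw : polar Q a w = 0 := mem_orth_span.1 h1 a (by simp)
  have hbw : polar Q b w = 0 := mem_orth_span.1 h1 b (by simp)
  have hcw : polar Q c w = 0 := mem_orth_span.1 h1 c (by simp)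
  have hdw : polar Q d w = 0 := mem_orth_span.1 h1 d (by simp)
  have hwa := (polar_comm Q w a).trans haw
  have hwb := (polar_comm Q w b).trans hbw
  have hwc := (polar_comm Q w c).trans hcw
  have hwd := (polar_comm Q w d).trans hdw
  refine C.no_five (e := ![a, b, c, d, w]) (fun i => ?_) fun i j hij => ?_
  · fin_cases i <;> assumption
  · fin_cases i <;> fin_cases j <;> first | exact absurd rfl hij | assumption

theorem no_rot {g : O Q} (hg : g ∈ K) (hf : g ∈ fixG Q (Submodule.span F {a, b, c}))
    (hr : ∀ d ∈ orth Q (Submodule.span F {a, b, c}), g.1 (g.1 d) = -d) : False := by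
  have h2 := C.h2
  have hdis := C.disjoint_three ha hb hc hab hac hbc
  have h3 := C.finrank_three ha hb hc hab hac hbc
  have no4 := fun d hd => C.no_four ha hb hc hab hac hbc (d := d) hd
  have hU0 : Submodule.span F {a, b, c} ≠ ⊥ := fun h => by rw [h, finrank_bot] at h3; omega
  generalize Submodule.span F {a, b, c} = U at *
  have hcpl := isCompl_orth C.hQ hdis
  have z0 : ∀ {v}, v ∈ U → v ∈ orth Q U → v = 0 := fun h h' => Submodule.disjoint_def.1 hdis _ h h'
  have hdec : ∀ x, ∃ u ∈ U, ∃ y ∈ orth Q U, u + y = x := fun x =>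
    Submodule.mem_sup.1 (hcpl.sup_eq_top ▸ Submodule.mem_top)
  have hgD : ∀ {y}, y ∈ orth Q U → g.1 y ∈ orth Q U := fun h =>
    (mem_stab_orth (fixG_le_stab _ hf) _).1 h
  have hD : ∀ {y y'}, y ∈ orth Q U → y' ∈ orth Q U → LinearIndependent F ![y, y'] →
      ∀ d ∈ orth Q U, polar Q y d = 0 → polar Q y' d = 0 → d = 0 := fun {y y'} h h' hi d hd e e' => by
    have h4 : Submodule.span F {y, y'} = orth Q U := Submodule.eq_of_le_of_finrank_eq
      (Submodule.span_le.2 (by rintro _ (rfl | rfl) <;> assumption)) (by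
        have := finrank_orth C.hQ U
        rw [finrank_span_pair hi]
        rw [h3, C.h5] at this; omega)
    exact z0 (by rw [← orth_orth C.hQ U, ← h4]; exact mem_orth_pair.2 ⟨e, e'⟩) hd
  obtain ⟨x, hx, hxU, -⟩ := C.exists_root hU0 (C.ne_top (by omega))
  obtain ⟨u, hu, y, hy, rfl⟩ := hdec x
  have hu0 : u ≠ 0 := by rintro rfl; exact no4 _ hx (by rwa [zero_add])
  have hy0 : y ≠ 0 := by rintro rfl; exact hxU (by rwa [add_zero])
  have hy' := hgD hy
  have uy : polar Q u y = 0 := mem_orth.1 hy u hu
  have uy' : polar Q u (g.1 y) = 0 := mem_orth.1 hy' u hu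
  have yu := (polar_comm Q y u).trans uy
  have yu' := (polar_comm Q _ u).trans uy'
  have yy : polar Q y (g.1 y) = 0 := by
    have := O_polar g y (g.1 y)
    rw [hr y hy, polar_neg_right, polar_comm] at this
    exact (mul_eq_zero.1 (by linear_combination -this)).resolve_left h2
  have yy' := (polar_comm Q _ y).trans yy
  have hN : Q u = 1 - Q y := by
    have := hx.1
    rw [Q_add, uy] at this; linear_combination this
  have g1 : g.1 (u + y) = u + g.1 y := by rw [map_add, hf u hu]
  have g2 : g.1 (u + g.1 y) = u - y := by rw [map_add, hf u hu, hr y hy, sub_eq_add_neg]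
  have hx1 : Rt K (u + g.1 y) := g1 ▸ hx.apply hg
  have hx2 : Rt K (u - y) := g2 ▸ hx1.apply hg
  have p1 : polar Q (u + y) (u + g.1 y) = 2 - 2 * Q y := by
    simp only [polar_add_left, polar_add_right, polar_self', hN, uy', yu, yy]; ring
  have p2 : polar Q (u + y) (u - y) = 2 - 4 * Q y := by
    simp only [polar_add_left, polar_sub_right, polar_self', hN, uy, yu]; ring
  by_cases N0 : Q y = 0
  · obtain ⟨i, hi⟩ : ∃ i : F, i • y = g.1 y := by
      by_contra h
      push Not at h
      exact hy0 (hD hy hy' ((LinearIndependent.pair_iff' hy0).2 h) y hy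
        (by rw [polar_self', N0, mul_zero]) yy')
    have hi2 : i ^ 2 + 1 = 0 := by
      have := hr y hy
      rw [← hi, map_smul, ← hi] at this
      exact (smul_eq_zero.1 (show (i ^ 2 + 1) • y = 0 by
        linear_combination (norm := module) this)).resolve_right hy0
    have yx : polar Q y (u + y) = 0 := by rw [polar_add_right, yu, polar_self', N0]; ring
    have yx' : ∀ t : F, polar Q y (t • (u + y)) = 0 := fun t => by
      rw [polar_smul_right', yx, mul_zero]
    have m1 := hx.mul_mem hx2
    have m2 := hx.mul_mem hx1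
    rw [← eich_sub_eq hx.1 hx2.1 (by rw [p2, N0]; ring),
      show u + y - (u - y) = (2 : F) • y by module, eich_smul_left N0 yx] at m1
    rw [← eich_sub_eq hx.1 hx1.1 (by rw [p1, N0]; ring),
      show u + y - (u + g.1 y) = (1 - i) • y by rw [← hi]; module, eich_smul_left N0 yx] at m2
    have key : ∀ {s t : F}, s • (u + y) = t • y → s = 0 := fun h => by
      have := congrArg Q h
      rwa [Q_smul, Q_smul, hx.1, N0, mul_one, mul_zero, pow_eq_zero_iff two_ne_zero] at this
    obtain ⟨h4, h5 | h5 | h5⟩ := C.H1 _ _ _ m1 (fun h => by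
      obtain ⟨t, ht⟩ := mem_span_of_eich_eq_one C.hQ hy0 N0 (yx' _) h
      exact h2 (key ht)) m2
    · obtain ⟨t, ht⟩ := mem_span_of_eich_eq_one C.hQ hy0 N0 (yx' _) h5
      exact h2 (by linear_combination hi2 + (1 + i) * key ht)
    · obtain ⟨t, ht⟩ := mem_span_of_eich_eq C.hQ hy0 N0 (yx' _) (yx' _) h5
      rw [← sub_smul] at ht
      exact h2 (by linear_combination hi2 + (i - 1) * key ht)
    · rw [← eich_neg, ← neg_smul] at h5
      obtain ⟨t, ht⟩ := mem_span_of_eich_eq C.hQ hy0 N0 (yx' _) (yx' _) h5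
      rw [← sub_smul] at ht
      exact one_ne_zero (α := F) (by linear_combination hi2 + i * key ht - i * h4)
  have hgy : ∀ ε : F, g.1 y ≠ ε • y := fun ε h => by
    rw [h, polar_smul_right', polar_self'] at yy
    rw [(mul_eq_zero.1 yy).resolve_right (mul_ne_zero h2 N0), zero_smul] at h
    exact N0 (by rw [← O_map g y, h, QuadraticMap.map_zero])
  by_cases N1 : Q y = 1
  · have hQu : Q ((2 : F) • u) = 0 := by rw [Q_smul, hN, N1]; ring
    have hu2 : (2 : F) • u ≠ 0 := smul_ne_zero h2 hu0
    have e1 : polar Q ((2 : F) • u) (u + y) = 0 := by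
      rw [polar_smul_left', polar_add_right, polar_self', uy, hN, N1]; ring
    have e2 : polar Q ((2 : F) • u) (u + g.1 y) = 0 := by
      rw [polar_smul_left', polar_add_right, polar_self', uy', hN, N1]; ring
    have m1 := hx.mul_mem hx2.neg
    rw [← eich_sub_eq hx.1 hx2.neg.1 (by rw [polar_neg_right, p2, N1]; ring),
      show u + y - -(u - y) = (2 : F) • u by module] at m1
    have m2 := K.mul_mem (K.mul_mem hg m1) (K.inv_mem hg)
    rw [conj_eich, map_smul, hf u hu, g1] at m2
    have key : ∀ {s t : F}, g.1 y - s • y = t • u → False := fun h => hgy _ (sub_eq_zero.1 (z0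
      (h ▸ U.smul_mem _ hu) (Submodule.sub_mem _ hy' (Submodule.smul_mem _ _ hy))))
    obtain ⟨-, h5 | h5 | h5⟩ := C.H1 _ _ _ m1 (fun h => by
      obtain ⟨t, ht⟩ := mem_span_of_eich_eq_one C.hQ hu2 hQu e1 h
      exact hxU (ht ▸ U.smul_mem _ (U.smul_mem _ hu))) m2
    · obtain ⟨t, ht⟩ := mem_span_of_eich_eq_one C.hQ hu2 hQu e2 h5
      exact key (s := 0) (t := 2 * t - 1) (by linear_combination (norm := module) ht)
    · obtain ⟨t, ht⟩ := mem_span_of_eich_eq C.hQ hu2 hQu e1 e2 h5
      exact key (s := 1) (t := 2 * t) (by linear_combination (norm := module) ht)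
    · rw [← eich_neg] at h5
      obtain ⟨t, ht⟩ := mem_span_of_eich_eq C.hQ hu2 hQu (by rw [polar_neg_right, e1, neg_zero])
        e2 h5
      exact key (s := -1) (t := 2 * t - 2) (by linear_combination (norm := module) ht)
  have p0 : polar Q (u + y) (u + g.1 y) ≠ 0 := by
    rw [p1]; exact fun h => mul_ne_zero h2 (sub_ne_zero.2 N1) (by linear_combination -h)
  have hu2 : ∀ {d}, d ∈ orth Q U → u + u ≠ d := fun hd h =>
    hu0 (eq_zero_of_two_smul h2 (z0 (U.add_mem hu hu) (h ▸ hd)))
  obtain ⟨W, hW, w0, w1, w2⟩ := C.exists_gd hx hx1 hx2 (by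
    rintro (h | h)
    · exact hgy 1 (by linear_combination (norm := module) h)
    · exact hu2 (Submodule.neg_mem _ (Submodule.add_mem _ hy hy'))
        (by linear_combination (norm := module) h)) p0 (Or.inr (by rwa [← g2, ← g1, O_polar, g1]))
  have w3 : y ∈ W := by
    have := W.smul_mem (2 : F)⁻¹ (W.sub_mem w0 w2)
    rwa [show u + y - (u - y) = (2 : F) • y by module, smul_smul, inv_mul_cancel₀ h2, one_smul]
      at this
  have w4 : g.1 y ∈ W := by
    have := W.add_mem (W.sub_mem w1 w0) w3
    rwa [show u + g.1 y - (u + y) + y = g.1 y by abel] at this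
  have h5 := C.rot hW hg (fun z hz => by
    obtain ⟨u', hu', d, hd, rfl⟩ := hdec z
    have e1 := mem_orth.1 hz y w3
    have e2 := mem_orth.1 hz _ w4
    rw [polar_add_right, mem_orth'.1 hy u' hu', zero_add] at e1
    rw [polar_add_right, mem_orth'.1 hy' u' hu', zero_add] at e2
    rw [hD hy hy' ((LinearIndependent.pair_iff' hy0).2 fun t h => hgy t h.symm) d hd e1 e2,
      add_zero, hf u' hu']) (O_ext_of_isCompl hcpl (fun v hv => Subgroup.pow_mem _ hf 4 v hv)
      fun v hv => by
        simp only [pow_succ, pow_zero, one_mul, O_mul_apply, O_one_apply]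
        rw [hr v hv, map_neg, map_neg, hr v hv, neg_neg]) hx w0 (by
    rw [g1, g2]
    rintro (h | h)
    · exact hy0 (eq_zero_of_two_smul h2 (by linear_combination (norm := module) -h))
    · exact hu2 (Submodule.zero_mem _) (by linear_combination (norm := module) h))
  rw [g1, g2, p2] at h5
  have h6 : polar Q (u + g.1 y) (u + y) = 1 := by
    rw [polar_comm, p1]
    exact mul_left_cancel₀ h2 (by linear_combination h5)
  refine no4 _ (hx.rf hx1) ?_
  rw [refl1 hx.1, h6, one_smul, show u + g.1 y - (u + y) = g.1 y - y by abel]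
  exact Submodule.sub_mem _ hy' hy

end RC

end Cfsg.Lib.Class.Sp4O.R
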