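import Cfsg.Agent.Class.Sp4O.R8
import Cfsg.Agent.Block.ZStar
import Cfsg.Agent.Trans.TransferTools

/-!
An irreducible simple subgroup of `O₅(q)` with small unipotent root groups contains no negative
of a reflection.
-/

set_option autoImplicit false

namespace Cfsg.Lib.Class.Sp4O

namespace R

open QuadraticMap Module Orth
open scoped commutatorElement

theorem eq_one_of_odd {G : Type*} [Group G] {g : G} {n k : ℕ} (h1 : g ^ 2 ^ n = 1) (h2 : g ^ k = 1)
    (hk : Nat.Coprime 2 k) : g = 1 := by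
  have := pow_gcd_eq_one.2 ⟨h1, h2⟩
  rwa [(Nat.Coprime.pow_left n hk).gcd_eq_one, pow_one] at this

theorem perm_three : ∀ σ τ : Equiv.Perm (Fin 3), σ ^ 3 = 1 ∨ τ ^ 3 = 1 ∨ (σ * τ⁻¹) ^ 3 = 1 := by
  decide +kernel

variable {F V : Type*} [Field F] [AddCommGroup V] [Module F V] {Q : QuadraticForm F V}

theorem exists_perm (h2 : (2 : F) ≠ 0) {ι : Type*} {e : ι → V} (he : ∀ i, Q (e i) = 1)
    (ho : ∀ i j, i ≠ j → polar Q (e i) (e j) = 0) {S : Subgroup (O Q)}
    (h : ∀ g ∈ S, ∀ i, ∃ j, Par (e j) (g.1 (e i))) :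
    ∃ π : S →* Equiv.Perm ι, ∀ g i, Par (e (π g i)) (g.1.1 (e i)) := by
  choose f hf using h
  have uq : ∀ {i j v}, Par (e i) v → Par (e j) v → i = j := fun h h' => by
    by_contra hij
    exact not_par_of_orth (he _) (ho _ _ hij) h2 (h.trans h'.symm)
  let φ : S →* Function.End ι :=
    { toFun := fun g => f g g.2
      map_one' := funext fun i => uq (hf _ _ i) (par_refl _)
      map_mul' := fun a b => funext fun i =>
        uq (hf _ _ i) ((hf a a.2 _).trans ((hf b b.2 i).map a.1)) }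
  exact ⟨φ.toHomPerm, fun g i => hf g g.2 i⟩

theorem commutator_mem_fixG {K : Subgroup (O Q)} {U : Submodule F V} {x y : O Q}
    (hx : x ∈ MU K U) (hy : y ∈ stab Q (orth Q U)) : ⁅x, y⁆ ∈ fixG Q (orth Q U) := fun d hd => by
  have h1 := ((stab Q _).inv_mem hy d).1 hd
  rw [commutatorElement_def, O_mul_apply, O_mul_apply, O_mul_apply]
  rcases hx.2 with h | h
  · rw [O_inv_apply_of_eq (h _ h1), O_apply_inv, h d hd]
  · rw [O_inv_apply_of_eq (u := -(y⁻¹).1 d) (by rw [map_neg, h _ h1, neg_neg]), map_neg,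
      O_apply_inv, map_neg, h d hd, neg_neg]

variable [FiniteDimensional F V] [Finite F] {K : Subgroup (O Q)}

/-- The properties of a Sylow `2`-subgroup which are used. -/
structure Syl (K S : Subgroup (O Q)) : Prop where
  le : S ≤ K
  two : ∀ g ∈ S, ∃ n, g ^ 2 ^ n = 1
  zs : ∃ a b, Rt K a ∧ Rt K b ∧ tv Q a ∈ S ∧ tv Q b ∈ S ∧ ¬ Par a b
  th : ∀ T : Subgroup (O Q), (∀ x ∈ S, ∀ y ∈ S, ⁅x, y⁆ ∈ T) →
    (∀ v w, Rt K v → Rt K w → tv Q v ∈ S → tv Q w ∈ S → tv Q v * tv Q w ∈ T) →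
    ∃ v, Rt K v ∧ tv Q v ∈ S ∧ tv Q v ∈ T

namespace RC

variable (C : RC Q K)
include C

theorem exists_syl : ∃ S, Syl K S := by
  have := C.simple
  have : Fact (Nat.Prime 2) := ⟨Nat.prime_two⟩
  obtain ⟨a, ha⟩ := C.ex
  have ho : orderOf (⟨tv Q a, ha.2⟩ : K) = 2 := orderOf_eq_prime
    (Subtype.ext (by rw [pow_two]; exact tv_mul_self a))
    fun h => C.tv_ne_one ha.1 (congrArg Subtype.val h)
  obtain ⟨P, hP⟩ := (IsPGroup.of_card (n := 1) (p := 2) (G := Subgroup.zpowers (⟨tv Q a, ha.2⟩ : K))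
    (by rw [Nat.card_zpowers, ho, pow_one])).exists_le_sylow
  have haP := hP (Subgroup.mem_zpowers _)
  have mem : ∀ {g : K}, g.1 ∈ (P : Subgroup K).map K.subtype ↔ g ∈ (P : Subgroup K) :=
    Subgroup.mem_map_iff_mem Subtype.val_injective
  have two : ∀ x ∈ (P : Subgroup K), ∃ n, x ^ 2 ^ n = 1 := fun x hx => by
    obtain ⟨n, hn⟩ := P.isPGroup' ⟨x, hx⟩
    exact ⟨n, congrArg Subtype.val hn⟩
  refine ⟨(P : Subgroup K).map K.subtype, Subgroup.map_subtype_le _, ?_, ?_, fun T h1 h3 => ?_⟩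
  · rintro _ ⟨x, hx, rfl⟩
    obtain ⟨n, hn⟩ := two x hx
    exact ⟨n, congrArg Subtype.val hn⟩
  · by_contra hc
    push Not at hc
    have h1 := Block.Princ.zstar_center (Block.Princ.isolated_of_sylow P ho haP fun g hg => by
      have h3 := mem.2 hg
      have h4 : (g * ⟨tv Q a, ha.2⟩ * g⁻¹ : K).1 = tv Q (g.1.1 a) := conj_tv g.1 a
      rw [h4] at h3
      exact Subtype.ext (h4.trans (hc a _ ha (Rt.apply ha g.2) (mem.2 haP) h3).tv_eq))
      (sSup_eq_bot.2 fun N hN => (IsSimpleGroup.eq_bot_or_eq_top_of_normal N hN.1).resolve_right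
        fun h => by
          have h3 := hN.2
          rw [h, Subgroup.card_top] at h3
          have h4 := Nat.Coprime.coprime_dvd_left (ho ▸ orderOf_dvd_natCard _) h3
          exact absurd h4 (by decide))
    refine C.false_of_class ha fun g hg => Or.inl (par_of_tv_eq C.h2 ha.1 (Rt.apply ha hg).1 ?_)
    have h3 : g * tv Q a = tv Q a * g :=
      congrArg Subtype.val (Subgroup.mem_center_iff.1 h1 ⟨g, hg⟩)
    rw [← conj_tv, h3, mul_inv_cancel_right]
  · have hconj : ∀ g : K, (g⁻¹ * ⟨tv Q a, ha.2⟩ * g : K).1 = tv Q ((g⁻¹).1.1 a) := fun g => by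
      rw [← conj_tv]; simp
    have hcomm : commutator K = ⊤ := by
      refine (IsSimpleGroup.eq_bot_or_eq_top_of_normal _ inferInstance).resolve_left fun h =>
        C.hna ⟨⟨fun x y => ?_⟩⟩
      have : ⁅x, y⁆ ∈ commutator K := Subgroup.commutator_mem_commutator (Subgroup.mem_top x)
        (Subgroup.mem_top y)
      rwa [h, Subgroup.mem_bot, commutatorElement_eq_one_iff_mul_comm] at this
    obtain ⟨g, h4, h5, -⟩ := Trans.thompson_transfer_subgroup (H := (P : Subgroup K))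
      (T := T.comap K.subtype) P.not_dvd_index (fun x hx y hy => h1 _ (mem.2 hx) _ (mem.2 hy))
      (fun x hx => by
        obtain ⟨n, hn⟩ := two x hx
        exact ⟨n, hn ▸ Subgroup.one_mem _⟩) ⟨tv Q a, ha.2⟩ ⟨1, by rw [ho, pow_one]⟩
      (fun m hm hm1 g _ => by
        rw [ho, Nat.dvd_prime Nat.prime_two] at hm
        rw [hm.resolve_left hm1, ← ho, pow_orderOf_eq_one, mul_one, inv_mul_cancel]
        exact Subgroup.one_mem _)
      (fun g k hg hk _ _ => by
        have h6 := mem.2 hg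
        have h7 := mem.2 hk
        rw [hconj] at h6 h7
        rw [Subgroup.mem_comap, map_mul, Subgroup.subtype_apply, Subgroup.subtype_apply, hconj,
          hconj]
        exact h3 _ _ (Rt.apply ha (g⁻¹).2) (Rt.apply ha (k⁻¹).2) h6 h7)
      (by rw [hcomm, top_sup_eq]; trivial) ⊥ IsPGroup.of_bot (by simp)
    exact ⟨_, Rt.apply ha (g⁻¹).2, hconj g ▸ mem.2 h4, hconj g ▸ h5⟩

variable {S : Subgroup (O Q)} (hS : Syl K S)
include hS

theorem orth_of_mem {v w : V} (hv : Rt K v) (hw : Rt K w) (h1 : tv Q v ∈ S) (h3 : tv Q w ∈ S)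
    (hp : ¬ Par v w) : polar Q v w = 0 := by
  by_contra h
  obtain ⟨n, hn⟩ := hS.two _ (S.mul_mem h1 h3)
  rw [tv_mul_tv] at hn
  have h4 : refl Q v * refl Q w ≠ 1 := fun e => hp (par_of_refl_eq C.h2 hv.1 hw.1 (by
    rwa [mul_eq_one_iff_eq_inv, refl_inv] at e))
  rcases C.orders hv hw hp h with h5 | h5 | h5
  · exact h4 (eq_one_of_odd hn h5 (by decide))
  · exact C.sq_ne_two hv hw ((of_pow_four C.h2 hv.1 hw.1 hp h5).resolve_left h)
  · exact h4 (eq_one_of_odd hn h5 (by decide))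

theorem not_two {a b : V} (ha : Rt K a) (hb : Rt K b) (h1 : tv Q a ∈ S) (h3 : tv Q b ∈ S)
    (hp : ¬ Par a b) (h : ∀ v, Rt K v → tv Q v ∈ S → Par a v ∨ Par b v) : False := by
  have hm : ∀ v, Rt K v → tv Q v ∈ S → v ∈ Submodule.span F {a, b} := fun v hv hv' =>
    (h v hv hv').elim (fun e => e.mem (Submodule.subset_span (by simp)))
      fun e => e.mem (Submodule.subset_span (by simp))
  have hcj : ∀ g ∈ S, ∀ v, Rt K v → tv Q v ∈ S → g.1 v ∈ Submodule.span F {a, b} :=
    fun g hg v hv hv' => hm _ (hv.apply (hS.le hg))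
      (conj_tv g v ▸ S.mul_mem (S.mul_mem hg hv') (S.inv_mem hg))
  have hle : S ≤ stab Q (Submodule.span F {a, b}) := fun g hg => mem_stab_of_forall_mem fun v hv => by
    obtain ⟨α, β, rfl⟩ := Submodule.mem_span_pair.1 hv
    rw [map_add, map_smul, map_smul]
    exact Submodule.add_mem _ (Submodule.smul_mem _ _ (hcj g hg a ha h1))
      (Submodule.smul_mem _ _ (hcj g hg b hb h3))
  have h2 := finrank_span_pair (linInd_pair ha.1 hb.1 hp)
  generalize Submodule.span F {a, b} = U at *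
  let δ := (detO (Q.restrict U)).comp (stabRestrict Q U)
  have hδ : ∀ v, Rt K v → ∀ hv : tv Q v ∈ S, δ ⟨_, hle hv⟩ = -1 := fun v hv hv' => by
    have h4 : stabRestrict Q U ⟨_, hle hv'⟩ = negO _ * refl _ ⟨v, hm v hv hv'⟩ :=
      O_ext fun x => Subtype.ext (by
        rw [coe_stabRestrict_apply, tv_apply, O_mul_apply, negO_apply, refl_apply, refl_apply]; rfl)
    have h5 : detO (Q.restrict U) (negO _) = 1 := Units.ext (by
      rw [coe_detO, show (negO (Q.restrict U)).1.toLinearMap = (-1 : F) • LinearMap.id from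
        LinearMap.ext fun x => by simp, LinearMap.det_smul, h2]; simp)
    rw [MonoidHom.comp_apply, h4, map_mul, h5, one_mul,
      detO_refl (by rw [restrict_apply', hv.1]; exact one_ne_zero)]
  have mem : ∀ {g : stab Q U}, g.1 ∈ δ.ker.map (stab Q U).subtype ↔ δ g = 1 :=
    Subgroup.mem_map_iff_mem Subtype.val_injective
  obtain ⟨v, hv, h4, h5⟩ := hS.th (δ.ker.map (stab Q U).subtype) (fun x hx y hy =>
    (mem (g := ⁅(⟨x, hle hx⟩ : stab Q U), (⟨y, hle hy⟩ : stab Q U)⁆)).2 (by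
      rw [map_commutatorElement, commutatorElement_eq_one_iff_mul_comm, mul_comm]))
    fun v w hv hw h4 h5 => (mem (g := ⟨_, hle h4⟩ * ⟨_, hle h5⟩)).2 (by
      rw [map_mul, hδ v hv h4, hδ w hw h5]; simp)
  have h6 := (mem (g := ⟨_, hle h4⟩)).1 h5
  rw [hδ v hv h4] at h6
  have h7 : (-1 : F) = 1 := congrArg Units.val h6
  exact C.h2 (by linear_combination -h7)

theorem not_three {a b c : V} (ha : Rt K a) (hb : Rt K b) (hc : Rt K c) (h1 : tv Q a ∈ S)
    (h3 : tv Q b ∈ S) (h4 : tv Q c ∈ S) (hab : polar Q a b = 0) (hac : polar Q a c = 0)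
    (hbc : polar Q b c = 0) : False := by
  have hba := (polar_comm Q b a).trans hab
  have hca := (polar_comm Q c a).trans hac
  have hcb := (polar_comm Q c b).trans hbc
  have no4 := fun d hd => C.no_four ha hb hc hab hac hbc (d := d) hd
  have h : ∀ v, Rt K v → tv Q v ∈ S → Par a v ∨ Par b v ∨ Par c v := fun v hv hv' => by
    by_contra hcon
    push Not at hcon
    refine no4 v hv (mem_orth_span.2 ?_)
    rintro _ (rfl | rfl | rfl)
    · exact C.orth_of_mem hS ha hv h1 hv' hcon.1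
    · exact C.orth_of_mem hS hb hv h3 hv' hcon.2.1
    · exact C.orth_of_mem hS hc hv h4 hv' hcon.2.2
  have ma : a ∈ Submodule.span F {a, b, c} := Submodule.subset_span (by simp)
  have mb : b ∈ Submodule.span F {a, b, c} := Submodule.subset_span (by simp)
  have mc : c ∈ Submodule.span F {a, b, c} := Submodule.subset_span (by simp)
  have hm : ∀ v, Rt K v → tv Q v ∈ S → v ∈ Submodule.span F {a, b, c} := fun v hv hv' => by
    rcases h v hv hv' with e | e | e
    exacts [e.mem ma, e.mem mb, e.mem mc]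
  have hcj : ∀ g ∈ S, ∀ v, tv Q v ∈ S → tv Q (g.1 v) ∈ S :=
    fun g hg v hv => conj_tv g v ▸ S.mul_mem (S.mul_mem hg hv) (S.inv_mem hg)
  have hle : S ≤ stab Q (orth Q (Submodule.span F {a, b, c})) := fun g hg =>
    mem_stab_orth (mem_stab_of_forall_mem fun v hv => by
      obtain ⟨α, β, γ, rfl⟩ := Submodule.mem_span_triple.1 hv
      rw [map_add, map_add, map_smul, map_smul, map_smul]
      exact Submodule.add_mem _ (Submodule.add_mem _
        (Submodule.smul_mem _ _ (hm _ (ha.apply (hS.le hg)) (hcj g hg a h1)))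
        (Submodule.smul_mem _ _ (hm _ (hb.apply (hS.le hg)) (hcj g hg b h3))))
        (Submodule.smul_mem _ _ (hm _ (hc.apply (hS.le hg)) (hcj g hg c h4))))
  have fix : ∀ g ∈ S, g.1 a = a → g.1 b = b → g.1 c = c → g ∈ MU K (Submodule.span F {a, b, c}) :=
    fun g hg e1 e2 e3 => by
      by_contra h5
      obtain ⟨n, hn⟩ := hS.two g hg
      obtain ⟨k, h6, h7, h8⟩ := C.exists_rot ha hb hc hab hac hbc n g (hS.le hg)
        (mem_fixG_span.2 (by rintro _ (rfl | rfl | rfl) <;> assumption)) hn h5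
      exact C.no_rot ha hb hc hab hac hbc h6 h7 h8
  have neg : ∀ g ∈ S, g.1 a = -a → g.1 b = -b → g.1 c = -c → False := fun g hg e1 e2 e3 => by
    obtain ⟨w, h5, h6⟩ := C.root_of_neg (hS.le hg) (C.finrank_three ha hb hc hab hac hbc).ge
      fun v hv => by
        obtain ⟨α, β, γ, rfl⟩ := Submodule.mem_span_triple.1 hv
        rw [map_add, map_add, map_smul, map_smul, map_smul, e1, e2, e3]; module
    exact no4 w h5 h6
  have fix' : ∀ v, Rt K v → tv Q v ∈ S → ∀ g ∈ S, (tv Q v).1 (g.1 a) = a → (tv Q v).1 (g.1 b) = b →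
      (tv Q v).1 (g.1 c) = c → g ∈ MU K (Submodule.span F {a, b, c}) := fun v hv hv' g hg e1 e2 e3 => by
    have := Subgroup.mul_mem _ (hv.mem_MU (hm v hv hv')) (fix _ (S.mul_mem hv' hg) e1 e2 e3)
    rwa [← mul_assoc, tv_mul_self, one_mul] at this
  have diag : ∀ g ∈ S, Par a (g.1 a) → Par b (g.1 b) → Par c (g.1 c) →
      g ∈ MU K (Submodule.span F {a, b, c}) := by
    have t1 := tv_apply_self ha.1
    have t2 := tv_apply_self hb.1
    have t3 := tv_apply_self hc.1
    have t4 := tv_apply_of_orth hab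
    have t5 := tv_apply_of_orth hac
    have t6 := tv_apply_of_orth hbc
    have t7 := tv_apply_of_orth hba
    have t8 := tv_apply_of_orth hca
    have t9 := tv_apply_of_orth hcb
    rintro g hg (e1 | e1) (e2 | e2) (e3 | e3)
    · exact fix g hg e1 e2 e3
    · exact (neg _ (S.mul_mem h4 hg) (by simp [*]) (by simp [*]) (by simp [*])).elim
    · exact (neg _ (S.mul_mem h3 hg) (by simp [*]) (by simp [*]) (by simp [*])).elim
    · exact fix' a ha h1 g hg (by simp [*]) (by simp [*]) (by simp [*])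
    · exact (neg _ (S.mul_mem h1 hg) (by simp [*]) (by simp [*]) (by simp [*])).elim
    · exact fix' b hb h3 g hg (by simp [*]) (by simp [*]) (by simp [*])
    · exact fix' c hc h4 g hg (by simp [*]) (by simp [*]) (by simp [*])
    · exact (neg g hg e1 e2 e3).elim
  obtain ⟨π, hπ⟩ := exists_perm C.h2 (e := ![a, b, c]) (S := S)
    (fun i => by fin_cases i; exacts [ha.1, hb.1, hc.1])
    (fun i j hij => by fin_cases i <;> fin_cases j <;> first | exact absurd rfl hij | assumption)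
    fun g hg i => by
      have h5 : Rt K (![a, b, c] i) ∧ tv Q (![a, b, c] i) ∈ S := by
        fin_cases i; exacts [⟨ha, h1⟩, ⟨hb, h3⟩, ⟨hc, h4⟩]
      rcases h _ (h5.1.apply (hS.le hg)) (hcj g hg _ h5.2) with e | e | e
      exacts [⟨0, e⟩, ⟨1, e⟩, ⟨2, e⟩]
  have cube : ∀ g : S, π g ^ 3 = 1 → g.1 ∈ MU K (Submodule.span F {a, b, c}) := fun g hg => by
    obtain ⟨n, hn⟩ := hS.two g g.2
    have h5 : π g = 1 := eq_one_of_odd (n := n)
      (by rw [← map_pow, ← map_one π]; exact congrArg π (Subtype.ext hn)) hg (by decide)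
    have h6 := hπ g
    rw [h5] at h6
    exact diag g g.2 (h6 0) (h6 1) (h6 2)
  obtain ⟨v, hv, h5, h6⟩ := hS.th (fixG Q (orth Q (Submodule.span F {a, b, c})))
    (fun x hx y hy => by
      rcases perm_three (π ⟨x, hx⟩) (π ⟨y, hy⟩) with e | e | e
      · exact commutator_mem_fixG (cube _ e) (hle hy)
      · rw [← commutatorElement_inv]
        exact Subgroup.inv_mem _ (commutator_mem_fixG (cube _ e) (hle hx))
      · rw [← map_inv, ← map_mul] at e
        have := commutator_mem_fixG (x := x * y⁻¹) (cube _ e) (hle hy)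
        rwa [show ⁅x * y⁻¹, y⁆ = ⁅x, y⁆ by simp only [commutatorElement_def]; group] at this)
    fun v w hv hw h5 h6 d hd => by
      rw [O_mul_apply, tv_apply_of_orth (mem_orth'.1 hd w (hm w hw h6)), map_neg,
        tv_apply_of_orth (mem_orth'.1 hd v (hm v hv h5)), neg_neg]
  have h7 := finrank_orth C.hQ (Submodule.span F {a, b, c})
  rw [C.finrank_three ha hb hc hab hac hbc, C.h5] at h7
  obtain ⟨d, hd, hd0⟩ := Submodule.exists_mem_ne_zero_of_ne_bot
    (p := orth Q (Submodule.span F {a, b, c})) fun e => by rw [e, finrank_bot] at h7; omega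
  have h8 := h6 d hd
  rw [tv_apply_of_orth (mem_orth'.1 hd v (hm v hv h5))] at h8
  exact hd0 (eq_zero_of_two_smul C.h2 (by linear_combination (norm := module) -h8))

omit hS in
theorem elim : False := by
  obtain ⟨S, hS⟩ := C.exists_syl
  obtain ⟨a, b, ha, hb, h1, h3, hp⟩ := hS.zs
  refine C.not_two hS ha hb h1 h3 hp fun c hc h4 => ?_
  by_contra h
  push Not at h
  exact C.not_three hS ha hb hc h1 h3 h4 (C.orth_of_mem hS ha hb h1 h3 hp)
    (C.orth_of_mem hS ha hc h1 h4 h.1) (C.orth_of_mem hS hb hc h3 h4 h.2)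

end RC

end R

open QuadraticMap

theorem no_root {F V : Type*} [Field F] [Finite F] [AddCommGroup V] [Module F V]
    [FiniteDimensional F V] {Q : QuadraticForm F V}
    (hQ : (polarBilin Q).Nondegenerate) (h5 : Module.finrank F V = 5) (h2 : (2:F) ≠ 0)
    (K : Subgroup (Orth.O Q)) [IsSimpleGroup K] (hna : ¬ IsMulCommutative K)
    (hirr : ∀ U : Submodule F V, (∀ g ∈ K, ∀ v ∈ U, g.1 v ∈ U) → U = ⊥ ∨ U = ⊤)
    (hΩ : ∀ v, Q v ≠ 0 → ∀ t ∈ K, (∀ x, t.1 x = - (Orth.refl Q v).1 x) → IsSquare (Q v))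
    (H0 : ∀ e w, Q w = 0 → Orth.eich Q e w ∈ K → Orth.eich Q e w = 1)
    (H1 : ∀ e w w', Orth.eich Q e w ∈ K → Orth.eich Q e w ≠ 1 → Orth.eich Q e w' ∈ K →
      (3:F) = 0 ∧ (Orth.eich Q e w' = 1 ∨ Orth.eich Q e w' = Orth.eich Q e w ∨
        Orth.eich Q e w' = (Orth.eich Q e w)⁻¹))
    {a : V} (ha : Q a ≠ 0) {t : Orth.O Q} (ht : t ∈ K)
    (hta : ∀ x, t.1 x = - (Orth.refl Q a).1 x) : False := by
  obtain ⟨r, hr⟩ := hΩ a ha t ht hta
  have hr0 : r ≠ 0 := by rintro rfl; exact ha (by rw [hr, mul_zero])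
  refine R.RC.elim (K := K) ⟨hQ, h5, h2, inferInstance, hna, hirr,
    fun v hv h => hΩ v hv _ h fun _ => rfl, H0, H1, r⁻¹ • a, ?_, ?_⟩
  · rw [Orth.Q_smul, hr]; field_simp
  · rwa [R.tv_smul (inv_ne_zero hr0), show R.tv Q a = t from Orth.O_ext fun x => (hta x).symm]

end Cfsg.Lib.Class.Sp4O
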