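import Cfsg.Agent.Class.Sp4O.Frame
import Cfsg.Agent.Class.Tens.SpO
import Cfsg.Agent.Class.SpCore

/-! A quasisimple absolutely irreducible subgroup of `Sp₄(F)` with a transvection is `Sp₄(F)`. -/

set_option autoImplicit false

namespace Cfsg.Lib.Class.Sp4O

open Matrix Module Cfsg.Geo Cfsg.Lib.Class.Asch Cfsg.Lib.Mit
open scoped MatrixGroups

variable {F : Type*} [Field F]

local notation "ω" => sympForm 2 F

namespace T1

/-- the rank one map `v ↦ ω(v, b) a`. -/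
def th (a b : I → F) : M4 F := vecMulVec a (J (Fin 2) F *ᵥ b)

theorem th_mulVec (a b v : I → F) : th a b *ᵥ v = ω v b • a := by
  rw [th, vecMulVec_mulVec, sympForm, dotProduct_comm]; simp

theorem mat_ext {A B : M4 F} (h : ∀ v, A *ᵥ v = B *ᵥ v) : A = B :=
  Matrix.ext_of_mulVec_single fun _ => h _

theorem mul_th (M : M4 F) (a b : I → F) : M * th a b = th (M *ᵥ a) b :=
  mat_ext fun v => by rw [← mulVec_mulVec, th_mulVec, th_mulVec, mulVec_smul]

theorem th_smul_left (c : F) (a b : I → F) : th (c • a) b = c • th a b :=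
  mat_ext fun v => by rw [smul_mulVec, th_mulVec, th_mulVec, smul_comm]

theorem th_smul_right (c : F) (a b : I → F) : th a (c • b) = c • th a b :=
  mat_ext fun v => by rw [smul_mulVec, th_mulVec, th_mulVec, form_smul_right, mul_smul]

theorem th_add_left (a a' b : I → F) : th (a + a') b = th a b + th a' b :=
  mat_ext fun v => by simp [add_mulVec, th_mulVec]

theorem th_add_right (a b b' : I → F) : th a (b + b') = th a b + th a b' :=
  mat_ext fun v => by simp [add_mulVec, th_mulVec, form_add_right, add_smul]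

theorem th_sub_left (a a' b : I → F) : th (a - a') b = th a b - th a' b :=
  mat_ext fun v => by simp [sub_mulVec, th_mulVec, smul_sub]

theorem th_sub_right (a b b' : I → F) : th a (b - b') = th a b - th a b' :=
  mat_ext fun v => by simp [sub_mulVec, th_mulVec, form_sub_right, sub_smul]

theorem th_mul_th (a b c d : I → F) : th a b * th c d = ω c b • th a d := by
  rw [mul_th, th_mulVec, th_smul_left]

theorem trace_th (a b : I → F) : (th a b).trace = ω a b := trace_vecMulVec _ _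

theorem form_self (u : I → F) : ω u u = 0 := sympForm_self 2 u

theorem form_skew (u v : I → F) : ω u v = -ω v u := sympForm_skew 2 u v

theorem sp_form {g : G4 F} (hg : g ∈ spGL 2 F) (u v : I → F) : ω (g.1 *ᵥ u) (g.1 *ᵥ v) = ω u v :=
  (mem_spGL 2 g).1 hg u v

theorem conj_th {g : G4 F} (hg : g ∈ spGL 2 F) (a b : I → F) :
    g.1 * th a b * (g⁻¹).1 = th (g.1 *ᵥ a) (g.1 *ᵥ b) :=
  mat_ext fun v => by
    rw [mul_th, ← mulVec_mulVec, th_mulVec, th_mulVec, ← sp_form hg, mulVec_inv_cancel]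

/-- the transvection `v ↦ v + c ω(v, x) x`. -/
def tU (x : I → F) (c : F) : G4 F :=
  ⟨1 + c • th x x, 1 - c • th x x, by simp [add_mul, mul_sub, th_mul_th, form_self],
    by simp [mul_add, sub_mul, th_mul_th, form_self]⟩

theorem coe_tU (x : I → F) (c : F) : (tU x c).1 = 1 + c • th x x := rfl

theorem tU_mulVec (x : I → F) (c : F) (v : I → F) : (tU x c).1 *ᵥ v = v + (c * ω v x) • x := by
  rw [coe_tU, add_mulVec, one_mulVec, smul_mulVec, th_mulVec, smul_smul]

theorem tU_add (x : I → F) (c d : F) : tU x (c + d) = tU x c * tU x d :=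
  Units.ext (by simp [coe_tU, add_mul, mul_add, th_mul_th, form_self, add_smul]; abel)

theorem tU_neg (x : I → F) (c : F) : tU x (-c) = (tU x c)⁻¹ :=
  Units.ext (by rw [coe_tU, neg_smul, ← sub_eq_add_neg]; rfl)

theorem tU_smul (a : F) (x : I → F) (c : F) : tU (a • x) c = tU x (c * a * a) :=
  Units.ext (by rw [coe_tU, coe_tU, th_smul_left, th_smul_right, smul_smul, smul_smul])

theorem tU_conj {g : G4 F} (hg : g ∈ spGL 2 F) (x : I → F) (c : F) :
    g * tU x c * g⁻¹ = tU (g.1 *ᵥ x) c :=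
  Units.ext (by simp [coe_tU, mul_add, add_mul, ← conj_th hg])

theorem exists_form_ne {x : I → F} (hx : x ≠ 0) : ∃ v, ω v x ≠ 0 := by
  by_contra! h
  exact hx (eq_zero_of_sympForm 2 x fun v => form_comm0 (h v))

theorem tU_not_scalar {x : I → F} {c : F} (hx : x ≠ 0) (hc : c ≠ 0) : tU x c ∉ scalars I F := by
  rw [mem_scalars_iff']
  rintro ⟨d, e⟩
  have h := fun v => (tU_mulVec x c v).symm.trans (by rw [e, smul_mulVec, one_mulVec])
  have h1 := h x
  rw [form_self, mul_zero, zero_smul, add_zero] at h1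
  obtain rfl : 1 = d := smul_left_injective F hx (by simpa using h1)
  obtain ⟨v, hv⟩ := exists_form_ne hx
  simpa [hx, hc, hv] using h v

theorem exists_tU {t : G4 F} (ht : t ∈ spGL 2 F) (ht1 : t ≠ 1) {v w : I → F}
    (htv : t.1 = 1 + vecMulVec v w) : v ≠ 0 ∧ ∃ c, c ≠ 0 ∧ t = tU v c := by
  have hv : v ≠ 0 := by rintro rfl; exact ht1 (Units.ext (by simpa using htv))
  obtain ⟨b, hb⟩ := exists_form_ne hv
  have h1 : ∀ a, t.1 *ᵥ a = a + (w ⬝ᵥ a) • v := fun a => by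
    rw [htv, add_mulVec, one_mulVec, vecMulVec_mulVec]; simp
  have h2 : t = tU v (w ⬝ᵥ b / ω b v) := Units.ext (mat_ext fun a => by
    have := sp_form ht a b
    rw [h1, h1, form_add_left, form_add_right, form_add_right, form_smul_left, form_smul_right,
      form_smul_right, form_smul_left, form_self, form_skew v b] at this
    rw [h1, tU_mulVec]
    congr 2
    field_simp
    linear_combination -this)
  exact ⟨hv, _, fun e => ht1 (by rw [h2, e]; exact Units.ext (by simp [coe_tU])), h2⟩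

/-- `SL₂` on the plane spanned by a hyperbolic pair. -/
def eM (x y : I → F) (h : ω x y = 1) : SL(2, F) →* M4 F where
  toFun γ :=
    1 + (γ.1 0 0 - 1) • th x y - γ.1 0 1 • th x x + γ.1 1 0 • th y y - (γ.1 1 1 - 1) • th y x
  map_one' := by simp
  map_mul' γ δ := by
    have e : ∀ i j, (γ * δ).1 i j = γ.1 i 0 * δ.1 0 j + γ.1 i 1 * δ.1 1 j := fun i j =>
      (Matrix.mul_apply (M := γ.1) (N := δ.1)).trans (Fin.sum_univ_two _)
    simp only [mul_add, add_mul, mul_sub, sub_mul, Matrix.mul_one, Matrix.one_mul,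
      Matrix.mul_smul, Matrix.smul_mul, th_mul_th, form_self, form_skew y x, h, e]
    module

/-- minus one on the plane spanned by `x, y`. -/
def IsZ (x y : I → F) (z : G4 F) : Prop :=
  ∀ v, z.1 *ᵥ v = v - (2 / ω x y) • (ω v y • x - ω v x • y)

variable {P : Subgroup (G4 F)}

theorem pair' [Finite F] (h2 : (2 : F) ≠ 0) {x y : I → F} (h : ω x y ≠ 0) {c d : F} (hc : c ≠ 0)
    (hd : d ≠ 0) (hx : tU x c ∈ P) (hy : tU y d ∈ P) : ∃ K : Subfield F,
      (∀ l, tU x (l * c) ∈ P ↔ l ∈ K) ∧ (c * d * ω x y ^ 2 ∈ K ∨ ((3 : F) = 0 ∧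
        (c * d * ω x y ^ 2) ^ 2 = -1 ∧ ∀ l ∈ K, l = 0 ∨ l = 1 ∨ l = -1)) ∧ ∃ z ∈ P, IsZ x y z := by
  have h1 : ω x ((ω x y)⁻¹ • y) = 1 := by rw [form_smul_right, inv_mul_cancel₀ h]
  let E := (eM x _ h1).toHomUnits
  have eU : ∀ s, E (slU s) = tU x (-s) := fun s => Units.ext (by simp [E, eM, coe_tU, sub_eq_add_neg])
  have eV : ∀ s, E (slV s) = tU ((ω x y)⁻¹ • y) s := fun s => Units.ext (by simp [E, eM, coe_tU])
  obtain ⟨K, k1, -, k2, k3⟩ := pair (P.comap E) (s := -c) (r := d * ω x y ^ 2) (neg_ne_zero.2 hc)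
    (mul_ne_zero hd (pow_ne_zero 2 h)) (by rwa [Subgroup.mem_comap, eU, neg_neg]) (by
      rw [Subgroup.mem_comap, eV, tU_smul]
      convert hy using 2
      field_simp) ⟨2, h2, fun e => one_ne_zero (by linear_combination e : (1 : F) = 0), by
      rw [Subgroup.mem_comap, eU, show -(2 * -c) = c + c by ring, tU_add]
      exact mul_mem hx hx⟩
  refine ⟨K, fun l => by rw [← k1, Subgroup.mem_comap, eU]; simp, k2.imp (fun e => ?_) fun e =>
    ⟨e.1, by rw [← e.2.1]; ring, e.2.2⟩, _, k3 (-1) (neg_mem (one_mem K)) (by simp), fun v => ?_⟩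
  · convert neg_mem e using 1; ring
  · simp only [E, eM, MonoidHom.coe_toHomUnits, MonoidHom.coe_mk, OneHom.coe_mk, sl2_coe,
      add_mulVec, sub_mulVec, smul_mulVec, one_mulVec, th_mulVec, form_smul_right]
    simp [div_eq_mul_inv]
    module

theorem gen (h : St P) {x : I → F} {c : F} (hx : x ≠ 0) (hc : c ≠ 0) (ht : tU x c ∈ P)
    {p : M4 F → Prop} (h1 : p 1) (hm : ∀ A B, p A → p B → p (A * B))
    (hp : ∀ g ∈ P, p (tU (g.1 *ᵥ x) c).1 ∧ p (tU (g.1 *ᵥ x) (-c)).1) : ∀ g ∈ P, p g.1 := by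
  let N : Subgroup (G4 F) :=
    { carrier := {g | g ∈ P ∧ ∀ k ∈ P, p (k * g * k⁻¹).1 ∧ p (k * g⁻¹ * k⁻¹).1}
      one_mem' := ⟨one_mem _, by simpa using fun _ _ => h1⟩
      mul_mem' := fun {a b} ha hb => ⟨mul_mem ha.1 hb.1, fun k hk => ⟨by
        convert hm _ _ (ha.2 k hk).1 (hb.2 k hk).1 using 1
        rw [← Units.val_mul]; congr 1; group, by
        convert hm _ _ (hb.2 k hk).2 (ha.2 k hk).2 using 1
        rw [← Units.val_mul]; congr 1; group⟩⟩
      inv_mem' := fun {a} ha => ⟨inv_mem ha.1, fun k hk => by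
        rw [inv_inv]; exact (ha.2 k hk).symm⟩ }
  have : N = P := h.eq_of_normal (fun g hg => hg.1) (fun k hk g hg =>
    ⟨mul_mem (mul_mem hk hg.1) (inv_mem hk), fun l hl => by
      convert hg.2 _ (mul_mem hl hk) using 3 <;> group⟩) fun e => tU_not_scalar hx hc (e ⟨ht,
        fun k hk => by rw [← tU_neg, tU_conj (h.le hk), tU_conj (h.le hk)]; exact hp k hk⟩)
  exact fun g hg => by simpa using ((this.ge hg).2 1 (one_mem _)).1

/-- the vectors orthogonal to a set. -/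
def perp (S : Set (I → F)) : Submodule F (I → F) where
  carrier := {a | ∀ w ∈ S, ω a w = 0}
  zero_mem' := fun w _ => by simp [sympForm]
  add_mem' ha hb w hw := by rw [form_add_left, ha w hw, hb w hw, add_zero]
  smul_mem' c a ha w hw := by rw [form_smul_left, ha w hw, mul_zero]

theorem perp_irr (h : St P) {x : I → F} {c : F} (hx : x ≠ 0) (hc : c ≠ 0) (ht : tU x c ∈ P)
    {S : Set (I → F)} {s a : I → F} (hs : s ∈ S) (s0 : s ≠ 0) (ha : a ∈ perp S) (a0 : a ≠ 0) :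
    ∃ g ∈ P, g.1 *ᵥ x ∉ perp S ∧ ∃ b ∈ perp S, ω b (g.1 *ᵥ x) ≠ 0 := by
  by_contra! h1
  have k : ∀ g ∈ P, ∀ d, ∀ v ∈ perp S, (tU (g.1 *ᵥ x) d).1 *ᵥ v ∈ perp S := fun g hg d v hv => by
    rw [tU_mulVec]
    by_cases e : g.1 *ᵥ x ∈ perp S
    · exact add_mem hv (Submodule.smul_mem _ _ e)
    · simpa [h1 g hg e v hv] using hv
  rcases irr_of_env_eq_top h.env_top (perp S) (gen h hx hc ht
    (p := fun M => ∀ v ∈ perp S, M *ᵥ v ∈ perp S) (by simp)
    (fun A B a b v hv => mulVec_mulVec v A B ▸ a _ (b v hv))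
    fun g hg => ⟨k g hg _, k g hg _⟩) with e | e
  · exact a0 (by simpa [e] using ha)
  · obtain ⟨v, hv⟩ := exists_form_ne s0
    exact hv (e.ge (Submodule.mem_top (x := v)) s hs)

theorem exists_ne (h : St P) {x u : I → F} (hx : x ≠ 0) (hu : u ≠ 0) :
    ∃ g ∈ P, ω u (g.1 *ᵥ x) ≠ 0 := by
  by_contra! h1
  rcases irr_of_env_eq_top h.env_top (perp {w | ∃ g ∈ P, g.1 *ᵥ x = w}) (by
    rintro k hk v hv _ ⟨g, hg, rfl⟩
    rw [← mulVec_inv_cancel k (g.1 *ᵥ x), sp_form (h.le hk)]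
    exact hv _ ⟨k⁻¹ * g, mul_mem (inv_mem hk) hg, by simp⟩) with e | e
  · exact hu (e.le (show u ∈ perp _ by rintro _ ⟨g, hg, rfl⟩; exact h1 g hg))
  · obtain ⟨v, hv⟩ := exists_form_ne hx
    exact hv (e.ge (Submodule.mem_top (x := v)) x ⟨1, one_mem _, by simp⟩)

theorem tU_orb (h : St P) {x : I → F} {g : G4 F} (hg : g ∈ P) {c : F} :
    tU (g.1 *ᵥ x) c ∈ P ↔ tU x c ∈ P := by
  rw [← tU_conj (h.le hg), mul_mem_cancel_right (inv_mem hg), mul_mem_cancel_left hg]

/-- the long root elements with centre `r`. -/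
def qU (κ : F) (m r : I → F) : M4 F := 1 + κ • (th m r + th r m)

theorem exc (hP : P ≤ spGL 2 F) (h3 : (3 : F) = 0) {x y r n : I → F} {c κ : F} (hκ : κ ≠ 0)
    (hx : tU x c ∈ P) (hy : tU y c ∈ P) (xr : ω x r = 0) (yr : ω y r = 0)
    (hj : (c * c * ω x y ^ 2) ^ 2 = -1) (hn : ∃ q ∈ P, q.1 = qU κ n r) (nr : ω n r = 0)
    (nx : ω n x ≠ 0) (hB : ∀ β β', β ≠ 0 → tU r β ∈ P → tU r β' ∈ P → β' = 0 ∨ β' = β ∨ β' = -β) :
    False := by
  have h2 : (2 : F) ≠ 0 := fun e => one_ne_zero (by linear_combination h3 - e : (1 : F) = 0)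
  have k1 : ∀ {z d m}, tU z d ∈ P → ω z r = 0 → (∃ q ∈ P, q.1 = qU κ m r) →
      ∃ q ∈ P, q.1 = qU κ (m + (d * ω m z) • z) r := by
    rintro z d m hz zr ⟨q, hq, e⟩
    refine ⟨_, mul_mem (mul_mem hz hq) (inv_mem hz), ?_⟩
    have : (tU z d).1 *ᵥ r = r := by rw [tU_mulVec, form_comm0 zr]; simp
    rw [Units.val_mul, Units.val_mul, e, qU, qU, ← tU_mulVec, ← this, ← conj_th (hP hz),
      ← conj_th (hP hz), this]
    simp [mul_add, add_mul]
  have k2 : ∀ {z m}, tU z c ∈ P → ω z r = 0 → ω m r = 0 → (∃ q ∈ P, q.1 = qU κ m r) →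
      tU r (2 * κ * κ * c * ω m z ^ 2) ∈ P := by
    intro z m hz zr mr hm
    obtain ⟨q', hq', e'⟩ := k1 hz zr hm
    obtain ⟨q, hq, e⟩ := hm
    have : tU r (2 * κ * κ * c * ω m z ^ 2) * (q * q') = q' * q := Units.ext (by
      simp only [Units.val_mul, e, e', qU, coe_tU, th_add_left, th_add_right, th_smul_left,
        th_smul_right, mul_add, add_mul, Matrix.mul_one, Matrix.one_mul, Matrix.mul_smul,
        Matrix.smul_mul, th_mul_th, form_self, form_skew z m, zr, mr, form_comm0 zr, form_comm0 mr]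
      module)
    rw [eq_mul_inv_of_mul_eq this]
    exact mul_mem (mul_mem hq' hq) (inv_mem (mul_mem hq hq'))
  have a1 := k2 hx xr nr hn
  have a2 := k2 hy yr nr hn
  have k3 : ∀ d, ω (n + (d * ω n x) • x) r = 0 := fun d => by
    rw [form_add_left, form_smul_left, nr, xr]; simp
  have a3 := k2 hy yr (k3 c) (k1 hx xr hn)
  have a4 := k2 hy yr (k3 (-c)) (k1 (tU_neg x c ▸ inv_mem hx) xr hn)
  have c0 : c ≠ 0 := by rintro rfl; simp at hj
  have a5 := mul_mem (mul_mem a3 a4) (inv_mem (mul_mem a2 a2))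
  rw [← tU_add, ← tU_add, ← tU_neg, ← tU_add] at a5
  have b0 : 2 * κ * κ * c * ω n x ^ 2 ≠ 0 := by simp [h2, hκ, c0, nx]
  simp only [form_add_left, form_smul_left] at a5
  have a6 : ∀ ε : F, ε * ε * ε = ε → 2 * κ * κ * c * ω n x ^ 2 * (2 * (c * c * ω x y ^ 2)) ≠
      2 * κ * κ * c * ω n x ^ 2 * ε := fun ε e1 e2 => by
    have e3 := mul_left_cancel₀ b0 e2
    have e4 : ε * ε = -1 := by rw [← e3]; linear_combination 4 * hj - h3
    rw [e4] at e1
    have e5 : ε = 0 := mul_left_cancel₀ h2 (by linear_combination -e1)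
    simp [e5] at e4
  rcases hB _ _ b0 a1 a5 with e | e | e
  · exact a6 0 (by simp) (by linear_combination e)
  · exact a6 1 (by simp) (by linear_combination e)
  · exact a6 (-1) (by simp) (by linear_combination e)

theorem no_exc (h : St P) (h3 : (3 : F) = 0) {x₀ : I → F} {c : F} (h0 : x₀ ≠ 0) (hc : c ≠ 0)
    (ht : tU x₀ c ∈ P) {x y : I → F} (hx : tU x c ∈ P) (hy : tU y c ∈ P)
    (hj : (c * c * ω x y ^ 2) ^ 2 = -1) {z : G4 F} (hz : z ∈ P) (hz' : IsZ x y z)
    (hB : ∀ r β β', r ≠ 0 → β ≠ 0 → tU r β ∈ P → tU r β' ∈ P → β' = 0 ∨ β' = β ∨ β' = -β) :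
    False := by
  have h2 : (2 : F) ≠ 0 := fun e => one_ne_zero (by linear_combination h3 - e : (1 : F) = 0)
  have φ : ω x y ≠ 0 := fun e => by simp [e] at hj
  obtain ⟨a, a0, a1, a2⟩ := Tn.finrank_ker_two' (F := F) (W := I → F) (by simp)
    ((sympBilin 2 F).flip x) ((sympBilin 2 F).flip y)
  obtain ⟨g, hg, g1, b, hb, g2⟩ := perp_irr h h0 hc ht (S := {x, y}) (s := x) (by simp)
    (by rintro rfl; simp [sympForm] at φ) (a := a) (by
      rintro _ (rfl | rfl)
      exacts [by simpa using a1, by simpa using a2]) a0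
  have hw := (tU_orb h hg).2 ht
  set w := g.1 *ᵥ x₀
  set n := (ω x y)⁻¹ • (ω w y • x - ω w x • y) with hn
  have nx : ω n x = ω w x := by
    rw [hn, form_smul_left, form_sub_left, form_smul_left, form_smul_left, form_self,
      form_skew y x]
    field_simp; ring
  have ny : ω n y = ω w y := by
    rw [hn, form_smul_left, form_sub_left, form_smul_left, form_smul_left, form_self]
    field_simp; ring
  obtain ⟨r, hr⟩ : ∃ r, w = n + r := ⟨w - n, by abel⟩
  have xr : ω x r = 0 := form_comm0 (by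
    rw [eq_sub_of_add_eq' hr.symm, form_sub_left, nx, sub_self])
  have yr : ω y r = 0 := form_comm0 (by
    rw [eq_sub_of_add_eq' hr.symm, form_sub_left, ny, sub_self])
  have nr : ω n r = 0 := by
    rw [hn, form_smul_left, form_sub_left, form_smul_left, form_smul_left, xr, yr]; simp
  have r0 : r ≠ 0 := by
    rintro rfl
    rw [hr, add_zero, hn, form_smul_right, form_sub_right, form_smul_right, form_smul_right,
      hb x (by simp), hb y (by simp)] at g2
    simp at g2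
  have hw' := (tU_orb h hz).2 hw
  rw [hz', show w - (2 / ω x y) • (ω w y • x - ω w x • y) = (-1 : F) • (n - r) by
    rw [div_eq_mul_inv, mul_smul, ← hn, hr]; module, tU_smul, show c * -1 * -1 = c by ring] at hw'
  have hq : ∃ q ∈ P, q.1 = qU (2 * c) n r := ⟨_, mul_mem hw (inv_mem hw'), by
    rw [← tU_neg, hr]
    simp only [Units.val_mul, qU, coe_tU, th_add_left, th_add_right, th_sub_left, th_sub_right,
      mul_add, add_mul, mul_sub, Matrix.mul_one, Matrix.one_mul, Matrix.mul_smul,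
      Matrix.smul_mul, th_mul_th, form_self, nr, form_comm0 nr]
    module⟩
  by_cases e : ω w x = 0
  · refine exc h.le h3 (mul_ne_zero h2 hc) hy hx yr xr (by rwa [form_skew, neg_sq]) hq nr
      (fun e' => g1 ?_) fun β β' => hB r β β' r0
    rintro _ (rfl | rfl)
    exacts [e, ny ▸ e']
  · exact exc h.le h3 (mul_ne_zero h2 hc) hx hy xr yr hj hq nr (nx ▸ e) fun β β' => hB r β β' r0

/-- a centre all of whose conjugate pairs are defined over the field of the centre. -/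
theorem exists_good [Finite F] (h2 : (2 : F) ≠ 0) (h : St P) {x : I → F} {c : F} (hx : x ≠ 0)
    (hc : c ≠ 0) (ht : tU x c ∈ P) : ∃ (x : I → F) (c : F) (K : Subfield F), x ≠ 0 ∧ c ≠ 0 ∧
      (∀ l, tU x (l * c) ∈ P ↔ l ∈ K) ∧
        ∀ g ∈ P, ∀ k ∈ P, c * c * ω (g.1 *ᵥ x) (k.1 *ᵥ x) ^ 2 ∈ K := by
  have key : ∀ {x : I → F} {c : F}, x ≠ 0 → c ≠ 0 → tU x c ∈ P →
      (∀ g ∈ P, ∀ k ∈ P, (3 : F) = 0 → (c * c * ω (g.1 *ᵥ x) (k.1 *ᵥ x) ^ 2) ^ 2 = -1 →
        (∀ l, tU x (l * c) ∈ P → l = 0 ∨ l = 1 ∨ l = -1) →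
          (∃ z ∈ P, IsZ (g.1 *ᵥ x) (k.1 *ᵥ x) z) → False) →
      ∃ (x : I → F) (c : F) (K : Subfield F), x ≠ 0 ∧ c ≠ 0 ∧ (∀ l, tU x (l * c) ∈ P ↔ l ∈ K) ∧
        ∀ g ∈ P, ∀ k ∈ P, c * c * ω (g.1 *ᵥ x) (k.1 *ᵥ x) ^ 2 ∈ K := fun {x c} hx hc ht H => by
    obtain ⟨g, hg, e⟩ := exists_ne h hx hx
    obtain ⟨K, k1, -⟩ := pair' h2 e hc hc ht ((tU_orb h hg).2 ht)
    refine ⟨x, c, K, hx, hc, k1, fun g hg k hk => ?_⟩
    by_cases e : ω (g.1 *ᵥ x) (k.1 *ᵥ x) = 0
    · simp [e]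
    obtain ⟨K', k2, k3, k4⟩ := pair' h2 e hc hc ((tU_orb h hg).2 ht) ((tU_orb h hk).2 ht)
    simp only [tU_orb h hg] at k2
    rcases k3 with k3 | k3
    · exact (k1 _).1 ((k2 _).2 k3)
    · exact (H g hg k hk k3.1 k3.2.1 (fun l hl => k3.2.2 l ((k2 l).1 hl)) k4).elim
  by_cases H : (3 : F) = 0 ∧ ∀ r β β', r ≠ 0 → β ≠ 0 → tU r β ∈ P → tU r β' ∈ P →
      β' = 0 ∨ β' = β ∨ β' = -β
  · exact key hx hc ht fun g hg k hk h3 hj _ ⟨z, hz, hz'⟩ =>
      no_exc h h3 hx hc ht ((tU_orb h hg).2 ht) ((tU_orb h hk).2 ht) hj hz hz' H.2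
  by_cases h3 : (3 : F) = 0
  · push Not at H
    obtain ⟨r, β, β', r0, b0, b1, b2, b3⟩ := H h3
    refine key r0 b0 b1 fun _ _ _ _ _ _ e _ => ?_
    rcases e (β' / β) (by rwa [div_mul_cancel₀ _ b0]) with e | e | e <;> field_simp at e
    exacts [b3.1 (by simpa using e), b3.2.1 e, b3.2.2 e]
  · exact key hx hc ht fun _ _ _ _ e => (h3 e).elim

theorem field_top (h2 : (2 : F) ≠ 0) (h : St P) {x : I → F} {c : F} {K : Subfield F} (hx : x ≠ 0)
    (hc : c ≠ 0) (ht : tU x c ∈ P)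
    (hK : ∀ g ∈ P, ∀ k ∈ P, c * c * ω (g.1 *ᵥ x) (k.1 *ᵥ x) ^ 2 ∈ K) : K = ⊤ := by
  let X : Set (I → F) := {y | ∃ g ∈ P, g.1 *ᵥ x = y}
  replace hK : ∀ y ∈ X, ∀ z ∈ X, c * c * ω y z ^ 2 ∈ K := by
    rintro _ ⟨g, hg, rfl⟩ _ ⟨k, hk, rfl⟩; exact hK g hg k hk
  have hX : ∀ y ∈ X, ∀ z ∈ X, y + (c * ω y z) • z ∈ X := by
    rintro _ ⟨g, hg, rfl⟩ _ ⟨k, hk, rfl⟩
    exact ⟨_, mul_mem ((tU_orb h hk).2 ht) hg, by rw [Units.val_mul, ← mulVec_mulVec, tU_mulVec]⟩
  let S := AddSubgroup.closure {M : M4 F | ∃ k ∈ K, M = k • 1 ∨ ∃ y ∈ X, M = (k * c) • th y y ∨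
    ∃ z ∈ X, M = (k * c * c * ω z y) • th y z}
  have m0 : ∀ k ∈ K, k • (1 : M4 F) ∈ S := fun k hk =>
    AddSubgroup.subset_closure ⟨k, hk, .inl rfl⟩
  have m1 : ∀ k ∈ K, ∀ y ∈ X, (k * c) • th y y ∈ S := fun k hk y hy =>
    AddSubgroup.subset_closure ⟨k, hk, .inr ⟨y, hy, .inl rfl⟩⟩
  have m2 : ∀ k ∈ K, ∀ y ∈ X, ∀ z ∈ X, (k * c * c * ω z y) • th y z ∈ S := fun k hk y hy z hz =>
    AddSubgroup.subset_closure ⟨k, hk, .inr ⟨y, hy, .inr ⟨z, hz, rfl⟩⟩⟩
  have mul : ∀ u ∈ X, ∀ A ∈ S, c • th u u * A ∈ S := fun u hu A hA => by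
    refine AddSubgroup.closure_induction (p := fun A _ => c • th u u * A ∈ S) ?_ (by simp)
      (fun A B _ _ a b => by rw [mul_add]; exact add_mem a b)
      (fun A _ a => by rw [mul_neg]; exact neg_mem a) hA
    rintro _ ⟨k, hk, rfl | ⟨y, hy, rfl | ⟨z, hz, rfl⟩⟩⟩
    · convert m1 k hk u hu using 1
      simp [smul_smul]
    · convert m2 k hk u hu y hy using 1
      simp only [Matrix.smul_mul, Matrix.mul_smul, th_mul_th]; module
    by_cases e : ω z u = 0
    · convert sub_mem (m2 _ (mul_mem hk (hK u hu y hy)) y hy z hz) (m2 k hk _ (hX u hu y hy) z hz)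
        using 1
      simp only [Matrix.smul_mul, Matrix.mul_smul, th_mul_th, th_add_left, th_smul_left,
        form_add_right, form_smul_right, e, form_skew y u]
      module
    · have h4 : c * c * c * ω u y * ω y z * ω u z ∈ K := by
        have := div_mem (sub_mem (sub_mem (hK _ (hX u hu y hy) z hz) (hK u hu z hz))
          (mul_mem (hK u hu y hy) (hK y hy z hz))) (add_mem (one_mem K) (one_mem K))
        convert this using 1
        rw [form_add_left, form_smul_left, one_add_one_eq_two]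
        field_simp; ring
      convert m2 _ (mul_mem hk (div_mem (neg_mem h4) (hK z hz u hu))) u hu z hz using 1
      simp only [Matrix.smul_mul, Matrix.mul_smul, th_mul_th, smul_smul, form_skew y u,
        form_skew y z, form_skew u z]
      congr 1
      field_simp
  have k : ∀ g ∈ P, ∀ A ∈ S, g.1 * A ∈ S := gen h hx hc ht (p := fun M => ∀ A ∈ S, M * A ∈ S)
    (by simp) (fun A B a b C hC => Matrix.mul_assoc A B C ▸ a _ (b C hC)) fun g hg =>
      ⟨fun A hA => by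
        rw [coe_tU, add_mul, one_mul]; exact add_mem hA (mul _ ⟨g, hg, rfl⟩ A hA), fun A hA => by
        rw [coe_tU, add_mul, one_mul, neg_smul, neg_mul]
        exact add_mem hA (neg_mem (mul _ ⟨g, hg, rfl⟩ A hA))⟩
  refine h.tr K fun g hg => ?_
  have := k g hg _ (m0 1 (one_mem K))
  rw [one_smul, mul_one] at this
  refine AddSubgroup.closure_induction (p := fun A _ => A.trace ∈ K) ?_ (by simp)
    (fun A B _ _ a b => by rw [trace_add]; exact add_mem a b)
    (fun A _ a => by rw [trace_neg]; exact neg_mem a) this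
  rintro _ ⟨k, hk, rfl | ⟨y, hy, rfl | ⟨z, hz, rfl⟩⟩⟩
  · rw [trace_smul, trace_one]; exact mul_mem hk (natCast_mem K _)
  · simp [trace_th, form_self]
  · convert neg_mem (mul_mem hk (hK y hy z hz)) using 1
    rw [trace_smul, trace_th, form_skew z y, smul_eq_mul]; ring

end T1

open T1

/-- A transvection in `P` forces `P = Sp₄(F)`. -/
theorem t1 [Finite F] (h2 : (2 : F) ≠ 0) {P : Subgroup (G4 F)} (h : St P) {t : G4 F} (ht : t ∈ P)
    (ht1 : t ≠ 1) {v w : I → F} (htv : t.1 = 1 + Matrix.vecMulVec v w) : spGL 2 F ≤ P := by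
  obtain ⟨hv, c, hc, rfl⟩ := exists_tU (h.le ht) ht1 htv
  obtain ⟨x, c, K, hx, hc, k1, k2⟩ := exists_good h2 h hv hc ht
  have ht := (k1 1).2 (one_mem K)
  rw [one_mul] at ht
  obtain rfl := field_top h2 h hx hc ht k2
  have hA := sympBilin_isAlt (F := F) 2
  let X := P.map (glLin I F).toMonoidHom
  have hT : ∀ g ∈ P, g.1 *ᵥ x ∈ TSet hA X := fun g hg d =>
    ⟨_, (tU_orb h hg).2 ((k1 (d / c)).2 trivial), LinearEquiv.ext fun u => by
      rw [altTEquiv_apply', div_mul_cancel₀ _ hc, sympBilin_apply]; exact tU_mulVec _ _ _⟩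
  have := Tn.le_of_TSet_conn (X := X) (β := sympBilin 2 F) ⟨fun _ => rfl, by simp,
    fun u v => by simpa using form_skew u v, fun u e => eq_zero_of_sympForm 2 u (by simpa using e),
    fun u => ⟨0, by simp [form_self]⟩⟩ h2 hA fun u v hu hv => ?_
  · intro g hg
    obtain ⟨k, hk, e⟩ := this ((glLin_mem_SpB_iff 2 g).2 hg)
    exact (glLin I F).injective e ▸ hk
  by_contra! H
  simp only [sympBilin_apply] at H
  obtain ⟨g, hg, e⟩ := exists_ne h hx hu
  obtain ⟨k, hk, e'⟩ := exists_ne h hx hv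
  have nz : ∀ {a b : I → F}, ω a b ≠ 0 → b ≠ 0 := fun e b => e (by simp [b, sympForm])
  obtain ⟨l, hl, l1, b, hb, l2⟩ := perp_irr h hx hc ht (S := {y | y ∈ TSet hA X ∧ ω v y ≠ 0})
    ⟨hT k hk, e'⟩ (nz e') (a := g.1 *ᵥ x) (fun y hy => by
      by_contra e1
      have := H _ (add_mem_TSet (hT g hg) hy.1 (by simpa using e1)) (by
        rwa [form_add_right, show ω u y = 0 from by_contra fun a => hy.2 (H y hy.1 a), add_zero])
      rw [form_add_right, H _ (hT g hg) e, zero_add] at this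
      exact hy.2 this) (nz e)
  refine l1 fun y hy => by_contra fun e1 => l2 ?_
  have e2 : ω v (l.1 *ᵥ x) = 0 := by_contra fun a => l2 (hb _ ⟨hT l hl, a⟩)
  have := hb _ ⟨add_mem_TSet (hT l hl) hy.1 (by simpa using e1), by
    rw [form_add_right, e2, zero_add]; exact hy.2⟩
  rwa [form_add_right, hb y hy, add_zero] at this

end Cfsg.Lib.Class.Sp4O
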