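import Cfsg.Agent.Class.Sp4O.Base
import Cfsg.Agent.Mit.Proj
import Cfsg.Agent.Mit.Field

/-! Traces and types of single elements of `Sp₄(F)`, `char F ≠ 2`. -/

set_option autoImplicit false

namespace Cfsg.Lib.Class.Sp4O

open Matrix Module QuadraticMap Cfsg.Geo Cfsg.Lib.Class.Asch Cfsg.Lib.Class.Orth Cfsg.Lib.Mit

variable {F : Type*} [Field F]

/-- The sum of an element and its inverse. -/
def sm (g : G4 F) : M4 F := g.1 + (g⁻¹).1

theorem sm_eq (g : G4 F) : sm g = Jm g + (g.1.trace / 2) • 1 := add_inv_eq g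

theorem sm_inv (g : G4 F) : sm g⁻¹ = sm g := by rw [sm, sm, inv_inv, add_comm]

theorem sm_mul_pow (g : G4 F) (k : ℕ) : sm g * sm (g ^ (k + 1)) = sm (g ^ (k + 2)) + sm (g ^ k) := by
  simp only [sm, mul_add, add_mul, ← Units.val_mul]
  rw [show g * g ^ (k + 1) = g ^ (k + 2) by group, show g⁻¹ * g ^ (k + 1) = g ^ k by group,
    show g * (g ^ (k + 1))⁻¹ = (g ^ k)⁻¹ by group,
    show g⁻¹ * (g ^ (k + 1))⁻¹ = (g ^ (k + 2))⁻¹ by group]
  abel

theorem sm_one : sm (1 : G4 F) = (2 : F) • 1 := by simp [sm, two_smul]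

theorem sm_sq (g : G4 F) : sm g * sm g = sm (g ^ 2) + (2 : F) • 1 := by
  simpa [sm_one] using sm_mul_pow g 0

theorem tr_one4 : (1 : M4 F).trace = 4 := by simp

theorem tr_sm {g : G4 F} (hg : g ∈ spGL 2 F) : (sm g).trace = 2 * g.1.trace := by
  rw [sm, trace_add, trace_inv_eq hg, two_mul]

theorem Jm_sq (h2 : (2 : F) ≠ 0) {g : G4 F} (hg : g ∈ spGL 2 F) :
    ∃ c : F, Jm g * Jm g = c • 1 := ⟨_, mul_self_W h2 ⟨_, Jm_mem h2 hg⟩⟩

theorem smul_one_inj {a b : F} (h : a • (1 : M4 F) = b • 1) : a = b :=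
  smul_left_injective F one_ne_zero h

/-- The coefficients of a quadratic equation for `g + g⁻¹`. -/
theorem sm_quad (h2 : (2 : F) ≠ 0) {g : G4 F} (hg : g ∈ spGL 2 F) {a b : F}
    (h : sm g * sm g + a • sm g + b • 1 = 0) :
    (Jm g = 0 ∧ g.1.trace ^ 2 + 2 * a * g.1.trace + 4 * b = 0) ∨ g.1.trace = -a := by
  obtain ⟨c, hc⟩ := Jm_sq h2 hg
  obtain ⟨m, hm⟩ : ∃ m, g.1.trace = 2 * m := ⟨g.1.trace / 2, by field_simp⟩
  rw [sm_eq, hm, mul_div_cancel_left₀ _ h2] at h
  simp only [mul_add, add_mul, hc, Matrix.mul_smul, Matrix.smul_mul, mul_one, one_mul] at h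
  by_cases h0 : Jm g = 0
  · rw [h0] at h hc
    rw [mul_zero] at hc
    have h1 : (m * m + a * m + b) • (1 : M4 F) = (0 : F) • 1 := by
      linear_combination (norm := module) h + hc
    exact .inl ⟨h0, by rw [hm]; linear_combination 4 * smul_one_inj h1⟩
  · have := (quad_coeff h2 (Jm_mem h2 hg) h0 (a := 2 * m + a) (b := c + m * m + a * m + b)
      (by linear_combination (norm := module) h)).1
    exact .inr (by rw [hm]; linear_combination this)

theorem tr_pow_char (p : ℕ) [hp : Fact p.Prime] [CharP F p] (h2 : (2 : F) ≠ 0) {g : G4 F}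
    (hg : g ∈ spGL 2 F) : (g ^ p).1.trace = g.1.trace ^ p := by
  obtain ⟨c, hc⟩ := Jm_sq h2 hg
  obtain ⟨k, hk⟩ := hp.out.odd_of_ne_two (by
    rintro rfl; exact h2 (by exact_mod_cast CharP.cast_eq_zero F 2))
  have e1 : sm (g ^ p) = sm g ^ p := by
    rw [sm, sm, add_pow_char_of_commute _ (Commute.refl g.1).units_inv_right, ← inv_pow]
    simp
  have e2 : (Jm g ^ p).trace = 0 := by
    rw [hk, pow_succ, pow_mul, pow_two, hc, smul_pow, one_pow, Matrix.smul_mul, trace_smul, one_mul,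
      (Jm_mem h2 hg).2, smul_zero]
  have e3 : (2 : F) ^ p = 2 := map_ofNat (frobenius F p) 2
  have e4 := congrArg trace e1
  rw [tr_sm (pow_mem hg p), sm_eq, add_pow_char_of_commute _ ((Commute.one_right _).smul_right _),
    trace_add, e2, smul_pow, one_pow, trace_smul, tr_one4, div_pow, e3] at e4
  refine mul_left_cancel₀ h2 (e4.trans ?_)
  simp only [smul_eq_mul]
  field_simp
  ring

theorem tr_pow_char_pow (p : ℕ) [Fact p.Prime] [CharP F p] (h2 : (2 : F) ≠ 0) {g : G4 F}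
    (hg : g ∈ spGL 2 F) (k : ℕ) : (g ^ p ^ k).1.trace = g.1.trace ^ p ^ k := by
  induction k with
  | zero => simp
  | succ k ih => rw [pow_succ, pow_mul, pow_mul, tr_pow_char p h2 (pow_mem hg _), ih]

theorem int_pow_char (p : ℕ) [Fact p.Prime] [CharP F p] (n : ℤ) (k : ℕ) :
    (n : F) ^ p ^ k = n := map_intCast (iterateFrobenius F p k) n

/-- An element whose `p`-th power is `±1` has trace `±4`. -/
theorem tr_of_pow_char (p : ℕ) [Fact p.Prime] [CharP F p] (h2 : (2 : F) ≠ 0) {g : G4 F}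
    (hg : g ∈ spGL 2 F) (h : g ^ p = 1 ∨ g ^ p = -1) : g.1.trace = 4 ∨ g.1.trace = -4 := by
  have e := tr_pow_char p h2 hg
  refine h.imp (fun h => frobenius_inj F p ?_) fun h => frobenius_inj F p ?_
  · rw [frobenius_def, ← e, h, map_ofNat]; exact tr_one4
  · rw [frobenius_def, ← e, h, map_neg, map_ofNat]; simp

theorem St.card_le [Fintype F] {P : Subgroup (G4 F)} (h : St P) (p : ℕ) [hp : Fact p.Prime]
    [CharP F p] {k : ℕ} (hk : k ≠ 0) (ht : ∀ g ∈ P, g.1.trace ^ p ^ k = g.1.trace) :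
    Fintype.card F ≤ p ^ k :=
  card_le_of_pow_eq_self (Nat.one_lt_pow hk hp.out.one_lt) fun t =>
    (h.tr ((iterateFrobenius F p k).eqLocusField (RingHom.id F)) ht).ge (Subfield.mem_top t)

theorem St.card_eq [Fintype F] {P : Subgroup (G4 F)} (h : St P) (p : ℕ) [hp : Fact p.Prime]
    [CharP F p] (ht : ∀ g ∈ P, g.1.trace ^ p = g.1.trace) : Fintype.card F = p := by
  have h1 := h.card_le p one_ne_zero (by simpa using ht)
  obtain ⟨n, -, hn⟩ := FiniteField.card F p
  rw [hn, pow_le_pow_iff_right₀ hp.out.one_lt] at h1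
  rw [hn, show (n : ℕ) = 1 from le_antisymm h1 n.2, pow_one]

theorem W_mul_eq_zero (h2 : (2 : F) ≠ 0) {X N N' : M4 F} (hX : X ∈ W F) (h0 : X ≠ 0)
    (h1 : N * X = 0) (h3 : X * N' = 0) : N * N' = 0 := by
  obtain ⟨Y, hY⟩ : ∃ Y : W F, polar (Qw F) ⟨X, hX⟩ Y ≠ 0 := by
    by_contra! H
    exact h0 (congrArg Subtype.val ((Qw_nondeg h2).1 ⟨X, hX⟩ H))
  have h := anticomm h2 ⟨X, hX⟩ Y
  refine smul_right_injective _ hY ?_
  calc _ = N * (X * Y.1 + Y.1 * X) * N' := by simp [h]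
    _ = N * X * Y.1 * N' + N * Y.1 * (X * N') := by noncomm_ring
    _ = _ := by simp [h1, h3]

theorem Jm_unip {u : G4 F} (h2 : (2 : F) ≠ 0) (ht : u.1.trace = 4) :
    Jm u = (u⁻¹).1 * ((u.1 - 1) * (u.1 - 1)) := by
  rw [Jm, ht, show (4 : F) / 2 = 2 by field_simp; norm_num, two_smul]
  simp only [mul_sub, sub_mul, mul_one, one_mul, ← mul_assoc, Units.inv_mul]
  abel

/-- In characteristic three the elements of order three are quadratic. -/
theorem quad_of_cube (h2 : (2 : F) ≠ 0) [CharP F 3] {u : G4 F} (hu : u ∈ spGL 2 F)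
    (h : u ^ 3 = 1) : (u.1 - 1) * (u.1 - 1) = 0 := by
  have : Fact (Nat.Prime 3) := ⟨Nat.prime_three⟩
  have h3 : (u.1 - 1) ^ 3 = 0 := by
    rw [sub_pow_char_of_commute _ (Commute.one_right _), ← Units.val_pow_eq_pow_val, h]; simp
  have ht : u.1.trace = 4 := frobenius_inj F 3 (by
    rw [frobenius_def, ← tr_pow_char 3 h2 hu, h, map_ofNat]; exact tr_one4)
  have hc : Commute (u.1 - 1) (u⁻¹).1 :=
    ((Commute.refl u.1).units_inv_right).sub_left (Commute.one_left _)
  by_cases h0 : Jm u = 0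
  · rw [Jm_unip h2 ht] at h0
    exact (Units.mul_right_eq_zero _).1 h0
  refine W_mul_eq_zero h2 (Jm_mem h2 hu) h0 ?_ ?_
  · rw [Jm_unip h2 ht, ← mul_assoc, hc.eq, mul_assoc, ← pow_three, h3, mul_zero]
  · rw [Jm_unip h2 ht, mul_assoc, ← pow_three', h3, mul_zero]

theorem sm_of_sq {x : G4 F} (h : x * x = -1) : sm x = (0 : F) • 1 := by
  rw [sm, inv_eq_of_mul_eq_one_right (b := -x) (by rw [mul_neg, h, neg_neg])]; simp

theorem tr_of_sq (h2 : (2 : F) ≠ 0) {x : G4 F} (hx : x ∈ spGL 2 F) (h : x * x = -1) :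
    x.1.trace = 0 := by
  have := tr_sm hx
  rw [sm_of_sq h] at this
  simpa [h2] using this

/-- The types of elements of order three. -/
theorem cube_cases (h2 : (2 : F) ≠ 0) (h3 : (3 : F) ≠ 0) {y : G4 F} (hy : y ∈ spGL 2 F)
    (h : y ^ 3 = 1) : y = 1 ∨ sm y = (-1 : F) • 1 ∨ y.1.trace = 1 := by
  have e : y ^ 2 = y⁻¹ := eq_inv_of_mul_eq_one_left (by rw [← pow_succ, h])
  rcases sm_quad h2 hy (a := -1) (b := -2) (by rw [sm_sq, e, sm_inv]; module) with ⟨h0, h1⟩ | h1
  · have e1 := sm_eq y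
    rw [h0, zero_add] at e1
    rcases mul_eq_zero.1 (show (y.1.trace - 4) * (y.1.trace + 2) = 0 by linear_combination h1)
      with h1 | h1
    · left
      rw [sub_eq_zero.1 h1, show (4 : F) / 2 = 2 by field_simp; norm_num, sm, ← e] at e1
      have e2 : y.1 * (y.1 * y.1) = 1 := by rw [← pow_three, ← Units.val_pow_eq_pow_val, h]; rfl
      have e3 := congrArg (y.1 * ·) e1
      simp only [pow_two, Units.val_mul, mul_add, e2, Matrix.mul_smul, mul_one] at e1 e3
      exact Units.ext (smul_right_injective _ h3 (by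
        simp only [Units.val_one]; linear_combination (norm := module) e1 - e3))
    · exact .inr (.inl (by rw [e1, eq_neg_of_add_eq_zero_left h1]; congr 1; field_simp))
  · exact .inr (.inr (by rw [h1, neg_neg]))

/-- The product of quadratic elements of orders four and three. -/
theorem five_of_quad {a b : G4 F} (ha : a * a = -1) (hb : sm b = (-1 : F) • 1)
    (h : (a * b) ^ 5 = 1) : sm (a * b) * sm (a * b) + sm (a * b) - 1 = 0 ∧
      sm (a * b) * a.1 = a.1 * sm (a * b) ∧ sm (a * b) * b.1 = b.1 * sm (a * b) := by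
  have ha' : a.1 * a.1 = -1 := congrArg Units.val ha
  have hb1 : (b⁻¹).1 = -1 - b.1 := by rw [sm] at hb; linear_combination (norm := module) hb
  have hb' : b.1 * b.1 = -1 - b.1 := by
    have := b.mul_inv
    rw [hb1] at this
    linear_combination (norm := noncomm_ring) -this
  have hs : sm (a * b) = a.1 * b.1 + b.1 * a.1 + a.1 := by
    rw [sm, _root_.mul_inv_rev, inv_eq_of_mul_eq_one_right (a := a) (b := -a) (by
      rw [mul_neg, ha, neg_neg]), Units.val_mul, Units.val_mul, hb1, Units.val_neg]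
    noncomm_ring
  have c1 : sm (a * b) * a.1 = a.1 * sm (a * b) := by
    rw [hs]; linear_combination (norm := noncomm_ring) b.1 * ha' - ha' * b.1
  have c2 : sm (a * b) * b.1 = b.1 * sm (a * b) := by
    rw [hs]; linear_combination (norm := noncomm_ring) a.1 * hb' - hb' * a.1
  refine ⟨?_, c1, c2⟩
  generalize hc : sm (a * b) * sm (a * b) + sm (a * b) - 1 = c
  have d1 : c * a.1 = a.1 * c := by
    rw [← hc]; linear_combination (norm := noncomm_ring) sm (a * b) * c1 + c1 * sm (a * b) + c1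
  have d3 : c * (a.1 * b.1) = c := by
    have i1 : (a * b)⁻¹ = (a * b) ^ 4 := inv_eq_of_mul_eq_one_left (by rw [← pow_succ, h])
    have i2 : ((a * b) ^ 2)⁻¹ = (a * b) ^ 3 := inv_eq_of_mul_eq_one_left (by rw [← pow_add, h])
    have i3 : (a * b).1 ^ 5 = 1 := by rw [← Units.val_pow_eq_pow_val, h]; rfl
    rw [← hc, sm_sq, sm, sm, i1, i2, two_smul, ← Units.val_mul]
    simp only [Units.val_pow_eq_pow_val]
    linear_combination (norm := noncomm_ring) i3
  have d4 : c * b.1 = -(a.1 * c) := by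
    linear_combination (norm := noncomm_ring) -(a.1 * d3) - d1 * (a.1 * b.1) + c * ha' * b.1
  linear_combination (norm := noncomm_ring) c * a.1 * hb' - d3 * b.1 - d3 - d1 - d4

end Cfsg.Lib.Class.Sp4O
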