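import Cfsg.Agent.Class.Sp4O.T4A

/-! Double covers inside `Sp₄(F)` and root frames in the orthogonal module. -/

set_option autoImplicit false

namespace Cfsg.Lib.Class.Sp4O

open Matrix Module QuadraticMap Cfsg.Geo Cfsg.Lib.Class.Asch Cfsg.Lib.Class.Orth Cfsg.Lib.Mit

variable {F : Type*} [Field F] {G : Type*} [Group G] {P : Subgroup (G4 F)} {π : P →* G}

/-- `P` is a double cover of `G` with a unique involution. -/
structure Cv (P : Subgroup (G4 F)) (π : P →* G) : Prop extends St P, Proj P π where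
  h2 : (2 : F) ≠ 0
  inv : ∀ t ∈ P, t * t = 1 → t = 1 ∨ t = -1
  neg : -1 ∈ P

/-- The square of a lift. -/
noncomputable def lsq (π : P →* G) (γ : G) : G4 F := (Function.invFun π γ).1 ^ 2

theorem lsq_mem (γ : G) : lsq π γ ∈ P := pow_mem (Function.invFun π γ).2 2

namespace Cv

variable (h : Cv P π)
include h

theorem comp {G' : Type*} [Group G'] (e : G ≃* G') : Cv P (e.toMonoidHom.comp π) :=
  { h with
    surj := e.surjective.comp h.surj
    ker := fun x => (MulEquiv.map_eq_one_iff e).trans (h.ker x) }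

theorem ker' (x : P) : π x = 1 ↔ x.1 = 1 ∨ x.1 = -1 :=
  (h.ker x).trans ⟨eq_of_mem_scalars (h.le x.2), fun e => e.elim (· ▸ one_mem _)
    (· ▸ neg_one_mem_scalars)⟩

theorem eq_or {x y : P} (e : π x = π y) : y.1 = x.1 ∨ y.1 = -x.1 :=
  ((h.ker' (x⁻¹ * y)).1 (by rw [map_mul, map_inv, e, inv_mul_cancel])).imp
    (fun e => (inv_mul_eq_one.1 e).symm) fun e => by
      rw [← mul_neg_one, ← e]; simp

theorem sq_eq {x : P} (h1 : π x ^ 2 = 1) (h0 : π x ≠ 1) : x.1 * x.1 = -1 :=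
  ((h.ker' (x * x)).1 (by rw [map_mul, ← pow_two, h1])).resolve_left fun e =>
    h0 ((h.ker' x).2 (h.inv _ x.2 e))

theorem lsq_π (x : P) : lsq π (π x) = x.1 ^ 2 := by
  rcases h.eq_or (Function.invFun_eq (f := π) ⟨x, rfl⟩).symm with e | e <;> simp [lsq, e]

theorem lsq_pow (γ : G) (k : ℕ) : lsq π (γ ^ k) = lsq π γ ^ k := by
  obtain ⟨x, rfl⟩ := h.surj γ
  rw [← map_pow, h.lsq_π, h.lsq_π, Subgroup.coe_pow, ← pow_mul, ← pow_mul, mul_comm]

theorem lsq_one : lsq π 1 = 1 := by simpa using h.lsq_pow 1 0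

theorem lsq_pow_eq_one {γ : G} {k : ℕ} (e : γ ^ k = 1) : lsq π γ ^ k = 1 := by
  rw [← h.lsq_pow, e, h.lsq_one]

theorem lsq_inv (γ : G) : lsq π γ⁻¹ = (lsq π γ)⁻¹ := by
  obtain ⟨x, rfl⟩ := h.surj γ
  rw [← map_inv, h.lsq_π, h.lsq_π, Subgroup.coe_inv, inv_pow]

theorem lsq_conj (x : P) (γ : G) : lsq π (π x * γ * (π x)⁻¹) = x.1 * lsq π γ * x.1⁻¹ := by
  obtain ⟨y, rfl⟩ := h.surj γ
  rw [← map_inv, ← map_mul, ← map_mul, h.lsq_π, h.lsq_π]
  exact conj_pow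

theorem π_lsq (γ : G) : π ⟨lsq π γ, lsq_mem γ⟩ = γ ^ 2 := by
  obtain ⟨x, rfl⟩ := h.surj γ
  rw [← map_pow]
  exact congrArg π (Subtype.ext (h.lsq_π x))

theorem sp (γ : G) : lsq π γ ∈ spGL 2 F := h.le (lsq_mem γ)

/-- Lifts of odd order are squares of lifts. -/
theorem eq_lsq {x : P} {k : ℕ} (e : x.1 ^ (2 * k + 1) = 1) : lsq π (π x ^ (k + 1)) = x := by
  rw [← map_pow, h.lsq_π, Subgroup.coe_pow, ← pow_mul, show (k + 1) * 2 = 2 * k + 1 + 1 by ring,
    pow_succ, e, one_mul]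

theorem eq_or_lsq {x : P} {k : ℕ} (e : π x ^ (2 * k + 1) = 1) :
    x.1 = lsq π (π x ^ (k + 1)) ∨ x.1 = -lsq π (π x ^ (k + 1)) :=
  h.eq_or (x := ⟨_, lsq_mem _⟩) (by
    rw [h.π_lsq, ← pow_mul, show (k + 1) * 2 = 2 * k + 1 + 1 by ring, pow_succ, e, one_mul])

theorem tr_lsq {γ δ : G} (e : IsConj γ δ) : (lsq π δ).1.trace = (lsq π γ).1.trace := by
  obtain ⟨c, rfl⟩ := isConj_iff.1 e
  obtain ⟨x, rfl⟩ := h.surj c
  rw [h.lsq_conj]
  exact trace_units_conj _ _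

/-- The action of `G` on the orthogonal module. -/
noncomputable def act : G →* O (Qw F) :=
  π.liftOfSurjective h.surj ⟨rho.comp (Subgroup.inclusion h.le), fun x hx =>
    (rho_eq_one_iff _).2 ((h.ker' x).1 hx)⟩

theorem act_π (x : P) : h.act (π x) = rho ⟨x.1, h.le x.2⟩ :=
  π.liftOfRightInverse_comp_apply _ _ _ x

/-- The vector attached to an element of `G`. -/
noncomputable def V (γ : G) : W F := ⟨Jm (lsq π γ), Jm_mem h.h2 (h.sp γ)⟩

theorem V_val (γ : G) : (h.V γ).1 = Jm (lsq π γ) := rfl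

theorem act_V (g γ : G) : (h.act g).1 (h.V γ) = h.V (g * γ * g⁻¹) := by
  obtain ⟨x, rfl⟩ := h.surj g
  exact Subtype.ext (by rw [h.act_π, rho_apply, V_val, V_val, h.lsq_conj, Jm_conj])

theorem V_inv (γ : G) : h.V γ⁻¹ = h.V γ :=
  Subtype.ext (by rw [V_val, V_val, h.lsq_inv, Jm_inv (h.sp γ)])

theorem ind (g : spGL 2 F) (hg : ∀ x ∈ P, g.1 * x * g.1⁻¹ ∈ P) :
    ∃ ψ : G →* G, Function.Injective ψ ∧ (∀ x : P, ψ (π x) = π ⟨_, hg x x.2⟩) ∧
      (∀ γ, lsq π (ψ γ) = g.1 * lsq π γ * g.1⁻¹) ∧ ∀ γ, (rho g).1 (h.V γ) = h.V (ψ γ) := by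
  obtain ⟨ψ, h1, h3⟩ := h.exists_ind hg
  have e : ∀ γ, lsq π (ψ γ) = g.1 * lsq π γ * g.1⁻¹ := fun γ => by
    obtain ⟨x, rfl⟩ := h.surj γ
    rw [h3, h.lsq_π, h.lsq_π]
    exact conj_pow
  exact ⟨ψ, h1, h3, e, fun γ => Subtype.ext (by rw [rho_apply, V_val, V_val, e, Jm_conj])⟩

theorem quad {a b : P} {α β : F} (ha : sm a.1 = α • 1) (hb : sm b.1 = β • 1)
    (hG : ∀ K : Subgroup G, π a ∈ K → π b ∈ K → K = ⊤) : False := by
  refine quad_pair h.env_top ha hb fun x hx => ?_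
  obtain ⟨y, hy, e⟩ := (hG ((Subgroup.closure {a.1, b.1, -1}).subgroupOf P |>.map π)
    ⟨a, Subgroup.subset_closure (by simp), rfl⟩ ⟨b, Subgroup.subset_closure (by simp), rfl⟩).ge
    (Subgroup.mem_top (π ⟨x, hx⟩))
  rcases h.eq_or e with e | e
  · exact (show x = y from e) ▸ hy
  · rw [show x = -1 * y.1 from e.trans (neg_one_mul _).symm]
    exact mul_mem (Subgroup.subset_closure (a := -1) (by simp)) hy

theorem fix' {X : W F} (hX : ∀ g, (h.act g).1 X = X) : X = 0 :=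
  Subtype.ext (h.fix h.h2 X.2 fun g hg => comm_of_conj_eq (by
    have := hX (π ⟨g, hg⟩)
    rw [h.act_π] at this
    exact congrArg Subtype.val this))

theorem span_top {Φ : Set (W F)} (hΦ : ∀ g, ∀ a ∈ Φ, (h.act g).1 a ∈ Submodule.span F Φ)
    {a : W F} (ha : a ∈ Φ) (h0 : a ≠ 0) : Submodule.span F Φ = ⊤ :=
  (h.irrW h.h2 _ fun g hg X hX => by
    have := hΦ (π ⟨g.1, hg⟩)
    rw [h.act_π] at this
    exact (Submodule.span_le (p := (Submodule.span F Φ).comap (rho g).1.toLinearMap)).2 this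
      hX).resolve_left fun e => h0 ((Submodule.mem_bot F).1 (e ▸ Submodule.subset_span ha))

end Cv

/-- A frame whose differences form a root system of type `A`. -/
structure Fr {ι : Type*} [DecidableEq ι] (u : ι → W F) (κ : F) (f : ι → F) : Prop where
  h2 : (2 : F) ≠ 0
  h3 : (3 : F) ≠ 0
  ne : κ ≠ 0
  gram : ∀ a c, polar (Qw F) (u a) (u c) = (if a = c then κ else 0) + f a + f c

namespace Fr

variable {ι : Type*} [DecidableEq ι] {u : ι → W F} {κ : F} {f : ι → F} (h : Fr u κ f)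
include h

theorem pol (a b c d : ι) : polar (Qw F) (u a - u b) (u c - u d) = (if a = c then κ else 0) -
    (if a = d then κ else 0) - (if b = c then κ else 0) + if b = d then κ else 0 := by
  simp only [polar_sub_left, polar_sub_right, h.gram]
  ring

theorem norm {a b : ι} (e : a ≠ b) : Qw F (u a - u b) = κ :=
  mul_left_cancel₀ h.h2 (by rw [← polar_self', h.pol]; simp [e, e.symm, two_mul])

theorem inj {a b c d : ι} (e : a ≠ b) (e' : c ≠ d)
    (h1 : polar (Qw F) (u a - u b) (u c - u d) = 2 * κ) : a = c ∧ b = d := by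
  have h2 := h.h2
  have h3 := h.h3
  have h4 := h.ne
  have h5 := four_ne h2
  rw [h.pol] at h1
  split_ifs at h1 <;> grind

theorem refl_apply' {a b : ι} (e : a ≠ b) (x y : ι) : (refl (Qw F) (u a - u b)).1 (u x - u y) =
    u (Equiv.swap a b x) - u (Equiv.swap a b y) := by
  have key : ∀ x, u (Equiv.swap a b x) = u x - (κ⁻¹ * ((if x = a then κ else 0) -
      if x = b then κ else 0)) • (u a - u b) := fun x => by
    by_cases h1 : x = a
    · simp [h1, e, h.ne]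
    by_cases h2 : x = b
    · simp [h2, e.symm, h.ne]; module
    · simp [h1, h2, Equiv.swap_apply_of_ne_of_ne]
  rw [refl_apply, h.norm e, h.pol, key, key]
  module

/-- The products of two roots lie in a maximal subgroup which permutes the roots. -/
theorem mem {H : Subgroup (G4 F)} (hH : IsMaximalIn (spGL 2 F) H)
    (hs : Submodule.span F {X | ∃ a b, a ≠ b ∧ X = u a - u b} = ⊤)
    (hi : ∀ g : spGL 2 F, g.1 ∈ H → ∀ a b, a ≠ b →
      ∃ c d, c ≠ d ∧ (rho g).1 (u a - u b) = u c - u d) [Finite ι] {a b c d : ι} (e : a ≠ b)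
    (e' : c ≠ d) : ∃ g : spGL 2 F, g.1 ∈ H ∧ g.1.1 = κ⁻¹ • ((u a - u b).1 * (u c - u d).1) ∧
      rho g = refl (Qw F) (u a - u b) * refl (Qw F) (u c - u d) := by
  obtain ⟨g, h1, h3⟩ := exists_mul_root h.h2 (u a - u b) (u c - u d) (h.norm e ▸ h.ne)
    (by rw [h.norm e, h.norm e'])
  refine ⟨g, ?_, h.norm e ▸ h1, h3⟩
  have := stab_ne h.h2 hs (by
    rintro _ ⟨a, b, e, rfl⟩ _ ⟨c, d, e', rfl⟩ h1
    obtain ⟨rfl, rfl⟩ := h.inj e e' (h.norm e ▸ h1)
    rfl)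
  rw [← (hH.2 _ (le_stab hH.1.le ?_) (stab_le _)).resolve_right this]
  · refine mem_stab_of_finite (((Set.finite_range fun p : ι × ι => u p.1 - u p.2).subset ?_).image _)
      g.2 ?_
    · rintro _ ⟨a, b, -, rfl⟩
      exact ⟨(a, b), rfl⟩
    · rintro _ ⟨_, ⟨x, y, e1, rfl⟩, rfl⟩
      refine ⟨_, ⟨_, _, (Equiv.swap a b * Equiv.swap c d).injective.ne e1, rfl⟩, ?_⟩
      rw [← rho_apply, h3, O_mul_apply, h.refl_apply' e', h.refl_apply' e]
      rfl
  · rintro g hg _ ⟨_, ⟨x, y, e1, rfl⟩, rfl⟩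
    obtain ⟨c, d, e2, e3⟩ := hi ⟨g, hH.1.le hg⟩ hg x y e1
    exact ⟨_, ⟨c, d, e2, rfl⟩, (congrArg Subtype.val e3).symm⟩

end Fr

/-- An isometry permuting the six vectors up to sign permutes their differences. -/
theorem Fr.six {ι : Type*} [DecidableEq ι] {v : ι → W F} (h : Fr v 12 fun _ => -1)
    {g : O (Qw F)} (hg : ∀ a, ∃ c, g.1 (v a) = v c ∨ g.1 (v a) = -v c) {a b : ι} (e : a ≠ b) :
    ∃ c d, c ≠ d ∧ g.1 (v a - v b) = v c - v d := by
  have h2 := h.ne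
  have h3 := four_ne h.h2
  have h4 : (8 : F) ≠ 0 := by rw [show (8 : F) = 2 * 4 by norm_num]; exact mul_ne_zero h.h2 h3
  have h1 := O_polar g (v a) (v b)
  obtain ⟨c, hc | hc⟩ := hg a <;> obtain ⟨d, hd | hd⟩ := hg b <;>
    simp only [hc, hd, polar_neg_left, polar_neg_right, h.gram, if_neg e] at h1
  · exact ⟨c, d, fun e => by rw [if_pos e] at h1; grind, by rw [map_sub, hc, hd]⟩
  · split_ifs at h1 <;> grind
  · split_ifs at h1 <;> grind
  · exact ⟨d, c, fun e => by rw [if_pos e.symm] at h1; grind, by rw [map_sub, hc, hd]; abel⟩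

end Cfsg.Lib.Class.Sp4O
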